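import Mathlib
import Cfsg.Agent.H28.Coprime

/-!
# S1299 piece AB (helper67, for helper1)

Coprime action on the abelianization: if a `p`-group `F` normalizes the subgroups `X i`
generating the `p'`-group `T`, then every `F`-fixed element of `T` lies, modulo `T'`, in the
subgroup generated by the fixed points `C_{X i}(F)`.
-/

set_option autoImplicit false
set_option linter.unusedSectionVars false
set_option linter.unusedVariables false
set_option linter.style.haveILetI false

namespace Cfsg.Agent.H67.KBal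

/-- conjugation by a normalizing element as an endomorphism of the subgroup -/
def conjHom {G : Type*} [Group G] (T : Subgroup G) (f : G)
    (hf : f ∈ Subgroup.normalizer (T : Set G)) : ↥T →* ↥T where
  toFun t := ⟨f * t * f⁻¹, (Subgroup.mem_normalizer_iff.mp hf t).mp t.2⟩
  map_one' := by
    apply Subtype.ext
    simp
  map_mul' a b := by
    apply Subtype.ext
    simp [mul_assoc]

theorem conjHom_coe {G : Type*} [Group G] (T : Subgroup G) (f : G)
    (hf : f ∈ Subgroup.normalizer (T : Set G)) (t : T) :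
    ((conjHom T f hf t : T) : G) = f * t * f⁻¹ := rfl

theorem of_surj {H : Type*} [Group H] (q : Abelianization H) : ∃ t : H, Abelianization.of t = q :=
  QuotientGroup.mk_surjective q

theorem of_eq_of_iff {H : Type*} [Group H] (a b : H) :
    Abelianization.of a = Abelianization.of b ↔ b⁻¹ * a ∈ commutator H := by
  rw [MonoidHom.eq_iff, Abelianization.ker_of]

theorem mem_commutator_sub {G : Type*} [Group G] (T : Subgroup G) (t : T) :
    t ∈ commutator T ↔ (t : G) ∈ ⁅T, T⁆ := by
  rw [← Cfsg.Agent.H28.map_subtype_commutator T]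
  constructor
  · intro h
    exact ⟨t, h, rfl⟩
  · rintro ⟨s, hs, hst⟩
    have : s = t := Subtype.ext hst
    rwa [this] at hs

theorem exists_mem_iSup_centralizer {G : Type*} [Group G] [Finite G] (p : ℕ) [Fact p.Prime]
    {ι : Type*} (X : ι → Subgroup G) (T F : Subgroup G) (hT : T = ⨆ i, X i)
    (hpT : ¬ p ∣ Nat.card ↥T) (hF : IsPGroup p ↥F)
    (hFX : ∀ i, F ≤ Subgroup.normalizer ((X i : Subgroup G) : Set G))
    (c : G) (hc : c ∈ T) (hcF : ∀ f ∈ F, f * c * f⁻¹ = c) :
    ∃ y ∈ ⨆ i, X i ⊓ Subgroup.centralizer ((F : Subgroup G) : Set G), y⁻¹ * c ∈ ⁅T, T⁆ := by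
  classical
  have hp : p.Prime := Fact.out
  have hXT : ∀ i, X i ≤ T := fun i => hT ▸ le_iSup X i
  have hFT : F ≤ Subgroup.normalizer (T : Set G) := by
    rw [hT]
    exact Cfsg.Agent.H28.le_normalizer_iSup F X hFX
  have hFT' : F ≤ Subgroup.normalizer ((⁅T, T⁆ : Subgroup G) : Set G) :=
    hFT.trans (Cfsg.Agent.H28.normalizer_le_normalizer_commutator T)
  letI : Fintype F := Fintype.ofFinite F
  -- the action on the abelianization
  let α : F → (Abelianization T →* Abelianization T) :=
    fun f => Abelianization.map (conjHom T (f : G) (hFT f.2))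
  have hα_of : ∀ (f : F) (t : T), α f (Abelianization.of t)
      = Abelianization.of (conjHom T (f : G) (hFT f.2) t) := fun f t => Abelianization.map_of _ t
  have hα_mul : ∀ (g f : F) (q : Abelianization T), α g (α f q) = α (g * f) q := by
    intro g f q
    obtain ⟨t, rfl⟩ := of_surj q
    rw [hα_of, hα_of, hα_of]
    congr 1
    apply Subtype.ext
    simp only [conjHom_coe, Subgroup.coe_mul, mul_inv_rev]
    group
  let N : Abelianization T →* Abelianization T := ∏ f : F, α f
  have hN : ∀ q, N q = ∏ f : F, α f q := fun q => MonoidHom.finsetProd_apply _ _ q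
  have hN_fixed : ∀ (g : F) (q : Abelianization T), α g (N q) = N q := by
    intro g q
    rw [hN, map_prod]
    simp only [hα_mul]
    exact Fintype.prod_equiv (Equiv.mulLeft g) _ _ (fun f => rfl)
  set D : Subgroup G := ⨆ i, X i ⊓ Subgroup.centralizer ((F : Subgroup G) : Set G) with hD
  have hDT : D ≤ T := iSup_le (fun i => inf_le_left.trans (hXT i))
  let L : Subgroup (Abelianization T) := (D.subgroupOf T).map Abelianization.of
  -- the norm maps each `X i` into `L`
  have step : ∀ i, ∀ x (hx : x ∈ X i), N (Abelianization.of ⟨x, hXT i hx⟩) ∈ L := by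
    intro i x hx
    have h1 : N (Abelianization.of ⟨x, hXT i hx⟩) ∈
        ((X i).subgroupOf T).map Abelianization.of := by
      rw [hN]
      apply Subgroup.prod_mem
      intro f _
      rw [hα_of]
      refine ⟨_, Subgroup.mem_subgroupOf.mpr ?_, rfl⟩
      rw [conjHom_coe]
      exact (Subgroup.mem_normalizer_iff.mp (hFX i f.2) x).mp hx
    obtain ⟨x', hx'0, hx'eq⟩ := h1
    have hx' : (x' : G) ∈ X i := Subgroup.mem_subgroupOf.mp hx'0
    have hfix : ∀ b ∈ F, (x' : G)⁻¹ * (b * x' * b⁻¹) ∈ ⁅T, T⁆ := by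
      intro b hb
      have h2 : α ⟨b, hb⟩ (Abelianization.of x') = Abelianization.of x' := by
        rw [hx'eq]
        exact hN_fixed ⟨b, hb⟩ _
      rw [hα_of, of_eq_of_iff, mem_commutator_sub] at h2
      exact h2
    have hM : ¬ p ∣ Nat.card (⁅T, T⁆ ⊓ X i : Subgroup G) := by
      intro h
      exact hpT (h.trans (Subgroup.card_dvd_of_le (inf_le_right.trans (hXT i))))
    have hx2 : ∀ b ∈ F, ∀ m ∈ (⁅T, T⁆ ⊓ X i : Subgroup G),
        (x' : G)⁻¹ * (b * ((x' : G) * m) * b⁻¹) ∈ (⁅T, T⁆ ⊓ X i : Subgroup G) := by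
      intro b hb m hm
      have e : (x' : G)⁻¹ * (b * ((x' : G) * m) * b⁻¹)
          = ((x' : G)⁻¹ * (b * x' * b⁻¹)) * (b * m * b⁻¹) := by group
      rw [e]
      refine mul_mem ?_ ?_
      · exact Subgroup.mem_inf.mpr ⟨hfix b hb, (X i).mul_mem ((X i).inv_mem hx')
          ((Subgroup.mem_normalizer_iff.mp (hFX i hb) _).mp hx')⟩
      · have hm' := Subgroup.mem_inf.mp hm
        exact Subgroup.mem_inf.mpr ⟨(Subgroup.mem_normalizer_iff.mp (hFT' hb) _).mp hm'.1,
          (Subgroup.mem_normalizer_iff.mp (hFX i hb) _).mp hm'.2⟩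
    obtain ⟨m, hm, hmfix⟩ :=
      Cfsg.Agent.H28.exists_fixed_in_coset p F (⁅T, T⁆ ⊓ X i) hF hM (x' : G) hx2
    have hm' := Subgroup.mem_inf.mp hm
    have hyX : (x' : G) * m ∈ X i := (X i).mul_mem hx' hm'.2
    have hyC : (x' : G) * m ∈ Subgroup.centralizer ((F : Subgroup G) : Set G) := by
      rw [Subgroup.mem_centralizer_iff]
      intro b hb
      have := hmfix b hb
      calc b * ((x' : G) * m) = (b * ((x' : G) * m) * b⁻¹) * b := by group
        _ = (x' : G) * m * b := by rw [this]
    have hyD : (x' : G) * m ∈ D := Subgroup.mem_iSup_of_mem i (Subgroup.mem_inf.mpr ⟨hyX, hyC⟩)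
    have hmT : m ∈ T := hXT i hm'.2
    refine ⟨⟨(x' : G) * m, hDT hyD⟩, Subgroup.mem_subgroupOf.mpr hyD, ?_⟩
    rw [← hx'eq]
    have e2 : (⟨(x' : G) * m, hDT hyD⟩ : T) = x' * ⟨m, hmT⟩ := Subtype.ext rfl
    rw [e2, map_mul]
    have e3 : Abelianization.of (⟨m, hmT⟩ : T) = 1 := by
      have : (⟨m, hmT⟩ : T) ∈ (Abelianization.of (G := T)).ker := by
        rw [Abelianization.ker_of, mem_commutator_sub]
        exact hm'.1
      exact this
    rw [e3, mul_one]
  have key : ∀ t : T, N (Abelianization.of t) ∈ L := by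
    rintro ⟨g, hg⟩
    have hg' : g ∈ ⨆ i, X i := hT ▸ hg
    have gen : ∀ (g : G) (hg' : g ∈ ⨆ i, X i) (hg : g ∈ T),
        N (Abelianization.of ⟨g, hg⟩) ∈ L := by
      intro g hg'
      refine Subgroup.iSup_induction' X (C := fun g _ => ∀ hg : g ∈ T,
        N (Abelianization.of ⟨g, hg⟩) ∈ L) ?_ ?_ ?_ hg'
      · intro i x hx hxT
        exact step i x hx
      · intro h1
        have : (⟨1, h1⟩ : T) = 1 := rfl
        rw [this, map_one, map_one]
        exact one_mem _
      · intro x y hx hy ihx ihy hxy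
        have hxT : x ∈ T := hT ▸ hx
        have hyT : y ∈ T := hT ▸ hy
        have : (⟨x * y, hxy⟩ : T) = ⟨x, hxT⟩ * ⟨y, hyT⟩ := rfl
        rw [this, map_mul, map_mul]
        exact mul_mem (ihx hxT) (ihy hyT)
    exact gen g hg' hg
  -- the fixed element `c`
  have hNc : N (Abelianization.of ⟨c, hc⟩) = Abelianization.of (⟨c, hc⟩ : T) ^ Fintype.card F := by
    rw [hN]
    have : ∀ f : F, α f (Abelianization.of ⟨c, hc⟩) = Abelianization.of (⟨c, hc⟩ : T) := by
      intro f
      rw [hα_of]
      congr 1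
      apply Subtype.ext
      rw [conjHom_coe]
      exact hcF f f.2
    simp only [this, Finset.prod_const, Finset.card_univ]
  have hcop : (Fintype.card F).Coprime (orderOf (Abelianization.of (⟨c, hc⟩ : T))) := by
    obtain ⟨k, hk⟩ := IsPGroup.iff_card.mp hF
    rw [← Nat.card_eq_fintype_card, hk]
    apply Nat.Coprime.pow_left
    rw [Nat.Prime.coprime_iff_not_dvd hp]
    intro h
    apply hpT
    have h1 : orderOf (Abelianization.of (⟨c, hc⟩ : T)) ∣ Nat.card T := by
      have h2 := orderOf_dvd_of_pow_eq_one (x := Abelianization.of (⟨c, hc⟩ : T))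
        (n := Nat.card T) (by
          rw [← map_pow, pow_card_eq_one', map_one])
      exact h2
    exact h.trans h1
  obtain ⟨k, hk⟩ := exists_pow_eq_self_of_coprime hcop
  have hcL : Abelianization.of (⟨c, hc⟩ : T) ∈ L := by
    rw [← hk, ← hNc]
    exact pow_mem (key _) k
  obtain ⟨y', hy', hy'eq⟩ := hcL
  refine ⟨(y' : G), Subgroup.mem_subgroupOf.mp hy', ?_⟩
  have h3 := (of_eq_of_iff (⟨c, hc⟩ : T) y').mp hy'eq.symm
  rw [mem_commutator_sub] at h3
  exact h3

end Cfsg.Agent.H67.KBal
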