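import Mathlib
import Cfsg.Agent.H58.BG10Defs2
import Cfsg.Agent.H67.PNilp
import Cfsg.Agent.H14.Cores

set_option autoImplicit false
set_option linter.style.haveILetI false

/-!
# S1414-HALLNIL (helper67, for helper76): normal `p`-complements for all `p ∉ π` give a
characteristic Hall `π`-subgroup with a nilpotent complement.
-/

namespace Cfsg.Agent.H67.BG

open Cfsg Subgroup

universe u

/-- the elements whose order is prime to every `p ∉ π` dividing `|X|` form a subgroup when `X`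
has a normal `p`-complement for all these `p` -/
def piElts {X : Type u} [Group X] [Finite X] (π : Set ℕ)
    (h : ∀ p : ℕ, p.Prime → p ∣ Nat.card X → p ∉ π → HasNormalPComplement p X) : Subgroup X where
  carrier := {g | ∀ p : ℕ, p.Prime → p ∣ Nat.card X → p ∉ π → (orderOf g).Coprime p}
  mul_mem' := by
    intro a b ha hb p hp hpX hpπ
    haveI : Fact p.Prime := ⟨hp⟩
    obtain ⟨K, hK, hcop, hq⟩ := Cfsg.Agent.H67.hnpc_iff.mp (h p hp hpX hpπ)
    have haK := Cfsg.Agent.H67.mem_of_coprime_orderOf K hq a (ha p hp hpX hpπ)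
    have hbK := Cfsg.Agent.H67.mem_of_coprime_orderOf K hq b (hb p hp hpX hpπ)
    have habK := K.mul_mem haK hbK
    have hd : orderOf (a * b) ∣ Nat.card K := by
      have := orderOf_dvd_natCard (⟨a * b, habK⟩ : K)
      rwa [Subgroup.orderOf_mk] at this
    exact Nat.Coprime.coprime_dvd_left hd hcop
  one_mem' := by
    intro p _ _ _
    simp
  inv_mem' := by
    intro a ha p hp hpX hpπ
    rw [orderOf_inv]
    exact ha p hp hpX hpπ

theorem exists_char_hall_of_hnpc {X : Type u} [Group X] [Finite X] (π : Set ℕ)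
    (h : ∀ p : ℕ, p.Prime → p ∣ Nat.card X → p ∉ π → HasNormalPComplement p X) :
    ∃ B : Subgroup X, B.Characteristic ∧ (∀ q : ℕ, q.Prime → q ∣ Nat.card B → q ∈ π) ∧
      (∀ q : ℕ, q.Prime → q ∈ π → ¬ q ∣ B.index) ∧
      ∃ H : Subgroup X, B.IsComplement' H ∧ Group.IsNilpotent H := by
  classical
  obtain ⟨B, hB⟩ : ∃ B : Subgroup X, B = piElts π h := ⟨_, rfl⟩
  have hmem : ∀ g : X, g ∈ B ↔
      ∀ p : ℕ, p.Prime → p ∣ Nat.card X → p ∉ π → (orderOf g).Coprime p := by
    intro g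
    rw [hB]
    rfl
  have hchar : B.Characteristic := by
    rw [Subgroup.characteristic_iff_le_comap]
    intro φ g hg
    rw [Subgroup.mem_comap, hmem]
    intro p hp hpX hpπ
    have : orderOf (φ.toMonoidHom g) = orderOf g := MulEquiv.orderOf_eq φ g
    rw [this]
    exact (hmem g).1 hg p hp hpX hpπ
  haveI := hchar
  have h2 : ∀ q : ℕ, q.Prime → q ∣ Nat.card B → q ∈ π := by
    intro q hq hqB
    by_contra hqπ
    haveI : Fact q.Prime := ⟨hq⟩
    obtain ⟨x, hx⟩ := exists_prime_orderOf_dvd_card' q hqB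
    have hqX : q ∣ Nat.card X := hqB.trans (Subgroup.card_subgroup_dvd_card B)
    have hc := (hmem x).1 x.2 q hq hqX hqπ
    rw [Subgroup.orderOf_coe, hx, Nat.coprime_self] at hc
    exact hq.one_lt.ne' hc
  have h3 : ∀ q : ℕ, q.Prime → q ∈ π → ¬ q ∣ B.index := by
    intro q hq hqπ hqB
    haveI : Fact q.Prime := ⟨hq⟩
    rw [Subgroup.index_eq_card] at hqB
    obtain ⟨y, hy⟩ := exists_prime_orderOf_dvd_card' q hqB
    obtain ⟨g, rfl⟩ := QuotientGroup.mk_surjective y
    obtain ⟨a, n', hn', hn⟩ :=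
      Nat.exists_eq_pow_mul_and_not_dvd (orderOf_pos g).ne' q hq.ne_one
    have hgB : g ^ n' ∈ B := by
      rw [hmem]
      intro p hp hpX hpπ
      have hpq : p ≠ q := fun e => hpπ (e ▸ hqπ)
      have hdvd : orderOf (g ^ n') ∣ q ^ a := by
        apply orderOf_dvd_of_pow_eq_one
        rw [← pow_mul, mul_comm, ← hn, pow_orderOf_eq_one]
      exact Nat.Coprime.coprime_dvd_left hdvd
        (Nat.Coprime.pow_left a ((Nat.coprime_primes hq hp).2 (Ne.symm hpq)))
    have h1 : ((g : X ⧸ B)) ^ n' = 1 := by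
      rw [← QuotientGroup.mk_pow]
      exact (QuotientGroup.eq_one_iff _).2 hgB
    have hd := orderOf_dvd_of_pow_eq_one h1
    rw [hy] at hd
    exact hn' hd
  refine ⟨B, hchar, h2, h3, ?_⟩
  have hcop : Nat.Coprime (Nat.card B) B.index :=
    Nat.coprime_of_dvd (fun q hq hq1 hq2 => h3 q hq (h2 q hq hq1) hq2)
  obtain ⟨H, hH⟩ := Subgroup.exists_right_complement'_of_coprime hcop
  refine ⟨H, hH, ?_⟩
  -- `H` embeds in a finite product of `p`-groups
  haveI : Finite {p : ℕ // p.Prime ∧ p ∣ Nat.card X ∧ p ∉ π} :=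
    Set.Finite.to_subtype ((Set.finite_le_nat (Nat.card X)).subset
      (fun p hp => Nat.le_of_dvd Nat.card_pos hp.2.1))
  have hp_grp : ∀ i : {p : ℕ // p.Prime ∧ p ∣ Nat.card X ∧ p ∉ π},
      IsPGroup i.1 (X ⧸ Cfsg.pPrimeCore i.1 X) := by
    intro i
    haveI : Fact i.1.Prime := ⟨i.2.1⟩
    obtain ⟨K, hK, hcopK, hq⟩ := Cfsg.Agent.H67.hnpc_iff.mp (h i.1 i.2.1 i.2.2.1 i.2.2.2)
    intro y
    obtain ⟨g, rfl⟩ := QuotientGroup.mk_surjective y
    obtain ⟨k, hk⟩ := hq g
    refine ⟨k, ?_⟩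
    rw [← QuotientGroup.mk_pow]
    exact (QuotientGroup.eq_one_iff _).2 (Cfsg.Agent.H14.le_pPrimeCore hK hcopK hk)
  haveI : ∀ i : {p : ℕ // p.Prime ∧ p ∣ Nat.card X ∧ p ∉ π},
      Group.IsNilpotent (X ⧸ Cfsg.pPrimeCore i.1 X) := fun i => by
    haveI : Fact i.1.Prime := ⟨i.2.1⟩
    exact (hp_grp i).isNilpotent
  obtain ⟨f, hf⟩ : ∃ f : H →* (∀ i : {p : ℕ // p.Prime ∧ p ∣ Nat.card X ∧ p ∉ π},
      X ⧸ Cfsg.pPrimeCore i.1 X), ∀ (x : H) i, f x i = ((x : X) : X ⧸ Cfsg.pPrimeCore i.1 X) :=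
    ⟨MonoidHom.pi (fun i => (QuotientGroup.mk' (Cfsg.pPrimeCore i.1 X)).comp H.subtype),
      fun x i => rfl⟩
  have hker : f.ker ≤ Subgroup.center H := by
    intro x hx
    have hx1 : x = 1 := by
      have hxB : (x : X) ∈ B := by
        rw [hmem]
        intro p hp hpX hpπ
        have h1 : f x = 1 := hx
        have h2' := congrFun h1 ⟨p, hp, hpX, hpπ⟩
        rw [hf] at h2'
        have h3' : (x : X) ∈ Cfsg.pPrimeCore p X := (QuotientGroup.eq_one_iff _).1 h2'
        have hd : orderOf (x : X) ∣ Nat.card (Cfsg.pPrimeCore p X) := by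
          have := orderOf_dvd_natCard (⟨(x : X), h3'⟩ : Cfsg.pPrimeCore p X)
          rwa [Subgroup.orderOf_mk] at this
        exact Nat.Coprime.coprime_dvd_left hd (Cfsg.Agent.H14.pPrimeCore_coprime p X)
      have hxBH : (x : X) ∈ B ⊓ H := ⟨hxB, x.2⟩
      rw [hH.disjoint.eq_bot] at hxBH
      exact Subtype.ext (Subgroup.mem_bot.1 hxBH)
    rw [hx1]
    exact Subgroup.one_mem _
  exact Subgroup.isNilpotent_of_ker_le_center f hker

theorem exists_nilpotent_hall_of_hnpc {G : Type u} [Group G] (X : Subgroup G) [Finite X]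
    (π : Set ℕ)
    (h : ∀ p : ℕ, p.Prime → p ∣ Nat.card X → p ∉ π → HasNormalPComplement p ↥X) :
    ∃ H : Subgroup G, IsPiHallOf {q | q.Prime ∧ q ∉ π} H X ∧ Group.IsNilpotent H := by
  obtain ⟨B, -, h2, h3, H₀, hc, hnil⟩ := exists_char_hall_of_hnpc π h
  refine ⟨H₀.map X.subtype, ⟨Subgroup.map_subtype_le H₀, ?_, ?_⟩, ?_⟩
  · intro p hp hpd
    refine ⟨hp, fun hpπ => h3 p hp hpπ ?_⟩
    rw [hc.symm.index_eq_card]
    rwa [Subgroup.card_map_of_injective X.subtype_injective] at hpd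
  · intro p hp hpmem
    have e : (H₀.map X.subtype).relIndex X = H₀.index := by
      unfold Subgroup.relIndex Subgroup.subgroupOf
      rw [Subgroup.comap_map_eq_self_of_injective X.subtype_injective]
    rw [e, hc.index_eq_card]
    intro hpd
    exact hpmem.2 (h2 p hp hpd)
  · exact Group.nilpotent_of_mulEquiv (H₀.equivMapOfInjective X.subtype X.subtype_injective)

end Cfsg.Agent.H67.BG
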