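import Cfsg.Agent.H57.BG129Defs

/-!
# S1420 piece ACT (helper67, for helper57)

An element of odd order all of whose prime divisors exceed the odd prime `s` centralizes every
subgroup of order `s ^ 2` that it normalizes.
-/

set_option autoImplicit false
set_option linter.unusedSectionVars false
set_option linter.unusedVariables false
set_option linter.style.haveILetI false

namespace Cfsg.Agent.H67.BG12

open Cfsg Subgroup Cfsg.Agent.H58.BG10 Cfsg.Agent.H57.BG12

universe u

variable {G : Type u} [Group G] [Finite G]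

/-- conjugation by a normalizing element, as a self-map of the subgroup -/
def conjEnd (B : Subgroup G) (y : G) (hy : y ∈ normalizer (B : Set G)) : Function.End B :=
  fun b => ⟨y * b * y⁻¹, (mem_normalizer_iff.mp hy b).mp b.2⟩

theorem conjEnd_pow (B : Subgroup G) (y : G) (hy : y ∈ normalizer (B : Set G)) (k : ℕ) (b : B) :
    (((conjEnd B y hy) ^ k) b : G) = y ^ k * b * (y ^ k)⁻¹ := by
  induction k generalizing b with
  | zero =>
    rw [pow_zero]
    show (b : G) = y ^ 0 * b * (y ^ 0)⁻¹
    simp
  | succ k ih =>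
    rw [pow_succ]
    show ((((conjEnd B y hy) ^ k) (conjEnd B y hy b) : B) : G) = y ^ (k + 1) * b * (y ^ (k + 1))⁻¹
    rw [ih]
    show y ^ k * (y * (b : G) * y⁻¹) * (y ^ k)⁻¹ = y ^ (k + 1) * b * (y ^ (k + 1))⁻¹
    rw [pow_succ]
    group

theorem act_arith {s r c : ℕ} (hs : s.Prime) (hs2 : s ≠ 2) (hr : r.Prime) (hr2 : r ≠ 2)
    (hsr : s < r) (hc : c = 1 ∨ c = s) (hmod : s ^ 2 ≡ c [MOD r]) : False := by
  have hs3 : 3 ≤ s := by
    have := hs.two_le
    omega
  have hsodd : Odd s := hs.odd_of_ne_two hs2
  have hnot1 : ¬ r ∣ s - 1 := fun h => by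
    have := Nat.le_of_dvd (by omega) h
    omega
  have hnot2 : ¬ r ∣ s := fun h => by
    have := Nat.le_of_dvd (by omega) h
    omega
  have hnot3 : ¬ r ∣ s + 1 := fun h => by
    have h1 := Nat.le_of_dvd (by omega) h
    have h2 : r = s + 1 := by omega
    have h3 : Even r := by
      rw [h2]
      exact hsodd.add_one
    rcases hr.eq_one_or_self_of_dvd 2 (even_iff_two_dvd.mp h3) with h4 | h4
    · omega
    · exact hr2 h4.symm
  rcases hc with rfl | rfl
  · have h1 : r ∣ s ^ 2 - 1 := (Nat.modEq_iff_dvd' (by nlinarith)).mp hmod.symm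
    have h2 : s ^ 2 - 1 = (s - 1) * (s + 1) := by
      obtain ⟨t, rfl⟩ : ∃ t, s = t + 1 := ⟨s - 1, by omega⟩
      simp only [Nat.add_sub_cancel]
      have : (t + 1) ^ 2 = t * (t + 1 + 1) + 1 := by ring
      rw [this, Nat.add_sub_cancel]
    rw [h2] at h1
    rcases (Nat.Prime.dvd_mul hr).mp h1 with h | h
    · exact hnot1 h
    · exact hnot3 h
  · have h1 : r ∣ c ^ 2 - c := (Nat.modEq_iff_dvd' (by nlinarith)).mp hmod.symm
    have h2 : c ^ 2 - c = c * (c - 1) := by
      obtain ⟨t, rfl⟩ : ∃ t, c = t + 1 := ⟨c - 1, by omega⟩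
      simp only [Nat.add_sub_cancel]
      have : (t + 1) ^ 2 = (t + 1) * t + (t + 1) := by ring
      rw [this, Nat.add_sub_cancel]
    rw [h2] at h1
    rcases (Nat.Prime.dvd_mul hr).mp h1 with h | h
    · exact hnot2 h
    · exact hnot1 h

theorem act : StAct G := by
  intro s hs hs2 B hB y hy hodd hprimes b hb
  classical
  by_contra hne
  have hBfin : Finite B := Nat.finite_of_card_ne_zero (by rw [hB]; exact pow_ne_zero _ hs.out.ne_zero)
  letI : Fintype B := Fintype.ofFinite B
  set f : Function.End B := conjEnd B y hy with hf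
  have hford : f ^ orderOf y = 1 := by
    funext c
    apply Subtype.ext
    show ((((conjEnd B y hy) ^ orderOf y) c : B) : G) = (c : G)
    rw [conjEnd_pow, pow_orderOf_eq_one]
    simp
  have hdvd : orderOf f ∣ orderOf y := orderOf_dvd_of_pow_eq_one hford
  have hy0 : 0 < orderOf y := Nat.pos_of_ne_zero (fun h => by
    rw [h] at hodd
    exact absurd hodd (by decide))
  have hd0 : 0 < orderOf f := Nat.pos_of_dvd_of_pos hdvd hy0
  have hd1 : orderOf f ≠ 1 := by
    intro h1
    have h2 : f = 1 := orderOf_eq_one_iff.mp h1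
    have h3 := congrArg Subtype.val (congrFun h2 ⟨b, hb⟩)
    have h4 : y * b * y⁻¹ = b := h3
    apply hne
    calc y * b = (y * b * y⁻¹) * y := by group
      _ = b * y := by rw [h4]
  set r := (orderOf f).minFac with hr
  have hrp : r.Prime := Nat.minFac_prime hd1
  have hrd : r ∣ orderOf f := Nat.minFac_dvd _
  have hry : r ∣ orderOf y := hrd.trans hdvd
  have hsr : s < r := hprimes r hrp hry
  have hr2 : r ≠ 2 := by
    intro h2
    rw [h2] at hry
    exact (Nat.not_even_iff_odd.mpr hodd) (even_iff_two_dvd.mpr hry)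
  obtain ⟨e, he⟩ := hrd
  have he0 : 0 < e := by
    rcases Nat.eq_zero_or_pos e with h0 | h0
    · rw [h0, mul_zero] at he; omega
    · exact h0
  have helt : e < orderOf f := by
    rw [he]
    have := hrp.two_le
    nlinarith
  set ψ : Function.End B := f ^ e with hψ
  have hψr : ψ ^ r ^ 1 = 1 := by
    rw [pow_one, hψ, ← pow_mul, mul_comm, ← he, pow_orderOf_eq_one]
  have hψne : ψ ≠ 1 := pow_ne_one_of_lt_orderOf he0.ne' helt
  have hψval : ∀ c : B, ((ψ c : B) : G) = y ^ e * c * (y ^ e)⁻¹ := fun c => conjEnd_pow B y hy e c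
  -- the fixed points form a subgroup
  let C : Subgroup B :=
    { carrier := Function.fixedPoints ψ
      mul_mem' := by
        intro a c ha hc
        have ha' : ψ a = a := ha
        have hc' : ψ c = c := hc
        show ψ (a * c) = a * c
        apply Subtype.ext
        have h1 := congrArg Subtype.val ha'
        have h2 := congrArg Subtype.val hc'
        rw [hψval] at h1 h2
        rw [hψval]
        push_cast
        calc y ^ e * ((a : G) * c) * (y ^ e)⁻¹
            = (y ^ e * a * (y ^ e)⁻¹) * (y ^ e * c * (y ^ e)⁻¹) := by group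
          _ = a * c := by rw [h1, h2]
      one_mem' := by
        show ψ 1 = 1
        apply Subtype.ext
        rw [hψval]
        simp
      inv_mem' := by
        intro a ha
        have ha' : ψ a = a := ha
        show ψ a⁻¹ = a⁻¹
        apply Subtype.ext
        have h1 := congrArg Subtype.val ha'
        rw [hψval] at h1
        rw [hψval]
        push_cast
        calc y ^ e * (a : G)⁻¹ * (y ^ e)⁻¹ = (y ^ e * a * (y ^ e)⁻¹)⁻¹ := by group
          _ = (a : G)⁻¹ := by rw [h1] }
  have hCcard : Fintype.card (Function.fixedPoints ψ) = Nat.card C := by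
    rw [Nat.card_eq_fintype_card]
    exact Fintype.card_congr (Equiv.refl _)
  have hCdvd : Nat.card C ∣ s ^ 2 := by
    rw [← hB]
    exact Subgroup.card_subgroup_dvd_card C
  have hCne : Nat.card C ≠ s ^ 2 := by
    intro h
    have htop : C = ⊤ := Subgroup.eq_top_of_card_eq C (by rw [h, hB])
    apply hψne
    funext c
    have : c ∈ C := by rw [htop]; trivial
    exact this
  have hc : Nat.card C = 1 ∨ Nat.card C = s := by
    obtain ⟨m, hm, hm'⟩ := (Nat.dvd_prime_pow hs.out).mp hCdvd
    interval_cases m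
    · left; simpa using hm'
    · right; simpa using hm'
    · exact absurd hm' hCne
  haveI : Fact r.Prime := ⟨hrp⟩
  have hmod := Equiv.Perm.card_fixedPoints_modEq (f := ψ) (p := r) (n := 1) hψr
  rw [hCcard, ← Nat.card_eq_fintype_card, hB] at hmod
  exact act_arith hs.out hs2 hrp hr2 hsr hc hmod

example : Cfsg.Agent.H57.BG12.StAct G := act

end Cfsg.Agent.H67.BG12
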