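import Mathlib
import Cfsg.Agent.H42.SpdDefs

/-!
# S5961 piece SPD-REL (helper67, for helper42)

`blockRel`: the block statement `StBlock` inside an invariant nondegenerate subspace `W`.
-/

set_option autoImplicit false
set_option linter.unusedSectionVars false
set_option linter.unusedVariables false
set_option linter.style.haveILetI false

namespace Cfsg.Agent.H67.Spd

open Cfsg.Agent.H45 Cfsg.Agent.H42.Spd Module

universe u v

theorem restrict_pow_coe {F : Type u} [Field F] {V : Type v} [AddCommGroup V] [Module F V]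
    (T : Module.End F V) (W : Submodule F V) (hinv : W ∈ T.invtSubmodule) (k : ℕ) (x : W) :
    ((((T.restrict hinv) ^ k) x : W) : V) = (T ^ k) (x : V) := by
  induction k generalizing x with
  | zero => simp
  | succ k ih =>
    rw [pow_succ, Module.End.mul_apply, ih, pow_succ, Module.End.mul_apply]
    rfl

theorem blockRel (h : StBlock.{u,v}) : StBlockRel.{u,v} := by
  intro F _ _ V _ _ _ r B T hctx W hW hker hWne
  have hd := hctx.good
  have hinv : W ∈ T.invtSubmodule := hW.1
  have hgood : Good (RingHom.id F) (-1) (B.domRestrict₁₂ W W) (T.restrict hinv) := by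
    refine ⟨fun x y => hd.herm x y, ?_, fun h x => hd.alt h x, fun x y => hd.isom x y,
      hd.ss.restrict _⟩
    intro x hx
    have h1 : (x : V) ∈ W ⊓ perp B W := ⟨x.2, fun u hu => hd.refl (hx ⟨u, hu⟩)⟩
    rw [hW.2] at h1
    exact Subtype.ext ((Submodule.mem_bot F).mp h1)
  have hpow : (T.restrict hinv) ^ r = 1 := by
    refine LinearMap.ext fun x => Subtype.ext ?_
    rw [restrict_pow_coe, hctx.pow]
    rfl
  have hctx' : Ctx r (B.domRestrict₁₂ W W) (T.restrict hinv) :=
    ⟨hctx.prime, hctx.ne_two, hctx.cast_ne, hgood, hpow⟩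
  have hker' : LinearMap.ker (T.restrict hinv - 1) = ⊥ := by
    rw [LinearMap.ker_eq_bot']
    intro x hx
    have h1 : (x : V) ∈ W ⊓ LinearMap.ker (T - 1) := by
      refine ⟨x.2, ?_⟩
      show (x : V) ∈ LinearMap.ker (T - 1)
      rw [LinearMap.mem_ker]
      have := congrArg Subtype.val hx
      exact this
    rw [hker] at h1
    exact Subtype.ext ((Submodule.mem_bot F).mp h1)
  have htop : (⊤ : Submodule F W) ≠ ⊥ := by
    intro htb
    apply hWne
    rw [eq_bot_iff]
    intro w hw
    have h1 : (⟨w, hw⟩ : W) ∈ (⊤ : Submodule F W) := trivial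
    rw [htb] at h1
    exact congrArg Subtype.val ((Submodule.mem_bot F).mp h1)
  obtain ⟨U', hU', hfr⟩ := h F W r (B.domRestrict₁₂ W W) (T.restrict hinv) hctx' hker' htop
  refine ⟨U'.map W.subtype, Submodule.map_subtype_le W U', ⟨?_, ?_⟩, ?_⟩
  · rw [Module.End.mem_invtSubmodule]
    rintro x ⟨u, hu, rfl⟩
    rw [Submodule.mem_comap]
    have h1 := (Module.End.mem_invtSubmodule _).mp hU'.1 hu
    rw [Submodule.mem_comap] at h1
    exact ⟨(T.restrict hinv) u, h1, rfl⟩
  · rw [eq_bot_iff]
    rintro x ⟨⟨u, hu, rfl⟩, hx2⟩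
    have h1 : u ∈ U' ⊓ perp (B.domRestrict₁₂ W W) U' := by
      refine ⟨hu, fun u' hu' => ?_⟩
      exact hx2 (u' : V) ⟨u', hu', rfl⟩
    rw [hU'.2] at h1
    rw [(Submodule.mem_bot F).mp h1]
    simp
  · rw [← hfr]
    exact (Submodule.equivSubtypeMap W U').symm.finrank_eq

example : Cfsg.Agent.H42.Spd.StBlock.{u,v} → Cfsg.Agent.H42.Spd.StBlockRel.{u,v} := blockRel

end Cfsg.Agent.H67.Spd
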