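import Cfsg.Agent.H58.BG127Defs
import Cfsg.Agent.H57.BG126

/-!
# S1419 piece NORM (helper67, for helper58)

`A₀ = C_A(M_σ)` is normal in `M`.
-/

set_option autoImplicit false
set_option linter.unusedSectionVars false
set_option linter.unusedVariables false
set_option linter.style.haveILetI false

namespace Cfsg.Agent.H67.BG12

open Cfsg Subgroup Cfsg.Agent.H58.BG10 Cfsg.Agent.H58.BG12

universe u

variable {G : Type u} [Group G] [Finite G]

theorem nabNorm (hG : IsMinSimpleOddOrder G) (h18 : St1418 G) : StNabNorm G := by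
  intro M E A p _ hN
  have hM := hN.coatom
  obtain ⟨⟨hEN, -⟩, -, -⟩ := h18 M hM E hN.compl p hN.tau A ⟨hN.le, hN.elem, hN.card⟩
  have hMσ : M ≤ normalizer (sigmaCore M : Set G) :=
    Cfsg.Agent.H57.BG12.le_normalizer_sigmaCore M
  have key : ∀ m ∈ M, ∀ u ∈ (A ⊓ centralizer (sigmaCore M : Set G) : Subgroup G),
      m * u * m⁻¹ ∈ (A ⊓ centralizer (sigmaCore M : Set G) : Subgroup G) := by
    intro m hm u hu
    obtain ⟨huA, huC⟩ := Subgroup.mem_inf.mp hu
    refine Subgroup.mem_inf.mpr ⟨?_, ?_⟩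
    · obtain ⟨e, he, s, hs, rfl⟩ := hN.compl.2.2.2 m hm
      have hsu : s * u = u * s := Subgroup.mem_centralizer_iff.mp huC s hs
      have e1 : e * s * u * (e * s)⁻¹ = e * u * e⁻¹ := by
        calc e * s * u * (e * s)⁻¹ = e * (s * u) * s⁻¹ * e⁻¹ := by group
          _ = e * (u * s) * s⁻¹ * e⁻¹ := by rw [hsu]
          _ = e * u * e⁻¹ := by group
      rw [e1]
      exact (mem_normalizer_iff.mp (hEN he) u).mp huA
    · rw [Subgroup.mem_centralizer_iff]
      intro t ht
      have ht' : m⁻¹ * t * m ∈ sigmaCore M := (mem_normalizer_iff''.mp (hMσ hm) t).mp ht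
      have hc := Subgroup.mem_centralizer_iff.mp huC _ ht'
      calc t * (m * u * m⁻¹) = m * ((m⁻¹ * t * m) * u) * m⁻¹ := by group
        _ = m * (u * (m⁻¹ * t * m)) * m⁻¹ := by rw [hc]
        _ = m * u * m⁻¹ * t := by group
  intro m hm
  rw [mem_normalizer_iff]
  intro u
  constructor
  · exact key m hm u
  · intro h
    have h2 := key m⁻¹ (M.inv_mem hm) _ h
    have e2 : m⁻¹ * (m * u * m⁻¹) * m⁻¹⁻¹ = u := by group
    rwa [e2] at h2

example (hG : IsMinSimpleOddOrder G) (h18 : St1418 G) : Cfsg.Agent.H58.BG12.StNabNorm G :=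
  nabNorm hG h18

end Cfsg.Agent.H67.BG12
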