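import Cfsg.Agent.H58.BG127Defs
import Cfsg.Agent.H58.BG10FG

/-!
# S1419 piece OR (helper67, for helper58)

For a prime `q ∉ σ(M) ∪ {p}`, `M` has no nontrivial normal `q`-subgroup
(under `τ₂(M) = {p}`, B&G 10.6 = `St1409` and the Uniqueness Theorem `St1403`).
-/

set_option autoImplicit false
set_option linter.unusedSectionVars false
set_option linter.unusedVariables false
set_option linter.style.haveILetI false

namespace Cfsg.Agent.H67.BG12

open Cfsg Subgroup Cfsg.Agent.H58.BG10 Cfsg.Agent.H58.BG12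

universe u

variable {G : Type u} [Group G] [Finite G]

/-- the elements of order dividing `q` of the centre of `R`, as a subgroup of `G` -/
def omegaZ (q : ℕ) (R : Subgroup G) : Subgroup G where
  carrier := {u | u ∈ R ⊓ centralizer (R : Set G) ∧ u ^ q = 1}
  mul_mem' := by
    rintro u v ⟨hu, hu1⟩ ⟨hv, hv1⟩
    refine ⟨mul_mem hu hv, ?_⟩
    have hc : Commute u v := by
      have := Subgroup.mem_centralizer_iff.mp (Subgroup.mem_inf.mp hu).2 v (Subgroup.mem_inf.mp hv).1
      exact this.symm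
    rw [hc.mul_pow, hu1, hv1, one_mul]
  one_mem' := ⟨one_mem _, one_pow _⟩
  inv_mem' := by
    rintro u ⟨hu, hu1⟩
    exact ⟨inv_mem hu, by rw [inv_pow, hu1, inv_one]⟩

theorem mem_omegaZ {q : ℕ} {R : Subgroup G} {u : G} :
    u ∈ omegaZ q R ↔ u ∈ R ⊓ centralizer (R : Set G) ∧ u ^ q = 1 := Iff.rfl

theorem conj_mem_omegaZ {q : ℕ} {R : Subgroup G} {m : G}
    (hm : m ∈ normalizer (R : Set G)) {u : G} (hu : u ∈ omegaZ q R) :
    m * u * m⁻¹ ∈ omegaZ q R := by
  obtain ⟨hu, hu1⟩ := hu
  obtain ⟨huR, huC⟩ := Subgroup.mem_inf.mp hu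
  refine ⟨Subgroup.mem_inf.mpr ⟨(mem_normalizer_iff.mp hm u).mp huR, ?_⟩, ?_⟩
  · rw [Subgroup.mem_centralizer_iff]
    intro r hr
    have hr' : m⁻¹ * r * m ∈ R := (mem_normalizer_iff''.mp hm r).mp hr
    have hc := Subgroup.mem_centralizer_iff.mp huC _ hr'
    calc r * (m * u * m⁻¹) = m * ((m⁻¹ * r * m) * u) * m⁻¹ := by group
      _ = m * (u * (m⁻¹ * r * m)) * m⁻¹ := by rw [hc]
      _ = m * u * m⁻¹ * r := by group
  · rw [conj_pow, hu1, mul_one, mul_inv_cancel]

theorem nabOr (hG : IsMinSimpleOddOrder G) (h96 : St1403 G) (h1409 : St1409 G)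
    (hTau : StNabTau G) : StNabOr G := by
  intro M E A p _ hN q hq hqσ hqp R hRM hRq hMR
  classical
  by_contra hRne
  have hM := hN.coatom
  haveI : Fact q.Prime := ⟨hq⟩
  have h2 : PRankLE q 2 M := by
    by_contra h
    exact hqσ (alpha_subset_sigma hG h96 hM ⟨hq, h⟩)
  have h1 : PRankLE q 1 M := by
    by_contra h
    have h3 : q ∈ tau2 M := ⟨hq, hqσ, h2, h⟩
    rw [hTau M E A p hN] at h3
    exact hqp h3
  -- a nontrivial central element of `R`
  haveI : Nontrivial R := (Subgroup.nontrivial_iff_ne_bot R).mpr hRne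
  haveI : Nontrivial (Subgroup.center R) := hRq.center_nontrivial
  obtain ⟨z, hz⟩ := exists_ne (1 : Subgroup.center R)
  set Z : Subgroup G := R ⊓ centralizer (R : Set G) with hZ
  have hzZ : ((z : R) : G) ∈ Z := by
    refine Subgroup.mem_inf.mpr ⟨(z : R).2, ?_⟩
    rw [Subgroup.mem_centralizer_iff]
    intro r hr
    have := Subgroup.mem_center_iff.mp z.2 ⟨r, hr⟩
    exact congrArg Subtype.val this
  have hz1 : ((z : R) : G) ≠ 1 := by
    intro h
    apply hz
    apply Subtype.ext
    apply Subtype.ext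
    exact h
  have hZq : IsPGroup q Z := hRq.to_le inf_le_left
  have hZne : Z ≠ ⊥ := by
    intro h
    rw [h, Subgroup.mem_bot] at hzZ
    exact hz1 hzZ
  have hqZ : q ∣ Nat.card Z := by
    obtain ⟨n, hn⟩ := IsPGroup.iff_card.mp hZq
    rcases Nat.eq_zero_or_pos n with h0 | h0
    · rw [h0, pow_zero] at hn
      exact absurd ((Subgroup.card_eq_one).mp hn) hZne
    · rw [hn]
      exact dvd_pow_self q h0.ne'
  obtain ⟨g, hg⟩ := exists_prime_orderOf_dvd_card' (G := Z) q hqZ
  set X : Subgroup G := omegaZ q R with hX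
  have hgX : (g : G) ∈ X := by
    refine ⟨g.2, ?_⟩
    have : g ^ q = 1 := by rw [← hg]; exact pow_orderOf_eq_one g
    have h4 := congrArg Subtype.val this
    simpa using h4
  have hg1 : (g : G) ≠ 1 := by
    intro h
    have : g = 1 := Subtype.ext h
    rw [this, orderOf_one] at hg
    exact hq.one_lt.ne hg
  have hXR : X ≤ R := fun u hu => (Subgroup.mem_inf.mp hu.1).1
  have hXM : X ≤ M := hXR.trans hRM
  have hXne : X ≠ ⊥ := by
    intro h
    rw [h, Subgroup.mem_bot] at hgX
    exact hg1 hgX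
  -- `|X| = q`
  have hXle : Nat.card X ≤ q := by
    have hcomm : IsMulCommutative (X.subgroupOf M) := by
      refine ⟨⟨fun a b => ?_⟩⟩
      apply Subtype.ext
      apply Subtype.ext
      have ha : ((a : M) : G) ∈ X := Subgroup.mem_subgroupOf.mp a.2
      have hb : ((b : M) : G) ∈ X := Subgroup.mem_subgroupOf.mp b.2
      have := Subgroup.mem_centralizer_iff.mp (Subgroup.mem_inf.mp ha.1).2 _
        (Subgroup.mem_inf.mp hb.1).1
      exact this.symm
    have hexp : ∀ a ∈ X.subgroupOf M, a ^ q = 1 := by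
      intro a ha
      apply Subtype.ext
      have ha' : (a : G) ∈ X := Subgroup.mem_subgroupOf.mp ha
      simpa using ha'.2
    have h5 := h1 (X.subgroupOf M) hcomm hexp
    rw [pow_one] at h5
    have h6 : Nat.card (X.subgroupOf M) = Nat.card X :=
      Nat.card_congr (Subgroup.subgroupOfEquivOfLe hXM).toEquiv
    rw [h6] at h5
    exact h5
  have hXge : q ∣ Nat.card X := by
    have h7 : orderOf (⟨(g : G), hgX⟩ : X) = q := by
      rw [← hg, ← Subgroup.orderOf_coe (⟨(g : G), hgX⟩ : X), ← Subgroup.orderOf_coe g]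
    rw [← h7]
    exact orderOf_dvd_natCard _
  have hXcard : Nat.card X = q := by
    have := Nat.le_of_dvd Nat.card_pos hXge
    omega
  -- `N(X) = M`
  have hMX : M ≤ normalizer (X : Set G) := by
    intro m hm
    rw [mem_normalizer_iff]
    intro u
    constructor
    · intro hu
      exact conj_mem_omegaZ (hMR hm) hu
    · intro h
      have h8 := conj_mem_omegaZ (q := q) (hMR (M.inv_mem hm)) h
      have e2 : m⁻¹ * (m * u * m⁻¹) * m⁻¹⁻¹ = u := by group
      rwa [e2] at h8
  have hNtop : normalizer (X : Set G) ≠ ⊤ := by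
    intro h
    have hnorm : X.Normal := by
      refine ⟨fun n hn g' => ?_⟩
      have : g' ∈ normalizer (X : Set G) := by rw [h]; trivial
      exact (mem_normalizer_iff.mp this n).mp hn
    haveI := hG.2.1
    rcases hnorm.eq_bot_or_eq_top with h9 | h9
    · exact hXne h9
    · apply hM.1
      rw [eq_top_iff, ← h9]
      exact hXM
  have hNX : normalizer (X : Set G) ≤ M := by
    by_contra hcon
    have hlt : M < normalizer (X : Set G) := lt_of_le_of_ne hMX (fun h => hcon (h ▸ le_refl _))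
    exact hNtop (hM.2 _ hlt)
  exact (h1409 M hM q hqσ X hXcard hNX).1.2 h1

example (hG : IsMinSimpleOddOrder G) (h96 : St1403 G) (h1409 : St1409 G)
    (hTau : StNabTau G) : Cfsg.Agent.H58.BG12.StNabOr G := nabOr hG h96 h1409 hTau

end Cfsg.Agent.H67.BG12
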