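import Cfsg.Agent.H58.BG127Defs

/-!
# S1419 piece X (helper67, for helper58)

In the setting `Nab M E A p` of B&G Corollary 12.7: a Sylow `p`-subgroup `S ≥ A` of `G` and an
element `x ∈ S ∖ M` normalizing `A`; `S ∩ M` centralizes `A`, its elements of order dividing `p`
lie in `A`, and `S` contains every normal `p`-subgroup of `M` (from B&G 12.5 = `St1417`).
-/

set_option autoImplicit false
set_option linter.unusedSectionVars false
set_option linter.unusedVariables false
set_option linter.style.haveILetI false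

namespace Cfsg.Agent.H67.BG12

open Cfsg Subgroup Cfsg.Agent.H58.BG10 Cfsg.Agent.H58.BG12

universe u

variable {G : Type u} [Group G] [Finite G]

/-- a proper subgroup of a `p`-group is properly contained in its normalizer -/
theorem exists_mem_normalizer_not_mem_of_lt {p : ℕ} [Fact p.Prime] {S D : Subgroup G}
    (hS : IsPGroup p S) (hDS : D < S) :
    ∃ x ∈ S, x ∈ normalizer (D : Set G) ∧ x ∉ D := by
  haveI : Group.IsNilpotent S := hS.isNilpotent
  have hnc := Group.normalizerCondition_of_isNilpotent (G := S)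
  have hlt : D.subgroupOf S < ⊤ := by
    rw [lt_top_iff_ne_top]
    intro h
    rw [subgroupOf_eq_top] at h
    exact (not_le_of_gt hDS) h
  have h2 := hnc _ hlt
  obtain ⟨x, hxN, hxD⟩ := SetLike.exists_of_lt h2
  refine ⟨x, x.2, ?_, fun h => hxD (mem_subgroupOf.mpr h)⟩
  rw [mem_normalizer_iff]
  intro h
  rw [mem_normalizer_iff] at hxN
  constructor
  · intro hh
    have h3 := (hxN ⟨h, hDS.le hh⟩).mp (mem_subgroupOf.mpr hh)
    exact mem_subgroupOf.mp h3
  · intro hh
    have hhS : h ∈ S := by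
      have h4 : (x : G)⁻¹ * ((x : G) * h * (x : G)⁻¹) * (x : G) ∈ S :=
        mul_mem (mul_mem (inv_mem x.2) (hDS.le hh)) x.2
      have h5 : (x : G)⁻¹ * ((x : G) * h * (x : G)⁻¹) * (x : G) = h := by group
      rwa [h5] at h4
    have h3 := (hxN ⟨h, hhS⟩).mpr (mem_subgroupOf.mpr hh)
    exact mem_subgroupOf.mp h3

/-- **S1419 piece X.** -/
theorem nabX (hG : IsMinSimpleOddOrder G) (h17 : St1417 G) : StNabX G := by
  intro M E A p _ hN
  classical
  have hM := hN.coatom
  have hEM : E ≤ M := hN.compl.1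
  have hAM : A ≤ M := hN.le.trans hEM
  have hAp : IsPGroup p A := by
    intro a
    refine ⟨1, ?_⟩
    have h1 := hN.elem.2 a a.2
    apply Subtype.ext
    simpa using h1
  obtain ⟨P, hAP⟩ : ∃ P : Sylow p M, A ≤ (P : Subgroup M).map M.subtype := by
    obtain ⟨P, hP⟩ := (hAp.comap_subtype (K := M)).exists_le_sylow
    refine ⟨P, ?_⟩
    intro y hy
    exact ⟨⟨y, hAM hy⟩, hP (show (⟨y, hAM hy⟩ : M) ∈ A.comap M.subtype from hy), rfl⟩
  obtain ⟨-, hP, -⟩ := h17 M hM p hN.tau A ⟨hAM, hN.elem, hN.card⟩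
  obtain ⟨hPcomm, hPA⟩ := hP P
  obtain ⟨hΩ, -⟩ := hPA hAP
  have hDp : IsPGroup p ((P : Subgroup M).map M.subtype) := P.2.map _
  obtain ⟨S, hDS⟩ := hDp.exists_le_sylow
  -- `S ∩ M = P`
  have hSM : ∀ u ∈ (S : Subgroup G), u ∈ M → u ∈ (P : Subgroup M).map M.subtype := by
    intro u huS huM
    have hQ : IsPGroup p ((S : Subgroup G).subgroupOf M) := S.2.comap_subtype
    have hle : (P : Subgroup M) ≤ (S : Subgroup G).subgroupOf M := by
      intro y hy
      rw [mem_subgroupOf]
      exact hDS ⟨y, hy, rfl⟩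
    have heq := P.3 hQ hle
    have h1 : (⟨u, huM⟩ : M) ∈ (P : Subgroup M) := by
      rw [← heq, mem_subgroupOf]
      exact huS
    exact ⟨⟨u, huM⟩, h1, rfl⟩
  have hDcomm : ∀ u ∈ (P : Subgroup M).map M.subtype, ∀ v ∈ (P : Subgroup M).map M.subtype,
      u * v = v * u := by
    rintro _ ⟨u, hu, rfl⟩ _ ⟨v, hv, rfl⟩
    have h1 : (⟨u, hu⟩ : (P : Subgroup M)) * ⟨v, hv⟩ = ⟨v, hv⟩ * ⟨u, hu⟩ :=
      hPcomm.is_comm.comm _ _
    have h2 : u * v = v * u := congrArg Subtype.val h1
    simpa using congrArg Subtype.val h2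
  have hne : (P : Subgroup M).map M.subtype ≠ (S : Subgroup G) := by
    intro h
    apply hN.nab S
    refine ⟨⟨fun a b => ?_⟩⟩
    have ha : (a : G) ∈ (P : Subgroup M).map M.subtype := by rw [h]; exact a.2
    have hb : (b : G) ∈ (P : Subgroup M).map M.subtype := by rw [h]; exact b.2
    apply Subtype.ext
    exact hDcomm a ha b hb
  have hlt : (P : Subgroup M).map M.subtype < (S : Subgroup G) := lt_of_le_of_ne hDS hne
  obtain ⟨x, hxS, hxN, hxD⟩ := exists_mem_normalizer_not_mem_of_lt S.2 hlt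
  refine ⟨S, x, hAP.trans hDS, hxS, fun hxM => hxD (hSM x hxS hxM), ?_, ?_, ?_⟩
  · rw [mem_normalizer_iff]
    intro a
    constructor
    · intro ha
      have h1 : x * a * x⁻¹ ∈ (P : Subgroup M).map M.subtype :=
        (mem_normalizer_iff.mp hxN a).mp (hAP ha)
      refine (hΩ _ h1).mp ?_
      rw [conj_pow, hN.elem.2 a ha]
      simp
    · intro ha
      have h1 : a ∈ (P : Subgroup M).map M.subtype :=
        (mem_normalizer_iff.mp hxN a).mpr (hAP ha)
      refine (hΩ _ h1).mp ?_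
      have h2 := hN.elem.2 _ ha
      rw [conj_pow] at h2
      have h3 : a ^ p = x⁻¹ * (x * a ^ p * x⁻¹) * x := by group
      rw [h3, h2]
      simp
  · intro u huS huM
    have huD := hSM u huS huM
    refine ⟨?_, fun h => (hΩ u huD).mp h⟩
    rw [mem_centralizer_iff]
    intro a ha
    exact hDcomm a (hAP ha) u huD
  · intro R hRM hRp hMR
    haveI : (R.subgroupOf M).Normal := normal_subgroupOf_of_le_normalizer hMR
    have hRp' : IsPGroup p (R.subgroupOf M) := hRp.comap_subtype
    have hle := hRp'.le_sylow_of_normal P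
    intro r hr
    exact hDS ⟨⟨r, hRM hr⟩, hle (mem_subgroupOf.mpr hr), rfl⟩

end Cfsg.Agent.H67.BG12
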