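import Mathlib
import Cfsg.Agent.H45.D4Defs

/-!
# S1082 piece P-UPLOW (helper67, for helper45)

The upper and lower unipotent isometries `upMat S`, `lowMat S` of the hyperbolic space of
dimension `8` are products of six root elements `gmat F r t`.
-/

set_option autoImplicit false
set_option linter.unusedSectionVars false
set_option linter.unusedVariables false
set_option linter.style.haveILetI false

open Matrix Cfsg.Agent.H49 Cfsg.Agent.H45.D4

namespace Cfsg.Agent.H67.D4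

variable {F : Type*} [Field F]

/-- the elementary alternating integer matrix `s (E_ij - E_ji)` -/
def Aij (i j : Fin 4) (s : ℤ) : Matrix (Fin 4) (Fin 4) ℤ :=
  Matrix.of fun a b => if a = i ∧ b = j then s else if a = j ∧ b = i then -s else 0

theorem Ntab_23 : Ntab 23 = Matrix.fromBlocks 0 (Aij 0 1 (-1)) 0 0 := by decide
theorem Ntab_22 : Ntab 22 = Matrix.fromBlocks 0 (Aij 0 2 (-1)) 0 0 := by decide
theorem Ntab_20 : Ntab 20 = Matrix.fromBlocks 0 (Aij 0 3 (-1)) 0 0 := by decide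
theorem Ntab_17 : Ntab 17 = Matrix.fromBlocks 0 (Aij 1 2 1) 0 0 := by decide
theorem Ntab_15 : Ntab 15 = Matrix.fromBlocks 0 (Aij 1 3 1) 0 0 := by decide
theorem Ntab_12 : Ntab 12 = Matrix.fromBlocks 0 (Aij 2 3 (-1)) 0 0 := by decide

theorem Ntab_0 : Ntab 0 = Matrix.fromBlocks 0 0 (Aij 0 1 1) 0 := by decide
theorem Ntab_1 : Ntab 1 = Matrix.fromBlocks 0 0 (Aij 0 2 1) 0 := by decide
theorem Ntab_3 : Ntab 3 = Matrix.fromBlocks 0 0 (Aij 0 3 1) 0 := by decide
theorem Ntab_6 : Ntab 6 = Matrix.fromBlocks 0 0 (Aij 1 2 (-1)) 0 := by decide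
theorem Ntab_8 : Ntab 8 = Matrix.fromBlocks 0 0 (Aij 1 3 (-1)) 0 := by decide
theorem Ntab_11 : Ntab 11 = Matrix.fromBlocks 0 0 (Aij 2 3 1) 0 := by decide

theorem gmat_of_up (r : Fin 24) (A : Matrix (Fin 4) (Fin 4) ℤ)
    (h : Ntab r = Matrix.fromBlocks 0 A 0 0) (t : F) :
    gmat F r t = upMat (t • A.map (Int.cast : ℤ → F)) := by
  unfold gmat upMat
  rw [h, Matrix.fromBlocks_map, Matrix.fromBlocks_smul, ← Matrix.fromBlocks_one,
    Matrix.fromBlocks_add]
  simp

theorem gmat_of_low (r : Fin 24) (A : Matrix (Fin 4) (Fin 4) ℤ)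
    (h : Ntab r = Matrix.fromBlocks 0 0 A 0) (t : F) :
    gmat F r t = lowMat (t • A.map (Int.cast : ℤ → F)) := by
  unfold gmat lowMat
  rw [h, Matrix.fromBlocks_map, Matrix.fromBlocks_smul, ← Matrix.fromBlocks_one,
    Matrix.fromBlocks_add]
  simp

theorem upMat_mul (S S' : Matrix (Fin 4) (Fin 4) F) : upMat S * upMat S' = upMat (S + S') := by
  simp [upMat, Matrix.fromBlocks_multiply, add_comm]

theorem lowMat_mul (S S' : Matrix (Fin 4) (Fin 4) F) :
    lowMat S * lowMat S' = lowMat (S + S') := by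
  simp [lowMat, Matrix.fromBlocks_multiply]

/-- a matrix with `yᵀ S y = 0` for all `y` is alternating -/
theorem isAlt_of_forall (S : Matrix (Fin 4) (Fin 4) F) (h : ∀ y : Fin 4 → F, y ⬝ᵥ S *ᵥ y = 0) :
    IsAlt S := by
  have hd : ∀ i, S i i = 0 := by
    intro i
    have := h (Pi.single i 1)
    rwa [Matrix.mulVec_single_one, single_one_dotProduct] at this
  refine ⟨fun i j => ?_, hd⟩
  have := h (Pi.single i 1 + Pi.single j 1)
  rw [Matrix.mulVec_add, add_dotProduct, dotProduct_add, dotProduct_add,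
    Matrix.mulVec_single_one, Matrix.mulVec_single_one, single_one_dotProduct,
    single_one_dotProduct, single_one_dotProduct, single_one_dotProduct]
    at this
  simp only [Matrix.col_apply] at this
  rw [hd i, hd j] at this
  linear_combination this

theorem alt_of_up (g : O8 F) (S : Matrix (Fin 4) (Fin 4) F) (hg : mat g = upMat S) : IsAlt S := by
  apply isAlt_of_forall
  intro y
  have h := quad_mat g (Sum.elim 0 y)
  rw [hg] at h
  have h1 : upMat S *ᵥ (Sum.elim 0 y) = Sum.elim (S *ᵥ y) y := by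
    unfold upMat
    rw [Matrix.fromBlocks_mulVec]
    simp
  rw [h1] at h
  simp only [Cfsg.quadFormPlus, Sum.elim_inl, Sum.elim_inr, Pi.zero_apply, zero_mul,
    Finset.sum_const_zero] at h
  rw [dotProduct_comm]
  exact h

theorem alt_of_low (g : O8 F) (S : Matrix (Fin 4) (Fin 4) F) (hg : mat g = lowMat S) :
    IsAlt S := by
  apply isAlt_of_forall
  intro y
  have h := quad_mat g (Sum.elim y 0)
  rw [hg] at h
  have h1 : lowMat S *ᵥ (Sum.elim y 0) = Sum.elim y (S *ᵥ y) := by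
    unfold lowMat
    rw [Matrix.fromBlocks_mulVec]
    simp
  rw [h1] at h
  simp only [Cfsg.quadFormPlus, Sum.elim_inl, Sum.elim_inr, Pi.zero_apply, mul_zero,
    Finset.sum_const_zero] at h
  exact h

theorem up_decomp (S : Matrix (Fin 4) (Fin 4) F) (halt : IsAlt S) :
    (-S 0 1) • (Aij 0 1 (-1)).map (Int.cast : ℤ → F)
      + (-S 0 2) • (Aij 0 2 (-1)).map (Int.cast : ℤ → F)
      + (-S 0 3) • (Aij 0 3 (-1)).map (Int.cast : ℤ → F)
      + (S 1 2) • (Aij 1 2 1).map (Int.cast : ℤ → F)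
      + (S 1 3) • (Aij 1 3 1).map (Int.cast : ℤ → F)
      + (-S 2 3) • (Aij 2 3 (-1)).map (Int.cast : ℤ → F) = S := by
  have h10 := halt.1 0 1
  have h20 := halt.1 0 2
  have h30 := halt.1 0 3
  have h21 := halt.1 1 2
  have h31 := halt.1 1 3
  have h32 := halt.1 2 3
  have d0 := halt.2 0
  have d1 := halt.2 1
  have d2 := halt.2 2
  have d3 := halt.2 3
  ext a b
  fin_cases a <;> fin_cases b <;>
    simp [Aij, h10, h20, h30, h21, h31, h32, d0, d1, d2, d3]

theorem low_decomp (S : Matrix (Fin 4) (Fin 4) F) (halt : IsAlt S) :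
    (S 0 1) • (Aij 0 1 1).map (Int.cast : ℤ → F)
      + (S 0 2) • (Aij 0 2 1).map (Int.cast : ℤ → F)
      + (S 0 3) • (Aij 0 3 1).map (Int.cast : ℤ → F)
      + (-S 1 2) • (Aij 1 2 (-1)).map (Int.cast : ℤ → F)
      + (-S 1 3) • (Aij 1 3 (-1)).map (Int.cast : ℤ → F)
      + (S 2 3) • (Aij 2 3 1).map (Int.cast : ℤ → F) = S := by
  have h10 := halt.1 0 1
  have h20 := halt.1 0 2
  have h30 := halt.1 0 3
  have h21 := halt.1 1 2
  have h31 := halt.1 1 3
  have h32 := halt.1 2 3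
  have d0 := halt.2 0
  have d1 := halt.2 1
  have d2 := halt.2 2
  have d3 := halt.2 3
  ext a b
  fin_cases a <;> fin_cases b <;>
    simp [Aij, h10, h20, h30, h21, h31, h32, d0, d1, d2, d3]

theorem up_mem (x : Fin 24 → F → O8 F) (hx : ∀ r t, mat (x r t) = gmat F r t)
    (K : Subgroup (O8 F)) (hK : ∀ r t, x r t ∈ K)
    (g : O8 F) (S : Matrix (Fin 4) (Fin 4) F) (hg : mat g = upMat S) : g ∈ K := by
  have halt := alt_of_up g S hg
  have key : g = x 23 (-S 0 1) * x 22 (-S 0 2) * x 20 (-S 0 3) * x 17 (S 1 2) * x 15 (S 1 3)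
      * x 12 (-S 2 3) := by
    apply mat_injective
    rw [hg]
    simp only [mat_mul, hx]
    rw [gmat_of_up 23 _ Ntab_23, gmat_of_up 22 _ Ntab_22, gmat_of_up 20 _ Ntab_20,
      gmat_of_up 17 _ Ntab_17, gmat_of_up 15 _ Ntab_15, gmat_of_up 12 _ Ntab_12,
      upMat_mul, upMat_mul, upMat_mul, upMat_mul, upMat_mul, up_decomp S halt]
  rw [key]
  exact K.mul_mem (K.mul_mem (K.mul_mem (K.mul_mem (K.mul_mem (hK _ _) (hK _ _)) (hK _ _))
    (hK _ _)) (hK _ _)) (hK _ _)

theorem low_mem (x : Fin 24 → F → O8 F) (hx : ∀ r t, mat (x r t) = gmat F r t)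
    (K : Subgroup (O8 F)) (hK : ∀ r t, x r t ∈ K)
    (g : O8 F) (S : Matrix (Fin 4) (Fin 4) F) (hg : mat g = lowMat S) : g ∈ K := by
  have halt := alt_of_low g S hg
  have key : g = x 0 (S 0 1) * x 1 (S 0 2) * x 3 (S 0 3) * x 6 (-S 1 2) * x 8 (-S 1 3)
      * x 11 (S 2 3) := by
    apply mat_injective
    rw [hg]
    simp only [mat_mul, hx]
    rw [gmat_of_low 0 _ Ntab_0, gmat_of_low 1 _ Ntab_1, gmat_of_low 3 _ Ntab_3,
      gmat_of_low 6 _ Ntab_6, gmat_of_low 8 _ Ntab_8, gmat_of_low 11 _ Ntab_11,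
      lowMat_mul, lowMat_mul, lowMat_mul, lowMat_mul, lowMat_mul, low_decomp S halt]
  rw [key]
  exact K.mul_mem (K.mul_mem (K.mul_mem (K.mul_mem (K.mul_mem (hK _ _) (hK _ _)) (hK _ _))
    (hK _ _)) (hK _ _)) (hK _ _)

end Cfsg.Agent.H67.D4
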