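import Mathlib
import Cfsg.Agent.H96.RoDefs

/-!
# RO-ARITH (helper67, for helper96's S2127)

Arithmetic of `n = 3^(m+1)` in the field with `q = 3^(2m+1)` elements.
-/

set_option autoImplicit false
set_option linter.unusedVariables false
set_option linter.unusedSectionVars false
set_option linter.style.haveILetI false

namespace Cfsg.Agent.H67.Ro

open Cfsg.Agent.H96.Ro

universe u

theorem arith : StArith.{u} := by
  intro K _ _ _ m hm hK
  classical
  haveI : Fact (Nat.Prime 3) := ⟨Nat.prime_three⟩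
  have hnn : 3 ^ (m + 1) * 3 ^ (m + 1) = 3 ^ (2 * m + 1) * 3 := by
    rw [← pow_add, ← pow_succ]; congr 1; omega
  have hq : ∀ r : K, r ^ 3 ^ (2 * m + 1) = r := by
    intro r
    rw [← hK]; exact FiniteField.pow_card r
  have f1 : ∀ r : K, r ^ (3 ^ (m + 1) * 3 ^ (m + 1)) = r ^ 3 := by
    intro r
    rw [hnn, pow_mul, hq]
  have hn9 : 9 ≤ 3 ^ (m + 1) := by
    calc 9 = 3 ^ 2 := by norm_num
      _ ≤ 3 ^ (m + 1) := Nat.pow_le_pow_right (by norm_num) (by omega)
  have hlt : 3 ^ (m + 1) < 3 ^ (2 * m + 1) := Nat.pow_lt_pow_right (by norm_num) (by omega)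
  have f3 : ∀ r : K, r ≠ 0 → (r ^ (3 ^ (m + 1) - 1)) ^ (3 ^ (m + 1) + 1) = r ^ 2 := by
    intro r hr
    have e : (3 ^ (m + 1) - 1) * (3 ^ (m + 1) + 1) + 1 = 3 ^ (m + 1) * 3 ^ (m + 1) := by
      have h9 := hn9
      obtain ⟨k, hk⟩ : ∃ k, 3 ^ (m + 1) = k + 1 := ⟨3 ^ (m + 1) - 1, by omega⟩
      rw [hk]
      simp only [Nat.add_sub_cancel]
      ring
    have h := f1 r
    rw [← e, pow_succ, pow_mul] at h
    have h' : (r ^ (3 ^ (m + 1) - 1)) ^ (3 ^ (m + 1) + 1) * r = r ^ 2 * r := by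
      rw [h]; ring
    exact mul_right_cancel₀ hr h'
  refine ⟨f1, ?_, f3, ?_, ?_, ?_, ?_⟩
  · -- ∃ t, t ^ n ≠ t
    by_contra hcon
    push Not at hcon
    obtain ⟨g, hg⟩ := IsCyclic.exists_generator (α := Kˣ)
    have hord : orderOf g = 3 ^ (2 * m + 1) - 1 := by
      rw [orderOf_eq_card_of_forall_mem_zpowers hg, Nat.card_units, Nat.card_eq_fintype_card, hK]
    have hgn : g ^ (3 ^ (m + 1) - 1) = 1 := by
      apply Units.ext
      rw [Units.val_pow_eq_pow_val, Units.val_one]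
      have h := hcon (g : K)
      have hg0 : (g : K) ≠ 0 := g.ne_zero
      have e : 3 ^ (m + 1) = (3 ^ (m + 1) - 1) + 1 := by omega
      rw [e, pow_succ] at h
      have h' : (g : K) ^ (3 ^ (m + 1) - 1) * (g : K) = 1 * (g : K) := by rw [h, one_mul]
      exact mul_right_cancel₀ hg0 h'
    have hdvd := orderOf_dvd_of_pow_eq_one hgn
    rw [hord] at hdvd
    have hle := Nat.le_of_dvd (by omega) hdvd
    omega
  · -- (r⁻¹ ^ (n - 2)) ^ (n + 2) = r
    intro r hr
    have hs : r⁻¹ ≠ 0 := inv_ne_zero hr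
    have e : (3 ^ (m + 1) - 2) * (3 ^ (m + 1) + 2) + 4 = 3 ^ (m + 1) * 3 ^ (m + 1) := by
      have h9 := hn9
      obtain ⟨k, hk⟩ : ∃ k, 3 ^ (m + 1) = k + 2 := ⟨3 ^ (m + 1) - 2, by omega⟩
      rw [hk]
      simp only [Nat.add_sub_cancel]
      ring
    have h := f1 r⁻¹
    rw [← e, pow_add, pow_mul] at h
    -- h : (r⁻¹ ^ (n-2)) ^ (n+2) * r⁻¹ ^ 4 = r⁻¹ ^ 3
    have h4 : (r⁻¹ : K) ^ 4 ≠ 0 := pow_ne_zero 4 hs
    have h' : (r⁻¹ ^ (3 ^ (m + 1) - 2)) ^ (3 ^ (m + 1) + 2) * r⁻¹ ^ 4 = r * r⁻¹ ^ 4 := by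
      rw [h]
      field_simp
    exact mul_right_cancel₀ h4 h'
  · -- r ^ (n + 1) = 1 → r ^ 2 = 1
    intro r hr h
    rw [← f3 r hr, ← pow_mul, mul_comm, pow_mul, h, one_pow]
  · -- ∃ r ≠ 0, r ^ 2 ≠ 1
    by_contra hcon
    push Not at hcon
    have hsub : (Finset.univ : Finset K) ⊆ {0, 1, -1} := by
      intro r _
      by_cases hr : r = 0
      · simp [hr]
      · have h2 := hcon r hr
        have h3 : (r - 1) * (r + 1) = 0 := by ring_nf; rw [h2]; ring
        rcases mul_eq_zero.mp h3 with h | h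
        · have : r = 1 := sub_eq_zero.mp h
          simp [this]
        · have : r = -1 := eq_neg_of_add_eq_zero_left h
          simp [this]
    have hc := Finset.card_le_card hsub
    rw [Finset.card_univ, hK] at hc
    have h3 : ({0, 1, -1} : Finset K).card ≤ 3 := Finset.card_le_three
    have h27 : 27 ≤ 3 ^ (2 * m + 1) := by
      calc 27 = 3 ^ 3 := by norm_num
        _ ≤ 3 ^ (2 * m + 1) := Nat.pow_le_pow_right (by norm_num) (by omega)
    omega
  · intro a b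
    exact add_pow_char_pow a b 3 (m + 1)

example : StArith.{u} := arith

end Cfsg.Agent.H67.Ro
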