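import Mathlib
import Cfsg.Agent.H90.BG134Defs
import Cfsg.Agent.H7.BG1216HallA
import Cfsg.Agent.H76.BG10x
import Cfsg.Agent.H67.SylowAux
import Cfsg.Agent.Lib.Helper30.PiCore

/-!
# S1428-4IV (helper67, for helper90): case (iv) of Step 4 of B&G Theorem 13.4

`p ∈ σ(H)`, `p ∉ α(H)`, `T` a Sylow `p`-subgroup of `G` inside `H_σ ∩ L` with `N(T) ≤ H`,
`p ∤ |L'|`, `X ≤ H ∩ C(T)` of order `q ∉ σ(H)` with `N(X) ≤ L`, `H` of `q`-rank `1`, `R` of prime
order `r ∉ σ(H)` acting on `X` without fixed points: impossible.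
-/

set_option autoImplicit false
set_option linter.unusedVariables false
set_option linter.unusedSectionVars false
set_option linter.style.haveILetI false

namespace Cfsg.Agent.H67.BG134

open Cfsg Subgroup Cfsg.Agent.H58.BG10 Cfsg.Agent.H57.BG12 Cfsg.Agent.H76.BG12
  Cfsg.Agent.H47.BG12 Cfsg.Agent.H90.BG134

open scoped commutatorElement

universe u

variable {G : Type u} [Group G]

/-- Schur–Zassenhaus for a normal Hall subgroup `A` of `K`, inside an ambient group. -/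
theorem exists_compl_4iv [Finite G] {A K : Subgroup G} (hAK : A ≤ K)
    (hKN : K ≤ normalizer (A : Set G)) (hcop : (Nat.card A).Coprime (A.relIndex K)) :
    ∃ V : Subgroup G, V ≤ K ∧ A ⊓ V = ⊥ ∧ (∀ k ∈ K, ∃ a ∈ A, ∃ v ∈ V, k = a * v) ∧
      Nat.card V = A.relIndex K := by
  haveI : (A.subgroupOf K).Normal := Subgroup.normal_subgroupOf_of_le_normalizer hKN
  have hc : (Nat.card (A.subgroupOf K)).Coprime (A.subgroupOf K).index := by
    rw [Cfsg.Agent.H67.card_subgroupOf_of_le hAK]; exact hcop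
  obtain ⟨V', hV'⟩ := Subgroup.exists_right_complement'_of_coprime hc
  refine ⟨V'.map K.subtype, Subgroup.map_subtype_le V', ?_, ?_, ?_⟩
  · rw [eq_bot_iff]
    rintro x ⟨hxA, v, hv, rfl⟩
    have hmem : v ∈ A.subgroupOf K ⊓ V' := ⟨hxA, hv⟩
    rw [hV'.disjoint.eq_bot, Subgroup.mem_bot] at hmem
    rw [Subgroup.mem_bot, hmem]; rfl
  · intro k hk
    obtain ⟨⟨a, v⟩, hav, -⟩ := (Subgroup.isComplement_iff_existsUnique.mp hV') ⟨k, hk⟩
    refine ⟨a.1.1, a.2, v.1.1, ⟨v.1, v.2, rfl⟩, ?_⟩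
    have := congrArg Subtype.val hav
    simpa using this.symm
  · rw [Subgroup.card_map_of_injective K.subtype_injective]
    exact hV'.symm.index_eq_card.symm

/-- Frattini argument, inside an ambient group. -/
theorem frattini_4iv [Finite G] {p : ℕ} [Fact p.Prime] {T K H : Subgroup G} (hT : IsPGroup p T)
    (hTi : ¬ p ∣ T.index) (hTK : T ≤ K) (hHK : H ≤ normalizer (K : Set G)) :
    ∀ h ∈ H, ∃ a ∈ K, ∃ n ∈ normalizer (T : Set G), h = a * n := by
  intro h hh
  have hQK : T.map (MulAut.conj h).toMonoidHom ≤ K := by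
    rintro _ ⟨t, ht, rfl⟩
    have := (Subgroup.mem_normalizer_iff.mp (hHK hh) t).mp (hTK ht)
    simpa [MulAut.conj_apply] using this
  have hQ : IsPGroup p (T.map (MulAut.conj h).toMonoidHom) := hT.map _
  have hTrel : ¬ p ∣ T.relIndex K := fun hd =>
    hTi (dvd_trans hd (Subgroup.relIndex_dvd_index_of_le hTK))
  have hQi : (T.map (MulAut.conj h).toMonoidHom).index = T.index := by
    have h1 := Subgroup.card_mul_index (T.map (MulAut.conj h).toMonoidHom)
    have h2 := Subgroup.card_mul_index T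
    rw [Cfsg.Agent.H67.card_map_conj] at h1
    have hpos : 0 < Nat.card T := Nat.card_pos
    exact Nat.eq_of_mul_eq_mul_left hpos (h1.trans h2.symm)
  have hQrel : ¬ p ∣ (T.map (MulAut.conj h).toMonoidHom).relIndex K := fun hd =>
    hTi (hQi ▸ dvd_trans hd (Subgroup.relIndex_dvd_index_of_le hQK))
  obtain ⟨k, hk, hkQ⟩ :=
    Cfsg.Agent.H67.exists_conj_eq_of_isPGroup_of_not_dvd_relIndex hTK hQK hT hTrel hQ hQrel
  refine ⟨k, hk, k⁻¹ * h, ?_, by group⟩
  rw [Cfsg.Agent.H67.mem_normalizer_iff_map_conj, Cfsg.Agent.H67.map_conj_mul, hkQ,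
    Cfsg.Agent.H67.map_conj_inv_map_conj]

/-- A nontrivial `p`-group is not perfect. -/
theorem not_le_commutator_4iv [Finite G] {p : ℕ} [Fact p.Prime] {T : Subgroup G}
    (hT : IsPGroup p T) (hT1 : T ≠ ⊥) : ¬ T ≤ ⁅T, T⁆ := by
  intro hle
  haveI : Group.IsNilpotent ↥T := hT.isNilpotent
  haveI : Nontrivial ↥T := (Subgroup.nontrivial_iff_ne_bot T).mpr hT1
  have hlt := Group.IsSolvable.commutator_lt_top_of_nontrivial ↥T
  have htop : commutator ↥T = ⊤ := by
    rw [eq_top_iff]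
    intro x _
    have hx := hle x.2
    rw [← Subgroup.map_subtype_commutator] at hx
    obtain ⟨y, hy, hyx⟩ := hx
    have : y = x := Subtype.ext hyx
    rw [← this]; exact hy
  exact (lt_irrefl _ (htop ▸ hlt))

/-- An element of a `p`-group lying in a subgroup of order prime to `p` is trivial. -/
theorem eq_one_4iv [Finite G] {p : ℕ} (hp : p.Prime) {T B : Subgroup G} (hT : IsPGroup p T)
    (hB : ¬ p ∣ Nat.card B) {c : G} (hcT : c ∈ T) (hcB : c ∈ B) : c = 1 := by
  obtain ⟨k, hk⟩ := hT ⟨c, hcT⟩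
  have hk' : c ^ p ^ k = 1 := by simpa using congrArg Subtype.val hk
  have h1 : orderOf c ∣ p ^ k := orderOf_dvd_of_pow_eq_one hk'
  have h2 : orderOf c ∣ Nat.card B := by
    have := orderOf_dvd_natCard (⟨c, hcB⟩ : B)
    rwa [Subgroup.orderOf_mk] at this
  have hcop : (p ^ k).Coprime (Nat.card B) :=
    Nat.Coprime.pow_left k ((Nat.Prime.coprime_iff_not_dvd hp).2 hB)
  exact orderOf_eq_one_iff.mp (Nat.eq_one_of_dvd_coprimes hcop h1 h2)

theorem case4iv [Finite G] (hG : IsMinSimpleOddOrder G) (h50 : St1350 G) (h05 : St1405 G)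
    (h11 : St1411 G) (hSComm : StSigComm G) (hNC : StNilComm G) (hFU : StFactU G) :
    St4iv G := by
  intro H L hH hL p hpσ hpα hpL T hT1 hT hTi hTσ hTL hNH q hq hqσ hqrank X hXH hXq hXT hNX
    r hr hrσ hrq R hRH hRr hRX hXR
  have hp : p.Prime := hpσ.1
  haveI : Fact p.Prime := ⟨hp⟩
  obtain ⟨⟨hσle, hσpi, hσidx⟩, -, -⟩ := h50 H hH
  obtain ⟨⟨hαle, hαpi, -⟩, -, -, -, -⟩ := h05 H hH
  have hHnorm : H ≤ normalizer (sigmaCore H : Set G) :=
    Cfsg.Agent.Lib.Helper30.le_normalizer_piCoreOf (sigma H) H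
  have hσcomm : sigmaCore H ≤ ⁅H, H⁆ :=
    Cfsg.Agent.H76.BG10.sigmaCore_le_commutator hSComm H hH
  have hTN : T ≤ normalizer (T : Set G) := le_normalizer
  have hXN : X ≤ normalizer (T : Set G) := hXT.trans (centralizer_le_normalizer (T : Set G))
  -- (1) Frattini
  have hfrat := frattini_4iv hT hTi hTσ hHnorm
  -- (2) `K = N ⊓ Hσ` is a normal Hall subgroup of `N`
  have hKN : normalizer (T : Set G) ⊓ sigmaCore H ≤ normalizer (T : Set G) := inf_le_left
  have hNK : normalizer (T : Set G) ≤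
      normalizer ((normalizer (T : Set G) ⊓ sigmaCore H : Subgroup G) : Set G) := by
    intro n hn
    rw [Subgroup.mem_normalizer_iff]
    intro x
    have hnH := hHnorm (hNH hn)
    rw [Subgroup.mem_normalizer_iff] at hnH
    constructor
    · rintro ⟨hx1, hx2⟩
      exact ⟨(normalizer (T : Set G)).mul_mem ((normalizer (T : Set G)).mul_mem hn hx1)
        ((normalizer (T : Set G)).inv_mem hn), (hnH x).mp hx2⟩
    · rintro ⟨hx1, hx2⟩
      refine ⟨?_, (hnH x).mpr hx2⟩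
      have := (normalizer (T : Set G)).mul_mem
        ((normalizer (T : Set G)).mul_mem ((normalizer (T : Set G)).inv_mem hn) hx1) hn
      simpa [mul_assoc] using this
  have hKdvd : ∀ s : ℕ, s.Prime →
      s ∣ Nat.card (normalizer (T : Set G) ⊓ sigmaCore H : Subgroup G) → s ∈ sigma H :=
    fun s hs hs1 => hσpi s hs (dvd_trans hs1 (Subgroup.card_dvd_of_le inf_le_right))
  have hKcop : (Nat.card (normalizer (T : Set G) ⊓ sigmaCore H : Subgroup G)).Coprime
      ((normalizer (T : Set G) ⊓ sigmaCore H : Subgroup G).relIndex (normalizer (T : Set G))) := by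
    apply Nat.coprime_of_dvd
    intro s hs hs1 hs2
    have hsσ : s ∈ sigma H := hKdvd s hs hs1
    have h1 : (normalizer (T : Set G) ⊓ sigmaCore H : Subgroup G).relIndex (normalizer (T : Set G))
        = (sigmaCore H).relIndex (normalizer (T : Set G)) := by
      rw [inf_comm, Subgroup.inf_relIndex_right]
    have h2 : (sigmaCore H).relIndex (normalizer (T : Set G)) ∣ (sigmaCore H).relIndex H := by
      haveI : ((sigmaCore H).subgroupOf H).Normal :=
        Subgroup.normal_subgroupOf_of_le_normalizer hHnorm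
      have := Subgroup.relIndex_dvd_index_of_normal ((sigmaCore H).subgroupOf H)
        ((normalizer (T : Set G)).subgroupOf H)
      rwa [Subgroup.relIndex_subgroupOf hNH] at this
    exact hσidx s hs hsσ (dvd_trans (h1 ▸ hs2) h2)
  have hqK : ¬ q ∣ Nat.card (normalizer (T : Set G) ⊓ sigmaCore H : Subgroup G) :=
    fun hd => hqσ (hKdvd q hq hd)
  -- (3) a complement `W₀` of `K` in `N`
  obtain ⟨W₀, hW₀N, hKW₀, hW₀prod, -⟩ := exists_compl_4iv hKN hNK hKcop
  -- (4) conjugate `X` into `W₀`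
  have hNtop : normalizer (T : Set G) ≠ ⊤ := ne_top_of_le_ne_top hH.1 hNH
  haveI : Group.IsSolvable ↥(normalizer (T : Set G)) := hG.2.2.2 _ hNtop
  haveI : ((normalizer (T : Set G) ⊓ sigmaCore H : Subgroup G).subgroupOf
      (normalizer (T : Set G))).Normal := Subgroup.normal_subgroupOf_of_le_normalizer hNK
  have hcop' : (Nat.card ((normalizer (T : Set G) ⊓ sigmaCore H : Subgroup G).subgroupOf
      (normalizer (T : Set G)))).Coprime
      ((normalizer (T : Set G) ⊓ sigmaCore H : Subgroup G).subgroupOf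
        (normalizer (T : Set G))).index := by
    rw [Cfsg.Agent.H67.card_subgroupOf_of_le hKN]; exact hKcop
  have hAT : ∀ m : ↥(normalizer (T : Set G)),
      ∃ a ∈ (normalizer (T : Set G) ⊓ sigmaCore H : Subgroup G).subgroupOf (normalizer (T : Set G)),
        ∃ n ∈ W₀.subgroupOf (normalizer (T : Set G)), m = a * n := by
    intro m
    obtain ⟨a, ha, v, hv, e⟩ := hW₀prod m.1 m.2
    exact ⟨⟨a, hKN ha⟩, ha, ⟨v, hW₀N hv⟩, hv, Subtype.ext e⟩
  have hY : (Nat.card (X.subgroupOf (normalizer (T : Set G)))).Coprime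
      (Nat.card ((normalizer (T : Set G) ⊓ sigmaCore H : Subgroup G).subgroupOf
        (normalizer (T : Set G)))) := by
    rw [Cfsg.Agent.H67.card_subgroupOf_of_le hXN, Cfsg.Agent.H67.card_subgroupOf_of_le hKN, hXq]
    exact (Nat.Prime.coprime_iff_not_dvd hq).2 hqK
  obtain ⟨g, hg⟩ := Cfsg.Agent.H7.BG1216.hall_conj_into _ _ _ hcop' hAT hY
  have hgX : ∀ x ∈ X, (g : G) * x * (g : G)⁻¹ ∈ W₀ := by
    intro x hx
    have h1 : (⟨x, hXN hx⟩ : ↥(normalizer (T : Set G))) ∈
        X.subgroupOf (normalizer (T : Set G)) := hx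
    have h2 := hg (Subgroup.smul_mem_pointwise_smul _ (MulAut.conj g) _ h1)
    have h3 : ((MulAut.conj g • (⟨x, hXN hx⟩ : ↥(normalizer (T : Set G))) :
        ↥(normalizer (T : Set G))) : G) ∈ W₀ := h2
    simpa [MulAut.smul_def, MulAut.conj_apply] using h3
  -- (5) the complement `W` of `K` in `N` containing `X`
  have hgN : (g : G) ∈ normalizer (T : Set G) := g.2
  have hginvN : (g : G)⁻¹ ∈ normalizer (T : Set G) := (normalizer (T : Set G)).inv_mem hgN
  have hXW : X ≤ W₀.map (MulAut.conj (g : G)⁻¹).toMonoidHom := by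
    intro x hx
    rw [Cfsg.Agent.H67.mem_map_conj]
    simpa using hgX x hx
  have hWN : W₀.map (MulAut.conj (g : G)⁻¹).toMonoidHom ≤ normalizer (T : Set G) :=
    Cfsg.Agent.H67.map_conj_le_of_mem hW₀N hginvN
  have hWH : W₀.map (MulAut.conj (g : G)⁻¹).toMonoidHom ≤ H := hWN.trans hNH
  have hWσ : W₀.map (MulAut.conj (g : G)⁻¹).toMonoidHom ⊓ sigmaCore H = ⊥ := by
    rw [eq_bot_iff]
    intro y hy
    obtain ⟨hy1, hy2⟩ := Subgroup.mem_inf.mp hy
    rw [Cfsg.Agent.H67.mem_map_conj] at hy1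
    simp only [inv_inv] at hy1
    have hy3 : (g : G) * y * (g : G)⁻¹ ∈ sigmaCore H :=
      (Subgroup.mem_normalizer_iff.mp (hHnorm (hNH hgN)) y).mp hy2
    have hy4 : (g : G) * y * (g : G)⁻¹ ∈
        (normalizer (T : Set G) ⊓ sigmaCore H : Subgroup G) ⊓ W₀ := ⟨⟨hW₀N hy1, hy3⟩, hy1⟩
    rw [hKW₀, Subgroup.mem_bot] at hy4
    rw [Subgroup.mem_bot]
    have : y = (g : G)⁻¹ * ((g : G) * y * (g : G)⁻¹) * (g : G) := by group
    rw [this, hy4]; group
  have hWprod : ∀ n ∈ normalizer (T : Set G),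
      ∃ a ∈ (normalizer (T : Set G) ⊓ sigmaCore H : Subgroup G),
        ∃ w ∈ W₀.map (MulAut.conj (g : G)⁻¹).toMonoidHom, n = a * w := by
    intro n hn
    obtain ⟨a, ha, v, hv, e⟩ := hW₀prod ((g : G) * n * (g : G)⁻¹)
      ((normalizer (T : Set G)).mul_mem ((normalizer (T : Set G)).mul_mem hgN hn) hginvN)
    refine ⟨(g : G)⁻¹ * a * (g : G), ?_, (g : G)⁻¹ * v * (g : G), ?_, ?_⟩
    · have := (Subgroup.mem_normalizer_iff.mp (hNK hginvN) a).mp ha
      simpa using this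
    · have := Cfsg.Agent.H67.conj_mem_map_conj W₀ (g : G)⁻¹ hv
      simpa using this
    · have : n = (g : G)⁻¹ * ((g : G) * n * (g : G)⁻¹) * (g : G) := by group
      rw [this, e]; group
  -- (6) `W` is a complement of `Hσ` in `H`
  have hcompl : IsComplIn (W₀.map (MulAut.conj (g : G)⁻¹).toMonoidHom) (sigmaCore H) H := by
    refine ⟨hWH, hσle, hWσ, ?_⟩
    intro m hm
    obtain ⟨s, hs, n, hn, rfl⟩ := hfrat m hm
    obtain ⟨a, ha, w, hw, rfl⟩ := hWprod n hn
    refine ⟨w, hw, w⁻¹ * (s * a) * w, ?_, by group⟩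
    have hsa : s * a ∈ sigmaCore H := (sigmaCore H).mul_mem hs ha.2
    have := (Subgroup.mem_normalizer_iff.mp (hHnorm (H.inv_mem (hWH hw))) (s * a)).mp hsa
    simpa using this
  -- (7) FACTU
  have hWX : W₀.map (MulAut.conj (g : G)⁻¹).toMonoidHom ≤ normalizer (X : Set G) :=
    hFU H hH q hq hqσ hqrank X hXH hXq r hr hrσ hrq R hRH hRr hRX hXR _ hcompl hXW
  have hWL : W₀.map (MulAut.conj (g : G)⁻¹).toMonoidHom ≤ L := hWX.trans hNX
  -- (8) `W` centralizes `T`
  have hWC : W₀.map (MulAut.conj (g : G)⁻¹).toMonoidHom ≤ centralizer (T : Set G) := by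
    intro w hw
    rw [Subgroup.mem_centralizer_iff]
    intro t ht
    have hc1 : ⁅t, w⁆ ∈ T := by
      rw [commutatorElement_def]
      have := (Subgroup.mem_normalizer_iff.mp (hWN hw) t⁻¹).mp (T.inv_mem ht)
      have h2 := T.mul_mem ht this
      simpa [mul_assoc] using h2
    have hc2 : ⁅t, w⁆ ∈ ⁅L, L⁆ := Subgroup.commutator_mem_commutator (hTL ht) (hWL hw)
    exact commutatorElement_eq_one_iff_mul_comm.mp (eq_one_4iv hp hT hpL hc1 hc2)
  -- (9) `K ≤ T · C(T)`
  have hTK : T ≤ (normalizer (T : Set G) ⊓ sigmaCore H : Subgroup G) := le_inf hTN hTσ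
  obtain ⟨nT, hnT⟩ := IsPGroup.iff_card.mp hT
  have hcopT : ∀ Y : Subgroup G, T ≤ Y → (Nat.card T).Coprime (T.relIndex Y) := by
    intro Y hTY
    rw [hnT]
    apply Nat.Coprime.pow_left
    exact (Nat.Prime.coprime_iff_not_dvd hp).2
      (fun hd => hTi (dvd_trans hd (Subgroup.relIndex_dvd_index_of_le hTY)))
  obtain ⟨W1, hW1K, -, hW1prod, hW1card⟩ := exists_compl_4iv hTK hKN (hcopT _ hTK)
  have hpW1 : ¬ p ∣ Nat.card W1 := by
    rw [hW1card]
    exact fun hd => hTi (dvd_trans hd (Subgroup.relIndex_dvd_index_of_le hTK))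
  have hpα' : ¬ p ∣ Nat.card (alphaCore H) := fun hd => hpα (hαpi p hp hd)
  have hW1C : W1 ≤ centralizer (T : Set G) := by
    have hcomm : ⁅T, W1⁆ ≤ alphaCore H :=
      hNC H hH p hp T W1 (hTσ.trans hσcomm) ((hW1K.trans inf_le_right).trans hσcomm) hT hpW1
    intro w hw
    rw [Subgroup.mem_centralizer_iff]
    intro t ht
    have hc1 : ⁅t, w⁆ ∈ T := by
      rw [commutatorElement_def]
      have := (Subgroup.mem_normalizer_iff.mp (hKN (hW1K hw)) t⁻¹).mp (T.inv_mem ht)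
      have h2 := T.mul_mem ht this
      simpa [mul_assoc] using h2
    have hc2 : ⁅t, w⁆ ∈ alphaCore H := hcomm (Subgroup.commutator_mem_commutator ht hw)
    exact commutatorElement_eq_one_iff_mul_comm.mp (eq_one_4iv hp hT hpα' hc1 hc2)
  -- (10) `N = T · C(T)`
  have hNTC : ∀ n ∈ normalizer (T : Set G), ∃ t ∈ T, ∃ c ∈ centralizer (T : Set G), n = t * c := by
    intro n hn
    obtain ⟨a, ha, w, hw, rfl⟩ := hWprod n hn
    obtain ⟨t, ht, w1, hw1, rfl⟩ := hW1prod a ha
    exact ⟨t, ht, w1 * w, (centralizer (T : Set G)).mul_mem (hW1C hw1) (hWC hw), by group⟩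
  -- (11) a complement `V` of `T` in `N` and S1411
  obtain ⟨V, hVN, hTV, hVprod, -⟩ := exists_compl_4iv hTN le_rfl (hcopT _ hTN)
  have hcomplV : IsComplIn T V (normalizer (T : Set G)) := ⟨hTN, hVN, hTV, hVprod⟩
  have hTVeq : T = ⁅T, V⁆ := (h11 p (hT.toSylow hTi) V hcomplV).1
  -- (12) `[T, V] ≤ [T, T]`
  have h12 : ⁅T, V⁆ ≤ ⁅T, T⁆ := by
    rw [Subgroup.commutator_le]
    intro t ht v hv
    obtain ⟨t', ht', c, hc, rfl⟩ := hNTC v (hVN hv)
    have hcomm : t⁻¹ * c = c * t⁻¹ :=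
      Subgroup.mem_centralizer_iff.mp hc t⁻¹ (T.inv_mem ht)
    have : ⁅t, t' * c⁆ = ⁅t, t'⁆ := by
      rw [commutatorElement_def, commutatorElement_def]
      calc t * (t' * c) * t⁻¹ * (t' * c)⁻¹ = t * t' * (c * t⁻¹) * c⁻¹ * t'⁻¹ := by group
        _ = t * t' * (t⁻¹ * c) * c⁻¹ * t'⁻¹ := by rw [hcomm]
        _ = t * t' * t⁻¹ * t'⁻¹ := by group
    rw [this]
    exact Subgroup.commutator_mem_commutator ht ht'
  exact not_le_commutator_4iv hT hT1 ((le_of_eq hTVeq).trans h12)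

end Cfsg.Agent.H67.BG134
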