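import Mathlib
import Cfsg.Agent.H58.FzBasic

/-!
# S4306, step 3 (`s = v`, `R` abelian): `step3b_ab`
-/

set_option autoImplicit false
set_option linter.unusedVariables false
set_option linter.unusedSectionVars false

namespace Cfsg.Agent.H67.Fz

open Cfsg.Agent.H58.Fz
open Cfsg.Agent.H58.FrobAct Cfsg.Agent.H58.Ward
open scoped commutatorElement

universe u

variable {X : Type u} [Group X] [Finite X] {p q k v r s : ℕ} {V R S A : Subgroup X} {y x : X}

theorem step3b_ab (cyc : CYC X) (c : FCfg p q k v r s V R S A y x)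
    (hSy : S ≤ Subgroup.centralizer {y}) (hsv : s = v)
    (hRc : ∀ a ∈ R, ∀ b ∈ R, a * b = b * a)
    (hG1 : ∀ K : Subgroup X, K ≤ R → Nat.card R = r * Nat.card K →
        V ⊓ Subgroup.centralizer (K : Set X) ≠ ⊥ →
        y ∉ Subgroup.normalizer (K : Set X) ∧
        ∃ c₀ ∈ Subgroup.zpowers y, c₀ * x * c₀⁻¹ ∈ Subgroup.normalizer (K : Set X))
    (K : Subgroup X) (hKR : K ≤ R) (hidx : Nat.card R = r * Nat.card K)
    (hW : V ⊓ Subgroup.centralizer (K : Set X) ≠ ⊥)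
    (hxK : x ∈ Subgroup.normalizer (K : Set X)) : False := by
  have hS0 := c.S0_bot_of_eq hsv
  have hSzy : S ≤ Subgroup.centralizer ((Subgroup.zpowers y : Subgroup X) : Set X) := by
    rw [centralizer_zpowers]; exact hSy
  have hyS : ∀ σ ∈ S, y * σ = σ * y :=
    fun σ hσ => (Subgroup.mem_centralizer_iff.mp (hSy hσ)) y rfl
  have hCSx : ∀ σ ∈ S, x * σ = σ * x → σ = 1 := by
    intro σ hσ h
    have h1 : σ ∈ S ⊓ Subgroup.centralizer (A : Set X) := ⟨hσ, c.mem_cA σ (hyS σ hσ) h⟩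
    rw [c.hfS] at h1
    exact Subgroup.mem_bot.mp h1
  have hxS : x ∈ Subgroup.normalizer (S : Set X) := c.hAS c.hxA
  have hxR : x ∈ Subgroup.normalizer (R : Set X) := c.hAR c.hxA
  have hyK : y ∉ Subgroup.normalizer (K : Set X) := (hG1 K hKR hidx hW).1
  have hRNK : R ≤ Subgroup.normalizer (K : Set X) := by
    intro ρ hρ
    apply mem_normalizer_of_comm
    intro z hz
    exact hRc ρ hρ z (hKR hz)
  obtain ⟨T, hT⟩ : ∃ T : Subgroup X, T = S ⊓ Subgroup.normalizer (K : Set X) := ⟨_, rfl⟩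
  have hTS : T ≤ S := hT ▸ inf_le_left
  have hTK : T ≤ Subgroup.normalizer (K : Set X) := hT ▸ inf_le_right
  have hTA : A ≤ Subgroup.normalizer (T : Set X) := by
    rw [c.hA, Subgroup.closure_le]
    intro g hg
    rw [Set.mem_insert_iff, Set.mem_singleton_iff] at hg
    rcases hg with hg | hg
    · rw [hg]
      exact mem_normalizer_of_comm T y (fun t ht => hyS t (hTS ht))
    · rw [hg]
      apply mem_normalizer_of_conj
      intro t ht
      rw [hT]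
      exact ⟨conj_mem_of_mem_normalizer hxS (hTS ht),
        Subgroup.mul_mem _ (Subgroup.mul_mem _ hxK (hTK ht)) (Subgroup.inv_mem _ hxK)⟩
  by_cases hTeq : T = S
  · -- `S` normalizes `K`
    have hSNK : S ≤ Subgroup.normalizer (K : Set X) := hTeq ▸ hTK
    have hφmem : ∀ σ ∈ S, σ * x * σ⁻¹ * x⁻¹ ∈ S := by
      intro σ hσ
      have h1 : x * σ⁻¹ * x⁻¹ ∈ S := conj_mem_of_mem_normalizer hxS (S.inv_mem hσ)
      have e : σ * x * σ⁻¹ * x⁻¹ = σ * (x * σ⁻¹ * x⁻¹) := by group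
      rw [e]; exact S.mul_mem hσ h1
    have hinj : Function.Injective
        (fun σ : S => (⟨(σ : X) * x * (σ : X)⁻¹ * x⁻¹, hφmem σ σ.2⟩ : S)) := by
      intro σ τ hστ
      have h1 : (σ : X) * x * (σ : X)⁻¹ * x⁻¹ = (τ : X) * x * (τ : X)⁻¹ * x⁻¹ :=
        congrArg Subtype.val hστ
      have h3 : (σ : X) * x * (σ : X)⁻¹ = (τ : X) * x * (τ : X)⁻¹ := mul_right_cancel h1
      have h2 : x * ((τ : X)⁻¹ * σ) = ((τ : X)⁻¹ * σ) * x := by
        calc x * ((τ : X)⁻¹ * σ) = (τ : X)⁻¹ * ((τ : X) * x * (τ : X)⁻¹) * σ := by group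
          _ = (τ : X)⁻¹ * ((σ : X) * x * (σ : X)⁻¹) * σ := by rw [h3]
          _ = ((τ : X)⁻¹ * σ) * x := by group
      have h4 := hCSx _ (S.mul_mem (S.inv_mem τ.2) σ.2) h2
      apply Subtype.ext
      exact (inv_mul_eq_one.mp h4).symm
    have hsurj := Finite.surjective_of_injective hinj
    have h2 : ⁅S, R⁆ ≤ K := by
      rw [Subgroup.commutator_le]
      intro τ hτ ρ hρ
      obtain ⟨σ, hσ⟩ := hsurj ⟨τ, hτ⟩
      have h3 : (σ : X) * x * (σ : X)⁻¹ * x⁻¹ = τ := congrArg Subtype.val hσ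
      rw [commutatorElement_def, ← h3]
      exact cyc R K r σ x c.hr hKR hidx hRNK (c.hSR σ.2) (hSNK σ.2) hxR hxK ρ hρ
    rw [Subgroup.commutator_comm, c.R_eq] at h2
    have h5 : K = R := le_antisymm hKR h2
    rw [h5] at hidx
    have hpos : 0 < Nat.card R := Nat.card_pos
    have h6 : 1 = r := Nat.eq_of_mul_eq_mul_right hpos (by rw [one_mul]; exact hidx)
    exact c.hr.one_lt.ne h6
  · have hTbot : T = ⊥ := by
      have h1 := c.proper_le_S0 T hTS hTA hTeq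
      rwa [hS0, le_bot_iff] at h1
    have hTtriv : ∀ t ∈ S, t ∈ Subgroup.normalizer (K : Set X) → t = 1 := by
      intro t ht htK
      have h1 : t ∈ T := by rw [hT]; exact ⟨ht, htK⟩
      rw [hTbot] at h1
      exact Subgroup.mem_bot.mp h1
    obtain ⟨g', hg'⟩ := (Subgroup.ne_bot_iff_exists_ne_one (H := S)).mp c.hSne
    obtain ⟨σ, hσS, hσ1⟩ : ∃ g ∈ S, g ≠ 1 := ⟨g'.1, g'.2, fun h => hg' (Subtype.ext h)⟩
    -- the conjugate `K' = σ K σ⁻¹`
    obtain ⟨K', hK'mem, hK'card⟩ : ∃ K' : Subgroup X,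
        (∀ z, z ∈ K' ↔ σ⁻¹ * z * σ ∈ K) ∧ Nat.card K' = Nat.card K := by
      refine ⟨K.map (MulAut.conj σ).toMonoidHom, ?_, ?_⟩
      · intro z
        rw [Subgroup.mem_map]
        constructor
        · rintro ⟨k₀, hk₀, rfl⟩
          have e : σ⁻¹ * ((MulAut.conj σ).toMonoidHom k₀) * σ = k₀ := by
            simp [MulAut.conj_apply, mul_assoc]
          rw [e]; exact hk₀
        · intro h
          refine ⟨σ⁻¹ * z * σ, h, ?_⟩
          simp [MulAut.conj_apply, mul_assoc]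
      · exact Subgroup.card_map_of_injective (MulAut.conj σ).injective
    have hK'R : K' ≤ R := by
      intro z hz
      have h1 : σ⁻¹ * z * σ ∈ R := hKR ((hK'mem z).mp hz)
      have h2 := conj_mem_of_mem_normalizer (c.hSR hσS) h1
      have e : σ * (σ⁻¹ * z * σ) * σ⁻¹ = z := by group
      rwa [e] at h2
    have hK'idx : Nat.card R = r * Nat.card K' := by rw [hK'card]; exact hidx
    have hK'W : V ⊓ Subgroup.centralizer (K' : Set X) ≠ ⊥ := by
      obtain ⟨w', hw'⟩ := (Subgroup.ne_bot_iff_exists_ne_one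
        (H := V ⊓ Subgroup.centralizer (K : Set X))).mp hW
      intro hbot
      apply hw'
      apply Subtype.ext
      have hwV : (w' : X) ∈ V := w'.2.1
      have hwC : (w' : X) ∈ Subgroup.centralizer (K : Set X) := w'.2.2
      have h1 : σ * (w' : X) * σ⁻¹ ∈ V ⊓ Subgroup.centralizer (K' : Set X) := by
        refine Subgroup.mem_inf.mpr ⟨conj_mem_of_mem_normalizer (c.hSV hσS) hwV, ?_⟩
        rw [Subgroup.mem_centralizer_iff]
        intro z hz
        have h2 := (Subgroup.mem_centralizer_iff.mp hwC) _ ((hK'mem z).mp hz)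
        calc z * (σ * (w' : X) * σ⁻¹) = σ * (σ⁻¹ * z * σ * (w' : X)) * σ⁻¹ := by group
          _ = σ * ((w' : X) * (σ⁻¹ * z * σ)) * σ⁻¹ := by rw [h2]
          _ = σ * (w' : X) * σ⁻¹ * z := by group
      rw [hbot, Subgroup.mem_bot] at h1
      show (w' : X) = 1
      calc (w' : X) = σ⁻¹ * (σ * (w' : X) * σ⁻¹) * σ := by group
        _ = 1 := by rw [h1]; group
    obtain ⟨hyK', c₀, hc₀, hx'⟩ := hG1 K' hK'R hK'idx hK'W
    have h1 : σ⁻¹ * (c₀ * x * c₀⁻¹) * σ ∈ Subgroup.normalizer (K : Set X) := by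
      apply mem_normalizer_of_conj
      intro z hz
      have hz' : σ * z * σ⁻¹ ∈ K' := by
        rw [hK'mem]
        have e : σ⁻¹ * (σ * z * σ⁻¹) * σ = z := by group
        rw [e]; exact hz
      have h2 := conj_mem_of_mem_normalizer hx' hz'
      rw [hK'mem] at h2
      have e : σ⁻¹ * (c₀ * x * c₀⁻¹) * σ * z * (σ⁻¹ * (c₀ * x * c₀⁻¹) * σ)⁻¹ =
          σ⁻¹ * (c₀ * x * c₀⁻¹ * (σ * z * σ⁻¹) * (c₀ * x * c₀⁻¹)⁻¹) * σ := by group
      rw [e]; exact h2
    have hxinv : x⁻¹ ∈ Subgroup.normalizer ((Subgroup.zpowers y : Subgroup X) : Set X) :=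
      Subgroup.inv_mem _ (c.hAzy c.hxA)
    have hy₁ : x⁻¹ * c₀ * x * c₀⁻¹ ∈ Subgroup.zpowers y := by
      have h2 := conj_mem_of_mem_normalizer hxinv hc₀
      rw [inv_inv] at h2
      exact Subgroup.mul_mem _ h2 (Subgroup.inv_mem _ hc₀)
    obtain ⟨y₁, hy₁def⟩ : ∃ y₁ : X, y₁ = x⁻¹ * c₀ * x * c₀⁻¹ := ⟨_, rfl⟩
    rw [← hy₁def] at hy₁
    have hσ₁S : x⁻¹ * σ⁻¹ * x * σ ∈ S := by
      have h2 := conj_mem_of_mem_normalizer (Subgroup.inv_mem _ hxS) (S.inv_mem hσS)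
      rw [inv_inv] at h2
      exact S.mul_mem h2 hσS
    obtain ⟨σ₁, hσ₁def⟩ : ∃ σ₁ : X, σ₁ = x⁻¹ * σ⁻¹ * x * σ := ⟨_, rfl⟩
    rw [← hσ₁def] at hσ₁S
    have hcomm : ∀ τ ∈ S, y₁ * τ = τ * y₁ :=
      fun τ hτ => (Subgroup.mem_centralizer_iff.mp (hSzy hτ)) y₁ hy₁
    have hg : σ₁ * y₁ ∈ Subgroup.normalizer (K : Set X) := by
      have e : σ₁ * y₁ = x⁻¹ * (σ⁻¹ * (c₀ * x * c₀⁻¹) * σ) := by
        have e1 : c₀ * x * c₀⁻¹ = x * y₁ := by rw [hy₁def]; group
        rw [e1, hσ₁def]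
        calc x⁻¹ * σ⁻¹ * x * σ * y₁ = x⁻¹ * σ⁻¹ * x * (σ * y₁) := by group
          _ = x⁻¹ * σ⁻¹ * x * (y₁ * σ) := by rw [hcomm σ hσS]
          _ = x⁻¹ * (σ⁻¹ * (x * y₁) * σ) := by group
      rw [e]
      exact Subgroup.mul_mem _ (Subgroup.inv_mem _ hxK) h1
    have hσ₁n : σ₁ ^ Nat.card S = 1 := by
      have h2 : (⟨σ₁, hσ₁S⟩ : S) ^ Nat.card S = 1 := pow_card_eq_one'
      have h3 := congrArg Subtype.val h2
      rw [Subgroup.coe_pow, Subgroup.coe_one] at h3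
      exact h3
    have hy₁n : y₁ ^ Nat.card S ∈ Subgroup.normalizer (K : Set X) := by
      have h2 := Subgroup.pow_mem _ hg (Nat.card S)
      have hc : Commute σ₁ y₁ := (hcomm σ₁ hσ₁S).symm
      rw [hc.mul_pow, hσ₁n, one_mul] at h2
      exact h2
    have hy₁q : y₁ ^ q = 1 := by
      obtain ⟨m, hm⟩ := Subgroup.mem_zpowers_iff.mp hy₁
      rw [← hm, ← zpow_natCast, ← zpow_mul, mul_comm, zpow_mul, zpow_natCast, c.hy, one_zpow]
    by_cases hy₁1 : y₁ ^ Nat.card S = 1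
    · have h2 : orderOf y₁ ∣ Nat.gcd (Nat.card S) q :=
        Nat.dvd_gcd (orderOf_dvd_of_pow_eq_one hy₁1) (orderOf_dvd_of_pow_eq_one hy₁q)
      have h3 : Nat.gcd (Nat.card S) q = 1 := c.copqS
      rw [h3, Nat.dvd_one, orderOf_eq_one_iff] at h2
      rw [h2, mul_one] at hg
      have h4 := hTtriv σ₁ hσ₁S hg
      apply hσ1
      apply hCSx σ hσS
      rw [hσ₁def] at h4
      calc x * σ = σ * x * (x⁻¹ * σ⁻¹ * x * σ) := by group
        _ = σ * x := by rw [h4, mul_one]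
    · apply hyK
      have h2 : y ∈ Subgroup.zpowers (y₁ ^ Nat.card S) :=
        mem_zpowers_of_prime q c.hq y _ c.hy (Subgroup.pow_mem _ hy₁ _) hy₁1
      exact (Subgroup.zpowers_le.mpr hy₁n) h2

end Cfsg.Agent.H67.Fz
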