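import Mathlib
import Cfsg.Agent.H58.FzBasic

/-!
# S4306, step 3 (cyclic case `|S| = v`): `step3w_cyc`
-/

set_option autoImplicit false
set_option linter.unusedVariables false
set_option linter.unusedSectionVars false

namespace Cfsg.Agent.H67.Fz

open Cfsg.Agent.H58.Fz
open Cfsg.Agent.H58.FrobAct Cfsg.Agent.H58.Ward
open scoped commutatorElement

universe u

variable {X : Type u} [Group X] [Finite X] {p q k v r s : ℕ} {V R S A : Subgroup X} {y x : X}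

/-- An element normalizing `W` normalizes `C(W)`. -/
theorem normalizer_centralizer_of_normalizer (W : Subgroup X) (g : X)
    (hg : g ∈ Subgroup.normalizer (W : Set X)) :
    g ∈ Subgroup.normalizer ((Subgroup.centralizer (W : Set X) : Subgroup X) : Set X) := by
  apply mem_normalizer_of_conj
  intro z hz
  rw [Subgroup.mem_centralizer_iff] at hz ⊢
  intro w hw
  have h1 : g⁻¹ * w * g⁻¹⁻¹ ∈ W := conj_mem_of_mem_normalizer (Subgroup.inv_mem _ hg) hw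
  have h2 := hz _ h1
  calc w * (g * z * g⁻¹) = g * (g⁻¹ * w * g⁻¹⁻¹ * z) * g⁻¹ := by group
    _ = g * (z * (g⁻¹ * w * g⁻¹⁻¹)) * g⁻¹ := by rw [h2]
    _ = g * z * g⁻¹ * w := by group

/-- If `c` normalizes `C` and `[c, ρ] ∈ C` for all `ρ ∈ R`, then `[c ^ n, ρ] ∈ C` for all
`ρ ∈ R`. -/
theorem comm_pow_mem (C R : Subgroup X) (c : X) (hcC : c ∈ Subgroup.normalizer (C : Set X))
    (h : ∀ ρ ∈ R, c * ρ * c⁻¹ * ρ⁻¹ ∈ C) (n : ℕ) :
    ∀ ρ ∈ R, c ^ n * ρ * (c ^ n)⁻¹ * ρ⁻¹ ∈ C := by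
  induction n with
  | zero =>
    intro ρ hρ
    have e : c ^ 0 * ρ * (c ^ 0)⁻¹ * ρ⁻¹ = 1 := by group
    rw [e]; exact C.one_mem
  | succ n ih =>
    intro ρ hρ
    have e : c ^ (n + 1) * ρ * (c ^ (n + 1))⁻¹ * ρ⁻¹ =
        c * (c ^ n * ρ * (c ^ n)⁻¹ * ρ⁻¹) * c⁻¹ * (c * ρ * c⁻¹ * ρ⁻¹) := by
      rw [pow_succ']; group
    rw [e]
    exact C.mul_mem (conj_mem_of_mem_normalizer hcC (ih ρ hρ)) (h ρ hρ)

theorem step3w_cyc (hhb : HHB X) (c : FCfg p q k v r s V R S A y x)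
    (hSy : S ≤ Subgroup.centralizer {y}) (hsv : s = v) (hcard : Nat.card S = v)
    (W : Subgroup X) (hWV : W ≤ V) (hRW : R ≤ Subgroup.normalizer (W : Set X))
    (hSW : S ≤ Subgroup.normalizer (W : Set X)) (hxW : x ∈ Subgroup.normalizer (W : Set X))
    (hxfix : ∀ w ∈ W, x * w = w * x → w = 1)
    (hRW' : ¬ R ≤ Subgroup.centralizer (W : Set X)) : False := by
  obtain ⟨g', hg'⟩ := (Subgroup.ne_bot_iff_exists_ne_one (H := S)).mp c.hSne
  obtain ⟨c₁, hc₁S, hc₁1⟩ : ∃ g ∈ S, g ≠ 1 := ⟨g'.1, g'.2, fun h => hg' (Subtype.ext h)⟩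
  have hc₁v : c₁ ^ v = 1 := by
    have h1 : (⟨c₁, hc₁S⟩ : S) ^ Nat.card S = 1 := pow_card_eq_one'
    rw [hcard] at h1
    have h2 := congrArg Subtype.val h1
    rw [Subgroup.coe_pow, Subgroup.coe_one] at h2
    exact h2
  have hvF : Fact v.Prime := ⟨c.hv⟩
  have hord : orderOf c₁ = v := orderOf_eq_prime hc₁v hc₁1
  have hSz : Subgroup.zpowers c₁ = S := by
    apply Subgroup.eq_of_le_of_card_ge ((Subgroup.zpowers_le).mpr hc₁S)
    rw [Nat.card_zpowers, hord, hcard]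
  have hSpow : ∀ σ ∈ S, ∃ n : ℕ, σ = c₁ ^ n := by
    intro σ hσ
    rw [← hSz] at hσ
    have h1 := (mem_powers_iff_mem_zpowers).mpr hσ
    obtain ⟨n, hn⟩ := (Submonoid.mem_powers_iff _ _).mp h1
    exact ⟨n, hn.symm⟩
  have hxS : x * c₁ * x⁻¹ ∈ S := conj_mem_of_mem_normalizer (c.hAS c.hxA) hc₁S
  obtain ⟨a, ha⟩ := hSpow _ hxS
  have hxne : x * c₁ * x⁻¹ ≠ c₁ := by
    intro h
    have h1 : c₁ ∈ S ⊓ Subgroup.centralizer (A : Set X) := by
      refine ⟨hc₁S, c.mem_cA c₁ ?_ ?_⟩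
      · exact (Subgroup.mem_centralizer_iff.mp (hSy hc₁S)) y rfl
      · calc x * c₁ = x * c₁ * x⁻¹ * x := by group
          _ = c₁ * x := by rw [h]
    rw [c.hfS] at h1
    exact hc₁1 (Subgroup.mem_bot.mp h1)
  have hpv : p ≠ v := by
    intro h
    have h1 := c.coppS
    rw [hcard, h] at h1
    exact c.hv.one_lt.ne' ((Nat.coprime_self v).mp h1)
  have hex : ∃ ρ ∈ R, c₁ * ρ * c₁⁻¹ * ρ⁻¹ ∉ Subgroup.centralizer (W : Set X) := by
    by_contra hno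
    have hno : ∀ ρ ∈ R, c₁ * ρ * c₁⁻¹ * ρ⁻¹ ∈ Subgroup.centralizer (W : Set X) := by
      intro ρ hρ
      by_contra h'
      exact hno ⟨ρ, hρ, h'⟩
    apply hRW'
    have hcC := normalizer_centralizer_of_normalizer W c₁ (hSW hc₁S)
    have h2 : ⁅S, R⁆ ≤ Subgroup.centralizer (W : Set X) := by
      rw [Subgroup.commutator_le]
      intro σ hσ ρ hρ
      obtain ⟨n, rfl⟩ := hSpow σ hσ
      rw [commutatorElement_def]
      exact comm_pow_mem _ R c₁ hcC hno n ρ hρ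
    rw [Subgroup.commutator_comm, c.R_eq] at h2
    exact h2
  obtain ⟨w, hwW, hw1, hxw⟩ := hhb W R c₁ x v r p a c.hv c.hr c.hp (Ne.symm c.hvr) hpv
    (fun u hu u' hu' => c.hVc u (hWV hu) u' (hWV hu')) (fun u hu => c.hVe u (hWV hu)) c.hR hRW
    (hSW hc₁S) hxW (c.hSR hc₁S) hc₁v c.hx ha hxne hex
  exact hw1 (hxfix w hwW hxw)

end Cfsg.Agent.H67.Fz
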