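import Cfsg.Agent.H64.JzDefs
import Cfsg.Agent.S2947
import Cfsg.Agent.H26.SE2
import Cfsg.Agent.Helper55.J48

/-!
# JZ-NSE (team project JZ, S2951/S2952)

A member `L` of the family of a Sylow 2-subgroup `S` of `G` containing `N_G(J(S))` is not
strongly embedded: it has a straddling 2-subgroup.

Proof: otherwise S2947 makes `L` strongly embedded, so all involutions of `L` are `L`-conjugate;
an involution `z` of `Z(S)` centralizes `O₂(L) ≤ S`, hence lies in `O₂(L)`; so all involutions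
of `L` lie in `O₂(L)`, and `J(S)` (generated by involutions of `S ≤ L`) is inside `O₂(L)`,
against `L` being in the family of `S`.
-/

set_option autoImplicit false
open Cfsg

namespace Cfsg.Agent.H67.Jz

universe u

/-- a nontrivial Sylow 2-subgroup has a central involution -/
theorem exists_central_inv {G : Type u} [Group G] [Finite G] (S : Sylow 2 G)
    (hS : (S : Subgroup G) ≠ ⊥) :
    ∃ z : G, orderOf z = 2 ∧ z ∈ (S : Subgroup G) ∧ ∀ s ∈ (S : Subgroup G), s * z = z * s := by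
  have : Fact (Nat.Prime 2) := ⟨Nat.prime_two⟩
  have hS2 : IsPGroup 2 ↥(S : Subgroup G) := S.isPGroup'
  have hnt : Nontrivial ↥(S : Subgroup G) := (Subgroup.nontrivial_iff_ne_bot _).mpr hS
  have hcnt : Nontrivial ↥(Subgroup.center ↥(S : Subgroup G)) := hS2.center_nontrivial
  have hc2 : IsPGroup 2 ↥(Subgroup.center ↥(S : Subgroup G)) := hS2.to_subgroup _
  have hdvd : 2 ∣ Nat.card ↥(Subgroup.center ↥(S : Subgroup G)) := by
    rcases hc2.card_eq_or_dvd with h | h
    · exact absurd h (ne_of_gt Finite.one_lt_card)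
    · exact h
  obtain ⟨c, hc⟩ := exists_prime_orderOf_dvd_card' 2 hdvd
  refine ⟨((c : ↥(S : Subgroup G)) : G), ?_, (c : ↥(S : Subgroup G)).2, ?_⟩
  · rw [Subgroup.orderOf_coe, Subgroup.orderOf_coe]; exact hc
  · intro s hs
    have h1 := (Subgroup.mem_center_iff.mp c.2) ⟨s, hs⟩
    have h2 := congrArg (Subtype.val) h1
    simpa using h2

theorem nse : Cfsg.Agent.H64.Jz.StNSE.{u} := by
  intro G _ _ hZN hO S L hL2 hNJ hLS
  by_contra hne
  rw [Set.not_nonempty_iff_eq_empty] at hne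
  obtain ⟨hct, hsolv, hZ⟩ := hZN
  have hSE : IsStronglyEmbedded L :=
    (Cfsg.Agent.S2947.result hct hsolv hZ hO S L hL2 hNJ).mpr hne
  obtain ⟨hSyl, hJ, hC⟩ := hLS
  have hQS : pCoreOf 2 L ≤ (S : Subgroup G) :=
    Cfsg.Agent.Helper55.J48.pCoreOf_le_of_sylowIn hSyl
  have hSL : (S : Subgroup G) ≤ L := hSyl.1
  have : Fact (Nat.Prime 2) := ⟨Nat.prime_two⟩
  have hSne : (S : Subgroup G) ≠ ⊥ := S.ne_bot_of_dvd_card (even_iff_two_dvd.mp hct.1)
  obtain ⟨z, hz2, hzS, hzc⟩ := exists_central_inv S hSne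
  have hzQ : z ∈ pCoreOf 2 L := by
    apply hC
    rw [Subgroup.mem_centralizer_iff]
    intro q hq
    exact hzc q (hQS hq)
  -- every involution of `L` lies in `O₂(L)`
  have hinvQ : ∀ t ∈ L, orderOf t = 2 → t ∈ pCoreOf 2 L := by
    intro t htL ht2
    obtain ⟨g, hg⟩ : ∃ g : G, g ∉ L := by
      by_contra h
      exact hSE.1 (eq_top_iff.mpr fun x _ => by_contra fun hx => h ⟨x, hx⟩)
    have hu2 : orderOf (g * z * g⁻¹) = 2 := by
      rw [Cfsg.Agent.H26.orderOf_conj_eq]; exact hz2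
    have huL : g * z * g⁻¹ ∉ L := by
      intro hu
      apply hg
      apply Cfsg.Agent.H26.se_mem_of_inv_mem_inter hSE hu2 hu
      have : g⁻¹ * (g * z * g⁻¹) * g = z := by group
      rw [this]; exact hSL hzS
    have hconj : IsConj z t :=
      Cfsg.Agent.H26.se_all_conj hSE hu2 huL hz2 (hSL hzS) ht2
    obtain ⟨x, hx⟩ := isConj_iff.mp hconj
    have hxL : x ∈ L := by
      apply Cfsg.Agent.H26.se_mem_of_inv_mem_inter hSE ht2 htL
      rw [← hx]
      have : x⁻¹ * (x * z * x⁻¹) * x = z := by group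
      rw [this]; exact hSL hzS
    have hnorm := Cfsg.Agent.Helper55.J48.le_normalizer_pCoreOf L hxL
    rw [← hx]
    exact (Subgroup.mem_normalizer_iff.mp hnorm z).mp hzQ
  -- so `J(S) ≤ O₂(L)`
  apply hJ
  unfold thompsonSubgroupOf
  rw [Subgroup.map_le_iff_le_comap]
  unfold thompsonSubgroup
  apply sSup_le
  intro A hA a ha
  rw [Subgroup.mem_comap]
  have ha2 : a ^ 2 = 1 := hA.1.2 a ha
  by_cases h1 : a = 1
  · rw [h1]; exact Subgroup.one_mem _
  · apply hinvQ _ (hSL a.2)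
    have h3 : orderOf a = 2 := orderOf_eq_prime ha2 h1
    exact (Subgroup.orderOf_coe a).trans h3

example : Cfsg.Agent.H64.Jz.StNSE.{u} := nse

end Cfsg.Agent.H67.Jz

#print axioms Cfsg.Agent.H67.Jz.nse
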