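import Cfsg.Agent.H59.JzKillDefs
import Cfsg.Agent.S2950
import Cfsg.Agent.Helper55.J48
import Cfsg.Agent.H67.JzNSE

/-!
# JZ-KILL sub-piece K-Z (S2951 / S2952)

In the residual situation `RCtx S M K L T' K' L'`: an involution `z` of `Z(S)` lies in
`V = Ω₁Z(O₂(L))` and in `O₂(L')`.
-/

set_option autoImplicit false
open Cfsg

namespace Cfsg.Agent.H67.Jz

open Cfsg.Agent.H64.Jz Cfsg.Agent.H59.JzK

universe u

/-- from `Base`, via S2950: `T` is a Sylow 2-subgroup of `L` -/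
theorem base_sylowIn {G : Type u} [Group G] [Finite G] (S : Sylow 2 G) (M T K L : Subgroup G)
    (hB : Base S M T K L) : IsSylowTwoIn T L := by
  obtain ⟨⟨hct, hsolv, hZ⟩, hO, hM, hMJ, hT, -, hK, hLmax, hKL⟩ := hB
  obtain ⟨L₀, -, -, huniq, -, hsyl⟩ :=
    Cfsg.Agent.S2950.result hct hsolv hZ hO S M hM hMJ T hT K hK
  have h := huniq L hLmax hKL
  rw [h]; exact hsyl

theorem kZ : StKZ.{u} := by
  intro G _ _ S M K L T' K' L' hR
  obtain ⟨hB1, -, hB2, -⟩ := hR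
  have hsyl1 : IsSylowTwoIn (S : Subgroup G) L := base_sylowIn S M (S : Subgroup G) K L hB1
  have hsyl2 : IsSylowTwoIn T' L' := base_sylowIn S L T' K' L' hB2
  have hct : IsCharacteristicTwoType G := hB1.1.1
  have hL2 : IsTwoLocal L := hB1.2.2.2.2.2.2.2.1.1
  have hL'2 : IsTwoLocal L' := hB2.2.2.2.2.2.2.2.1.1
  have hT'S : T' ≤ (S : Subgroup G) := hB2.2.2.2.2.2.1
  have : Fact (Nat.Prime 2) := ⟨Nat.prime_two⟩
  have hSne : (S : Subgroup G) ≠ ⊥ := S.ne_bot_of_dvd_card (even_iff_two_dvd.mp hct.1)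
  obtain ⟨z, hz2, hzS, hzc⟩ := exists_central_inv S hSne
  have hQS : pCoreOf 2 L ≤ (S : Subgroup G) :=
    Cfsg.Agent.Helper55.J48.pCoreOf_le_of_sylowIn hsyl1
  have hQ'S : pCoreOf 2 L' ≤ (S : Subgroup G) :=
    (Cfsg.Agent.Helper55.J48.pCoreOf_le_of_sylowIn hsyl2).trans hT'S
  have hzCQ : z ∈ Subgroup.centralizer (pCoreOf 2 L : Set G) := by
    rw [Subgroup.mem_centralizer_iff]
    intro q hq
    exact hzc q (hQS hq)
  have hzCQ' : z ∈ Subgroup.centralizer (pCoreOf 2 L' : Set G) := by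
    rw [Subgroup.mem_centralizer_iff]
    intro q hq
    exact hzc q (hQ'S hq)
  have hzQ : z ∈ pCoreOf 2 L :=
    Cfsg.Agent.Helper55.J48.centralizer_pCoreOf_le hct hL2 hzCQ
  have hzQ' : z ∈ pCoreOf 2 L' :=
    Cfsg.Agent.Helper55.J48.centralizer_pCoreOf_le hct hL'2 hzCQ'
  have hzz : z ^ 2 = 1 := by rw [← hz2]; exact pow_orderOf_eq_one z
  refine ⟨z, ?_, ?_, hzQ'⟩
  · show z ∈ omegaOne 2 (pCoreOf 2 L ⊓ Subgroup.centralizer (pCoreOf 2 L : Set G))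
    exact Subgroup.subset_closure ⟨⟨hzQ, hzCQ⟩, hzz⟩
  · intro h1
    rw [h1, orderOf_one] at hz2
    omega

example : Cfsg.Agent.H59.JzK.StKZ.{u} := kZ

end Cfsg.Agent.H67.Jz

#print axioms Cfsg.Agent.H67.Jz.kZ
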