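import Cfsg.Agent.H52.JwDefs
import Cfsg.Agent.H67.JkZ

/-!
# JW piece W-PC (S2953)

`C_G(O₂(P)) ≤ O₂(P)` for `P = ⟨K, T⟩`: `O₂(L) ≤ T ≤ P ≤ L` is a normal 2-subgroup of `P`, so
`O₂(L) ≤ O₂(P)` and `C_G(O₂(P)) ≤ C_G(O₂(L)) ≤ O₂(L) ≤ O₂(P)` (`L` is a 2-local of a group of
characteristic 2 type).
-/

set_option autoImplicit false
open Cfsg

namespace Cfsg.Agent.H67.Jw

open Cfsg.Agent.H64.Jz Cfsg.Agent.H52.Jw

universe u

/-- a 2-subgroup of `P` normalized by `P` lies in `O₂(P)` -/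
theorem le_pCoreOf_two {G : Type u} [Group G] {Q P : Subgroup G} (hQP : Q ≤ P)
    (hQ2 : IsPGroup 2 ↥Q) (hn : P ≤ Subgroup.normalizer (Q : Set G)) : Q ≤ pCoreOf 2 P := by
  have hnorm : (Q.subgroupOf P).Normal :=
    (Subgroup.normal_subgroupOf_iff_le_normalizer hQP).mpr hn
  have h1 : Q.subgroupOf P ≤ pCore 2 ↥P :=
    le_sSup (show Q.subgroupOf P ∈ {N : Subgroup ↥P | N.Normal ∧ IsPGroup 2 N} from
      ⟨hnorm, hQ2.comap_subtype⟩)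
  intro x hx
  exact ⟨⟨x, hQP hx⟩, h1 (Subgroup.mem_subgroupOf.mpr hx), rfl⟩

theorem pc : StPC.{u} := by
  intro G _ _ S M T K L hB
  have hsyl : IsSylowTwoIn T L := Cfsg.Agent.H67.Jz.base_sylowIn S M T K L hB
  have hct : IsCharacteristicTwoType G := hB.1.1
  have hL2 : IsTwoLocal L := hB.2.2.2.2.2.2.2.1.1
  have hKL : K ⊔ thompsonSubgroupOf 2 T ≤ L := hB.2.2.2.2.2.2.2.2
  have hPL : K ⊔ T ≤ L := sup_le (le_sup_left.trans hKL) hsyl.1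
  have hQT : pCoreOf 2 L ≤ T := Cfsg.Agent.Helper55.J48.pCoreOf_le_of_sylowIn hsyl
  have hQ2 : IsPGroup 2 ↥(pCoreOf 2 L) := hsyl.2.1.to_le hQT
  have hQP : pCoreOf 2 L ≤ pCoreOf 2 (K ⊔ T) :=
    le_pCoreOf_two (hQT.trans le_sup_right) hQ2
      (hPL.trans (Cfsg.Agent.Helper55.J48.le_normalizer_pCoreOf L))
  have hC : Subgroup.centralizer (pCoreOf 2 L : Set G) ≤ pCoreOf 2 L :=
    Cfsg.Agent.Helper55.J48.centralizer_pCoreOf_le hct hL2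
  exact ((Subgroup.centralizer_le (show (pCoreOf 2 L : Set G) ⊆ (pCoreOf 2 (K ⊔ T) : Set G) from
    hQP)).trans hC).trans hQP

example : Cfsg.Agent.H52.Jw.StPC.{u} := pc

end Cfsg.Agent.H67.Jw

#print axioms Cfsg.Agent.H67.Jw.pc
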