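import Cfsg.Agent.H52.JwDefs
import Cfsg.Agent.H67.JkZ

/-!
# JW pieces W-PL and W-PS (S2953)

From `Base S M T K L` and S2950: `L` is the only maximal 2-local over `P = ⟨K, T⟩`, `T` is a
Sylow 2-subgroup of `L` and of `P`.
-/

set_option autoImplicit false
open Cfsg

namespace Cfsg.Agent.H67.Jw

open Cfsg.Agent.H64.Jz Cfsg.Agent.H52.Jw

universe u

theorem pl : StPL.{u} := by
  intro G _ _ S M T K L hB
  have hsyl : IsSylowTwoIn T L := Cfsg.Agent.H67.Jz.base_sylowIn S M T K L hB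
  obtain ⟨⟨hct, hsolv, hZ⟩, hO, hM, hMJ, hT, -, hK, hLmax, hKL⟩ := hB
  have hJT : thompsonSubgroupOf 2 T ≤ T := by
    unfold thompsonSubgroupOf; exact Subgroup.map_subtype_le _
  refine ⟨sup_le (le_sup_left.trans hKL) hsyl.1, hsyl, ?_⟩
  intro L' hL' hPL'
  obtain ⟨L₀, -, -, huniq, -, -⟩ :=
    Cfsg.Agent.S2950.result hct hsolv hZ hO S M hM hMJ T hT K hK
  have h1 := huniq L hLmax hKL
  have h2 := huniq L' hL' ((sup_le_sup_left hJT K).trans hPL')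
  rw [h1, h2]

theorem ps : StPS.{u} := by
  intro G _ _ S M T K L hB
  have hsyl : IsSylowTwoIn T L := Cfsg.Agent.H67.Jz.base_sylowIn S M T K L hB
  have hKL : K ⊔ thompsonSubgroupOf 2 T ≤ L := hB.2.2.2.2.2.2.2.2
  have hPL : K ⊔ T ≤ L := sup_le (le_sup_left.trans hKL) hsyl.1
  refine ⟨le_sup_right, hsyl.2.1, ?_⟩
  have hmul := Subgroup.relIndex_mul_relIndex T (K ⊔ T) L le_sup_right hPL
  exact Odd.of_dvd_nat hsyl.2.2 (Dvd.intro _ hmul)

example : Cfsg.Agent.H52.Jw.StPL.{u} := pl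
example : Cfsg.Agent.H52.Jw.StPS.{u} := ps

end Cfsg.Agent.H67.Jw

#print axioms Cfsg.Agent.H67.Jw.pl
#print axioms Cfsg.Agent.H67.Jw.ps
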