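import Cfsg.Agent.H52.JwDefs
import Cfsg.Agent.H67.JkZ
import Cfsg.Agent.Helper55.UqMaxL
import Cfsg.Agent.Helper55.UqBase

/-!
# JW piece W-TWO (S2953)

Two configurations `Base S M₁ T K₁ L₁`, `Base S M₂ T K₂ L₂` with `L₁ ≠ L₂`: then `K₁ ≠ K₂` and
`O₂(⟨K₁T, K₂T⟩) = 1` (otherwise its normalizer lies in a maximal 2-local over `K₁ J(T)` and over
`K₂ J(T)`, which is `L₁` and `L₂` by the uniqueness in S2950).
-/

set_option autoImplicit false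
open Cfsg

namespace Cfsg.Agent.H67.Jw

open Cfsg.Agent.H64.Jz Cfsg.Agent.H52.Jw

universe u

/-- uniqueness from S2950: a maximal 2-local over `K ⊔ J(T)` is `L` -/
theorem base_unique {G : Type u} [Group G] [Finite G] (S : Sylow 2 G) (M T K L : Subgroup G)
    (hB : Base S M T K L) (L' : Subgroup G) (hL' : IsMaximalTwoLocal L')
    (hKL' : K ⊔ thompsonSubgroupOf 2 T ≤ L') : L' = L := by
  obtain ⟨⟨hct, hsolv, hZ⟩, hO, hM, hMJ, hT, -, hK, hLmax, hKL⟩ := hB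
  obtain ⟨L₀, -, -, huniq, -, -⟩ :=
    Cfsg.Agent.S2950.result hct hsolv hZ hO S M hM hMJ T hT K hK
  rw [huniq L hLmax hKL, huniq L' hL' hKL']

theorem two : StTwo.{u} := by
  intro G _ _ S M₁ M₂ T K₁ K₂ L₁ L₂ hB₁ hB₂ hne
  have hJT : thompsonSubgroupOf 2 T ≤ T := by
    unfold thompsonSubgroupOf; exact Subgroup.map_subtype_le _
  have hL₂max : IsMaximalTwoLocal L₂ := hB₂.2.2.2.2.2.2.2.1
  have hKL₂ : K₂ ⊔ thompsonSubgroupOf 2 T ≤ L₂ := hB₂.2.2.2.2.2.2.2.2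
  refine ⟨?_, ?_⟩
  · intro hK
    apply hne
    have h := base_unique S M₁ T K₁ L₁ hB₁ L₂ hL₂max (by rw [hK]; exact hKL₂)
    exact h.symm
  · by_contra hR
    set H : Subgroup G := (K₁ ⊔ T) ⊔ (K₂ ⊔ T) with hH
    have hR2 : IsPGroup 2 ↥(pCoreOf 2 H) := Cfsg.Agent.Helper55.Uq.pCoreOf_isPGroup H
    have hN2 : IsTwoLocal (Subgroup.normalizer (pCoreOf 2 H : Set G)) :=
      ⟨pCoreOf 2 H, hR2, hR, rfl⟩
    obtain ⟨Lm, hLm, hNLm⟩ := Cfsg.Agent.Helper55.Uq.maxL _ hN2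
    have hHLm : H ≤ Lm := (Cfsg.Agent.Helper55.J48.le_normalizer_pCoreOf H).trans hNLm
    have h1 : K₁ ⊔ thompsonSubgroupOf 2 T ≤ Lm :=
      ((sup_le_sup_left hJT K₁).trans le_sup_left).trans hHLm
    have h2 : K₂ ⊔ thompsonSubgroupOf 2 T ≤ Lm :=
      ((sup_le_sup_left hJT K₂).trans le_sup_right).trans hHLm
    have e1 := base_unique S M₁ T K₁ L₁ hB₁ Lm hLm h1
    have e2 := base_unique S M₂ T K₂ L₂ hB₂ Lm hLm h2
    exact hne (e1.symm.trans e2)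

example : Cfsg.Agent.H52.Jw.StTwo.{u} := two

end Cfsg.Agent.H67.Jw

#print axioms Cfsg.Agent.H67.Jw.two
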