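import Mathlib
import Cfsg.Agent.H45.UDefs
import Cfsg.Prelude.Def_Classical

set_option autoImplicit false

/-!
# Piece O-ISO of helper45's S2413 project

Transfer from the orthogonal group in hyperbolic block coordinates (`UH (RingHom.id F) (Fin k) (Fin 1)`,
form `2 x·y + z²`) to the frozen isometry group of `Cfsg.quadFormOdd k F` (form `z² + x·y`).
-/

namespace Cfsg.Agent.H67.O

open Matrix Cfsg.Agent.H45.U

variable {F : Type*} [Field F]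

/-- The coordinate change `(x, y, z) ↦ (z; x, 2y)`. -/
noncomputable def pEquiv (h2 : (2 : F) ≠ 0) (k : ℕ) :
    (Fin k ⊕ (Fin k ⊕ Fin 1) → F) ≃ₗ[F] (Unit ⊕ (Fin k ⊕ Fin k) → F) where
  toFun u := Sum.elim (fun _ => u (Sum.inr (Sum.inr 0)))
    (Sum.elim (fun i => u (Sum.inl i)) (fun i => 2 * u (Sum.inr (Sum.inl i))))
  map_add' := by
    intro u v
    funext j
    rcases j with _ | i | i <;> simp [mul_add]
  map_smul' := by
    intro c u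
    funext j
    rcases j with _ | i | i <;> simp [mul_left_comm]
  invFun w := Sum.elim (fun i => w (Sum.inr (Sum.inl i)))
    (Sum.elim (fun i => 2⁻¹ * w (Sum.inr (Sum.inr i))) (fun _ => w (Sum.inl ())))
  left_inv := by
    intro u
    funext j
    rcases j with i | i | l
    · simp
    · simp [h2]
    · have hl : l = 0 := Subsingleton.elim _ _
      subst hl
      simp
  right_inv := by
    intro w
    funext j
    rcases j with _ | i | i <;> simp [h2]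

theorem pEquiv_apply (h2 : (2 : F) ≠ 0) (k : ℕ) (u : Fin k ⊕ (Fin k ⊕ Fin 1) → F) :
    pEquiv h2 k u = Sum.elim (fun _ => u (Sum.inr (Sum.inr 0)))
      (Sum.elim (fun i => u (Sum.inl i)) (fun i => 2 * u (Sum.inr (Sum.inl i)))) := rfl

theorem quad_pEquiv (h2 : (2 : F) ≠ 0) (k : ℕ) (u : Fin k ⊕ (Fin k ⊕ Fin 1) → F) :
    Cfsg.quadFormOdd k F (pEquiv h2 k u) = hH (RingHom.id F) u u := by
  rw [pEquiv_apply]
  unfold Cfsg.quadFormOdd hH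
  simp only [Sum.elim_inl, Sum.elim_inr, RingHom.id_apply, Fin.sum_univ_one]
  have e : ∑ i : Fin k, u (Sum.inl i) * (2 * u (Sum.inr (Sum.inl i))) =
      ∑ i : Fin k, u (Sum.inl i) * u (Sum.inr (Sum.inl i)) +
        ∑ i : Fin k, u (Sum.inr (Sum.inl i)) * u (Sum.inl i) := by
    rw [← Finset.sum_add_distrib]
    exact Finset.sum_congr rfl (fun i _ => by ring)
  rw [e]
  ring

theorem hH_id_symm {k : ℕ} (u v : Fin k ⊕ (Fin k ⊕ Fin 1) → F) :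
    hH (RingHom.id F) u v = hH (RingHom.id F) v u := by
  unfold hH
  simp only [RingHom.id_apply]
  have e1 : ∑ i : Fin k, u (Sum.inl i) * v (Sum.inr (Sum.inl i)) =
      ∑ i : Fin k, v (Sum.inr (Sum.inl i)) * u (Sum.inl i) :=
    Finset.sum_congr rfl fun _ _ => mul_comm _ _
  have e2 : ∑ i : Fin k, u (Sum.inr (Sum.inl i)) * v (Sum.inl i) =
      ∑ i : Fin k, v (Sum.inl i) * u (Sum.inr (Sum.inl i)) :=
    Finset.sum_congr rfl fun _ _ => mul_comm _ _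
  have e3 : ∑ l : Fin 1, u (Sum.inr (Sum.inr l)) * v (Sum.inr (Sum.inr l)) =
      ∑ l : Fin 1, v (Sum.inr (Sum.inr l)) * u (Sum.inr (Sum.inr l)) :=
    Finset.sum_congr rfl fun _ _ => mul_comm _ _
  rw [e1, e2, e3]
  ring

theorem hH_id_add_left {k : ℕ} (u u' v : Fin k ⊕ (Fin k ⊕ Fin 1) → F) :
    hH (RingHom.id F) (u + u') v = hH (RingHom.id F) u v + hH (RingHom.id F) u' v := by
  unfold hH
  simp only [Pi.add_apply, add_mul, Finset.sum_add_distrib]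
  ring

/-- Polarisation. -/
theorem hH_id_polar {k : ℕ} (u v : Fin k ⊕ (Fin k ⊕ Fin 1) → F) :
    2 * hH (RingHom.id F) u v =
      hH (RingHom.id F) (u + v) (u + v) - hH (RingHom.id F) u u - hH (RingHom.id F) v v := by
  have h1 : hH (RingHom.id F) (u + v) (u + v) =
      hH (RingHom.id F) u u + hH (RingHom.id F) u v + (hH (RingHom.id F) v u + hH (RingHom.id F) v v) := by
    rw [hH_id_add_left, hH_id_symm u (u + v), hH_id_symm v (u + v), hH_id_add_left, hH_id_add_left,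
      hH_id_symm v u]
  rw [h1, hH_id_symm v u]
  ring

/-- **Piece O-ISO.** -/
theorem o_iso {F : Type*} [Field F] (h2 : (2 : F) ≠ 0) (k : ℕ) :
    ∃ (Φ : ↥(UH (RingHom.id F) (Fin k) (Fin 1)) →* ↥(Cfsg.isometryGroup F (Cfsg.quadFormOdd k F)))
      (P : (Fin k ⊕ (Fin k ⊕ Fin 1) → F) ≃ₗ[F] (Unit ⊕ (Fin k ⊕ Fin k) → F)),
      (∀ (x y : Fin k → F) (z : Fin 1 → F), P (tri x y z) = Sum.elim (fun _ => z 0) (Sum.elim x ((2 : F) • y))) ∧
      (∀ u, Cfsg.quadFormOdd k F (P u) = hH (RingHom.id F) u u) ∧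
      (∀ (g : ↥(UH (RingHom.id F) (Fin k) (Fin 1))) (u : Fin k ⊕ (Fin k ⊕ Fin 1) → F),
        (((Φ g : ↥(Cfsg.isometryGroup F (Cfsg.quadFormOdd k F))) : Matrix.GeneralLinearGroup (Unit ⊕ (Fin k ⊕ Fin k)) F) : Matrix (Unit ⊕ (Fin k ⊕ Fin k)) (Unit ⊕ (Fin k ⊕ Fin k)) F) *ᵥ (P u) = P (g.1.1 *ᵥ u)) ∧
      (∀ g : ↥(UH (RingHom.id F) (Fin k) (Fin 1)),
        (((Φ g : ↥(Cfsg.isometryGroup F (Cfsg.quadFormOdd k F))) : Matrix.GeneralLinearGroup (Unit ⊕ (Fin k ⊕ Fin k)) F) : Matrix (Unit ⊕ (Fin k ⊕ Fin k)) (Unit ⊕ (Fin k ⊕ Fin k)) F).det = 1) ∧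
      (∀ s : ↥(Cfsg.isometryGroup F (Cfsg.quadFormOdd k F)),
        ((s : Matrix.GeneralLinearGroup (Unit ⊕ (Fin k ⊕ Fin k)) F) : Matrix (Unit ⊕ (Fin k ⊕ Fin k)) (Unit ⊕ (Fin k ⊕ Fin k)) F).det = 1 → ∃ g, Φ g = s) := by
  classical
  obtain ⟨P, hPdef⟩ : ∃ P : (Fin k ⊕ (Fin k ⊕ Fin 1) → F) ≃ₗ[F] (Unit ⊕ (Fin k ⊕ Fin k) → F),
      P = pEquiv h2 k := ⟨_, rfl⟩
  have hPQ : ∀ u, Cfsg.quadFormOdd k F (P u) = hH (RingHom.id F) u u := by
    intro u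
    rw [hPdef]
    exact quad_pEquiv h2 k u
  let C : Matrix (Unit ⊕ (Fin k ⊕ Fin k)) (Fin k ⊕ (Fin k ⊕ Fin 1)) F :=
    LinearMap.toMatrix' (P : (Fin k ⊕ (Fin k ⊕ Fin 1) → F) →ₗ[F] (Unit ⊕ (Fin k ⊕ Fin k) → F))
  let C' : Matrix (Fin k ⊕ (Fin k ⊕ Fin 1)) (Unit ⊕ (Fin k ⊕ Fin k)) F :=
    LinearMap.toMatrix' (P.symm : (Unit ⊕ (Fin k ⊕ Fin k) → F) →ₗ[F] (Fin k ⊕ (Fin k ⊕ Fin 1) → F))
  have hCC' : C * C' = 1 := by
    rw [← LinearMap.toMatrix'_comp]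
    have : (P : (Fin k ⊕ (Fin k ⊕ Fin 1) → F) →ₗ[F] (Unit ⊕ (Fin k ⊕ Fin k) → F)).comp
        (P.symm : (Unit ⊕ (Fin k ⊕ Fin k) → F) →ₗ[F] (Fin k ⊕ (Fin k ⊕ Fin 1) → F)) = LinearMap.id := by
      ext x; simp
    rw [this, LinearMap.toMatrix'_id]
  have hC'C : C' * C = 1 := by
    rw [← LinearMap.toMatrix'_comp]
    have : (P.symm : (Unit ⊕ (Fin k ⊕ Fin k) → F) →ₗ[F] (Fin k ⊕ (Fin k ⊕ Fin 1) → F)).comp
        (P : (Fin k ⊕ (Fin k ⊕ Fin 1) → F) →ₗ[F] (Unit ⊕ (Fin k ⊕ Fin k) → F)) = LinearMap.id := by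
      ext x; simp
    rw [this, LinearMap.toMatrix'_id]
  have hCv : ∀ u, C *ᵥ u = P u := fun u => LinearMap.toMatrix'_mulVec _ u
  have hC'v : ∀ x, C' *ᵥ x = P.symm x := fun x => LinearMap.toMatrix'_mulVec _ x
  -- conjugation by `C` as a monoid homomorphism of matrix rings
  let ψ : Matrix (Fin k ⊕ (Fin k ⊕ Fin 1)) (Fin k ⊕ (Fin k ⊕ Fin 1)) F →*
      Matrix (Unit ⊕ (Fin k ⊕ Fin k)) (Unit ⊕ (Fin k ⊕ Fin k)) F :=
    { toFun := fun M => C * M * C'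
      map_one' := by rw [Matrix.mul_one, hCC']
      map_mul' := by
        intro M M'
        have e : C * M * C' * (C * M' * C') = C * M * (C' * C) * M' * C' := by
          simp only [Matrix.mul_assoc]
        rw [e, hC'C, Matrix.mul_one]
        simp only [Matrix.mul_assoc] }
  let Φ₀ : ↥(UH (RingHom.id F) (Fin k) (Fin 1)) →* Matrix.GeneralLinearGroup (Unit ⊕ (Fin k ⊕ Fin k)) F :=
    (Units.map ψ).comp (Matrix.SpecialLinearGroup.toGL.comp (UH (RingHom.id F) (Fin k) (Fin 1)).subtype)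
  have hΦ₀ : ∀ g : ↥(UH (RingHom.id F) (Fin k) (Fin 1)),
      ((Φ₀ g : Matrix.GeneralLinearGroup (Unit ⊕ (Fin k ⊕ Fin k)) F) :
        Matrix (Unit ⊕ (Fin k ⊕ Fin k)) (Unit ⊕ (Fin k ⊕ Fin k)) F) = C * g.1.1 * C' := fun g => rfl
  have hmem : ∀ g : ↥(UH (RingHom.id F) (Fin k) (Fin 1)),
      Φ₀ g ∈ Cfsg.isometryGroup F (Cfsg.quadFormOdd k F) := by
    intro g u v
    have hg : ∀ u v, hH (RingHom.id F) (g.1.1 *ᵥ u) (g.1.1 *ᵥ v) = hH (RingHom.id F) u v := g.2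
    show Cfsg.quadFormOdd k F ((Φ₀ g : Matrix (Unit ⊕ (Fin k ⊕ Fin k)) (Unit ⊕ (Fin k ⊕ Fin k)) F) *ᵥ u) =
      Cfsg.quadFormOdd k F u
    rw [hΦ₀, ← mulVec_mulVec, ← mulVec_mulVec, hCv, hPQ, hg, hC'v, ← hPQ, LinearEquiv.apply_symm_apply]
  refine ⟨Φ₀.codRestrict _ hmem, P, ?_, hPQ, ?_, ?_, ?_⟩
  · intro x y z
    rw [hPdef, pEquiv_apply]
    funext j
    rcases j with _ | i | i <;> simp [tri]
  · intro g u
    show (Φ₀ g : Matrix (Unit ⊕ (Fin k ⊕ Fin k)) (Unit ⊕ (Fin k ⊕ Fin k)) F) *ᵥ (P u) = P (g.1.1 *ᵥ u)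
    rw [hΦ₀, ← mulVec_mulVec, ← mulVec_mulVec, hC'v, LinearEquiv.symm_apply_apply, hCv]
  · intro g
    show (Φ₀ g : Matrix (Unit ⊕ (Fin k ⊕ Fin k)) (Unit ⊕ (Fin k ⊕ Fin k)) F).det = 1
    rw [hΦ₀, Matrix.det_conj_of_mul_eq_one hCC' hC'C]
    exact g.1.2
  · intro s hs
    have hsQ : ∀ u, Cfsg.quadFormOdd k F
        ((s : Matrix.GeneralLinearGroup (Unit ⊕ (Fin k ⊕ Fin k)) F).1 *ᵥ u) = Cfsg.quadFormOdd k F u :=
      fun u => s.2 u u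
    have hdet : (C' * (s : Matrix.GeneralLinearGroup (Unit ⊕ (Fin k ⊕ Fin k)) F).1 * C).det = 1 := by
      rw [Matrix.det_conj_of_mul_eq_one hC'C hCC']
      exact hs
    have hdiag : ∀ u, hH (RingHom.id F)
        ((C' * (s : Matrix.GeneralLinearGroup (Unit ⊕ (Fin k ⊕ Fin k)) F).1 * C) *ᵥ u)
        ((C' * (s : Matrix.GeneralLinearGroup (Unit ⊕ (Fin k ⊕ Fin k)) F).1 * C) *ᵥ u) =
          hH (RingHom.id F) u u := by
      intro u
      rw [← mulVec_mulVec, ← mulVec_mulVec, hC'v, ← hPQ, LinearEquiv.apply_symm_apply, hsQ, hCv, hPQ]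
    have hUH : (⟨C' * (s : Matrix.GeneralLinearGroup (Unit ⊕ (Fin k ⊕ Fin k)) F).1 * C, hdet⟩ :
        Matrix.SpecialLinearGroup (Fin k ⊕ (Fin k ⊕ Fin 1)) F) ∈ UH (RingHom.id F) (Fin k) (Fin 1) := by
      intro u v
      show hH (RingHom.id F)
        ((C' * (s : Matrix.GeneralLinearGroup (Unit ⊕ (Fin k ⊕ Fin k)) F).1 * C) *ᵥ u)
        ((C' * (s : Matrix.GeneralLinearGroup (Unit ⊕ (Fin k ⊕ Fin k)) F).1 * C) *ᵥ v) = hH (RingHom.id F) u v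
      have h1 := hH_id_polar ((C' * (s : Matrix.GeneralLinearGroup (Unit ⊕ (Fin k ⊕ Fin k)) F).1 * C) *ᵥ u)
        ((C' * (s : Matrix.GeneralLinearGroup (Unit ⊕ (Fin k ⊕ Fin k)) F).1 * C) *ᵥ v)
      rw [← Matrix.mulVec_add, hdiag, hdiag, hdiag, ← hH_id_polar] at h1
      exact mul_left_cancel₀ h2 h1
    refine ⟨⟨_, hUH⟩, ?_⟩
    apply Subtype.ext
    apply Units.ext
    show C * (C' * (s : Matrix.GeneralLinearGroup (Unit ⊕ (Fin k ⊕ Fin k)) F).1 * C) * C' = _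
    rw [← Matrix.mul_assoc, ← Matrix.mul_assoc, hCC', Matrix.one_mul, Matrix.mul_assoc, hCC',
      Matrix.mul_one]

end Cfsg.Agent.H67.O
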