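import Mathlib

/-!
helper67: subgroups of a direct power `T ^ m` of a nonabelian finite simple group that are
"maximal invariant" under a group of automorphisms acting minimally (the O'Nan–Scott dichotomy for
the point stabilizer in the socle).
-/

set_option autoImplicit false

namespace Cfsg.Agent.H67

section ONS

variable {T : Type*} [Group T] {m : ℕ}

/-- the `i`-th coordinate subgroup of `T ^ m` -/
def coordSub (T : Type*) [Group T] (m : ℕ) (i : Fin m) : Subgroup (Fin m → T) where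
  carrier := {x | ∀ l, l ≠ i → x l = 1}
  one_mem' := by intro l _; rfl
  mul_mem' := by
    intro a b ha hb l hl
    simp [ha l hl, hb l hl]
  inv_mem' := by
    intro a ha l hl
    simp [ha l hl]

theorem mulSingle_ne' {i l : Fin m} (hl : l ≠ i) (t : T) :
    (Pi.mulSingle i t : Fin m → T) l = 1 :=
  Pi.mulSingle_eq_of_ne (M := fun _ => T) hl t

theorem mulSingle_same' (i : Fin m) (t : T) : (Pi.mulSingle i t : Fin m → T) i = t :=
  Pi.mulSingle_eq_same (M := fun _ => T) i t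

theorem mem_coordSub {i : Fin m} {x : Fin m → T} :
    x ∈ coordSub T m i ↔ ∀ l, l ≠ i → x l = 1 := Iff.rfl

theorem mulSingle_mem_coordSub (i : Fin m) (t : T) : Pi.mulSingle i t ∈ coordSub T m i := by
  intro l hl
  exact mulSingle_ne' hl t

theorem eq_mulSingle_of_mem_coordSub {i : Fin m} {x : Fin m → T} (hx : x ∈ coordSub T m i) :
    x = Pi.mulSingle i (x i) := by
  funext l
  by_cases hl : l = i
  · subst hl; simp
  · rw [mulSingle_ne' hl]; exact hx l hl

instance coordSub_normal (i : Fin m) : (coordSub T m i).Normal := by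
  constructor
  intro n hn g l hl
  simp [hn l hl]

theorem eq_one_of_forall_comm [IsSimpleGroup T] (hT : ¬ IsMulCommutative T) (t : T)
    (h : ∀ s : T, s * t = t * s) : t = 1 := by
  have hc : Subgroup.center T = ⊥ := by
    rcases (inferInstance : (Subgroup.center T).Normal).eq_bot_or_eq_top with h1 | h1
    · exact h1
    · exfalso
      apply hT
      refine ⟨⟨fun a b => ?_⟩⟩
      have : b ∈ Subgroup.center T := h1 ▸ Subgroup.mem_top b
      exact Subgroup.mem_center_iff.mp this a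
  have : t ∈ Subgroup.center T := Subgroup.mem_center_iff.mpr h
  rw [hc] at this
  exact Subgroup.mem_bot.mp this

theorem coordSub_index_unique [Nontrivial T] {i j : Fin m}
    (h : ∀ x : Fin m → T, x ∈ coordSub T m i → x ∈ coordSub T m j) : i = j := by
  obtain ⟨t, ht⟩ := exists_ne (1 : T)
  by_contra hij
  have := h _ (mulSingle_mem_coordSub i t) i hij
  rw [mulSingle_same'] at this
  exact ht this

/-- an automorphism of `T ^ m` maps each coordinate subgroup onto a coordinate subgroup -/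
theorem exists_coord_map [IsSimpleGroup T] (hT : ¬ IsMulCommutative T)
    (ψ : (Fin m → T) ≃* (Fin m → T)) (i : Fin m) :
    ∃ j, ∀ x, x ∈ coordSub T m i ↔ ψ x ∈ coordSub T m j := by
  classical
  obtain ⟨t₀, ht₀⟩ := exists_ne (1 : T)
  have hx₀ : ψ (Pi.mulSingle i t₀) ≠ 1 := by
    intro h
    have h2 : (Pi.mulSingle i t₀ : Fin m → T) = 1 := by
      apply ψ.injective; rw [h, map_one]
    have := congrFun h2 i
    rw [mulSingle_same'] at this
    exact ht₀ this
  obtain ⟨j, hj⟩ : ∃ j, ψ (Pi.mulSingle i t₀) j ≠ 1 := by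
    by_contra hcon
    push Not at hcon
    exact hx₀ (funext hcon)
  obtain ⟨s, hs⟩ : ∃ s : T, s * ψ (Pi.mulSingle i t₀) j ≠ ψ (Pi.mulSingle i t₀) j * s := by
    by_contra hcon
    push Not at hcon
    exact hj (eq_one_of_forall_comm hT _ hcon)
  -- the commutator
  obtain ⟨y', hy'def⟩ : ∃ y', y' = ψ.symm (Pi.mulSingle j s) * Pi.mulSingle i t₀ *
      (ψ.symm (Pi.mulSingle j s))⁻¹ * (Pi.mulSingle i t₀)⁻¹ := ⟨_, rfl⟩
  have hy'i : y' ∈ coordSub T m i := by
    rw [hy'def]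
    exact (coordSub T m i).mul_mem
      ((coordSub_normal i).conj_mem _ (mulSingle_mem_coordSub i t₀) _)
      ((coordSub T m i).inv_mem (mulSingle_mem_coordSub i t₀))
  have hψy' : ψ y' = Pi.mulSingle j s * ψ (Pi.mulSingle i t₀) * (Pi.mulSingle j s)⁻¹ *
      (ψ (Pi.mulSingle i t₀))⁻¹ := by
    rw [hy'def]; simp
  have hyj : ψ y' ∈ coordSub T m j := by
    intro l hl
    rw [hψy']
    simp [mulSingle_ne' hl]
  have hyj1 : ψ y' j ≠ 1 := by
    rw [hψy']
    simp only [Pi.mul_apply, Pi.inv_apply, mulSingle_same']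
    intro h
    apply hs
    have h2 := congrArg (fun z => z * (ψ (Pi.mulSingle i t₀) j * s)) h
    simpa [mul_assoc] using h2
  -- first inclusion
  have hL : ∀ t : T, ψ (Pi.mulSingle i t) ∈ coordSub T m j := by
    obtain ⟨L, hLdef⟩ : ∃ L : Subgroup T, L = (coordSub T m j).comap
        (ψ.toMonoidHom.comp (MonoidHom.mulSingle (fun _ : Fin m => T) i)) := ⟨_, rfl⟩
    have hLn : L.Normal := by rw [hLdef]; exact (coordSub_normal j).comap _
    have hmem : y' i ∈ L := by
      rw [hLdef, Subgroup.mem_comap]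
      have : ψ.toMonoidHom.comp (MonoidHom.mulSingle (fun _ : Fin m => T) i) (y' i) = ψ y' := by
        simp only [MonoidHom.comp_apply, MonoidHom.mulSingle_apply, MulEquiv.coe_toMonoidHom]
        rw [← eq_mulSingle_of_mem_coordSub hy'i]
      rw [this]; exact hyj
    have hne : y' i ≠ 1 := by
      intro h
      have h2 : y' = 1 := by
        rw [eq_mulSingle_of_mem_coordSub hy'i, h, Pi.mulSingle_one]
      rw [h2, map_one] at hyj1
      exact hyj1 rfl
    rcases hLn.eq_bot_or_eq_top with h | h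
    · rw [h, Subgroup.mem_bot] at hmem
      exact absurd hmem hne
    · intro t
      have : t ∈ L := h ▸ Subgroup.mem_top t
      rw [hLdef, Subgroup.mem_comap] at this
      simpa using this
  have hL' : ∀ t : T, ψ.symm (Pi.mulSingle j t) ∈ coordSub T m i := by
    obtain ⟨L, hLdef⟩ : ∃ L : Subgroup T, L = (coordSub T m i).comap
        (ψ.symm.toMonoidHom.comp (MonoidHom.mulSingle (fun _ : Fin m => T) j)) := ⟨_, rfl⟩
    have hLn : L.Normal := by rw [hLdef]; exact (coordSub_normal i).comap _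
    have hmem : ψ y' j ∈ L := by
      rw [hLdef, Subgroup.mem_comap]
      have : ψ.symm.toMonoidHom.comp (MonoidHom.mulSingle (fun _ : Fin m => T) j) (ψ y' j) = y' := by
        simp only [MonoidHom.comp_apply, MonoidHom.mulSingle_apply, MulEquiv.coe_toMonoidHom]
        rw [← eq_mulSingle_of_mem_coordSub hyj]
        simp
      rw [this]; exact hy'i
    rcases hLn.eq_bot_or_eq_top with h | h
    · rw [h, Subgroup.mem_bot] at hmem
      exact absurd hmem hyj1
    · intro t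
      have : t ∈ L := h ▸ Subgroup.mem_top t
      rw [hLdef, Subgroup.mem_comap] at this
      simpa using this
  refine ⟨j, fun x => ⟨fun hx => ?_, fun hx => ?_⟩⟩
  · rw [eq_mulSingle_of_mem_coordSub hx]; exact hL _
  · have := hL' (ψ x j)
    rw [← eq_mulSingle_of_mem_coordSub hx] at this
    simpa using this

/-- the `j`-th coordinate of `ψ x` only depends on the `i`-th coordinate of `x` when `ψ` maps the
`i`-th coordinate subgroup to the `j`-th -/
theorem coord_apply [IsSimpleGroup T] (hT : ¬ IsMulCommutative T)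
    (ψ : (Fin m → T) ≃* (Fin m → T)) (i j : Fin m)
    (hij : ∀ x, x ∈ coordSub T m i ↔ ψ x ∈ coordSub T m j) (x : Fin m → T) :
    ψ x j = ψ (Pi.mulSingle i (x i)) j := by
  classical
  obtain ⟨x', hx'def⟩ : ∃ x', x' = (Pi.mulSingle i (x i))⁻¹ * x := ⟨_, rfl⟩
  have hx'i : x' i = 1 := by rw [hx'def]; simp
  have hcomm : ∀ z ∈ coordSub T m i, x' * z = z * x' := by
    intro z hz
    funext l
    by_cases hl : l = i
    · subst hl
      simp [hx'i]
    · simp [hz l hl]
  have h1 : ψ x' j = 1 := by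
    apply eq_one_of_forall_comm hT
    intro s
    have hz : ψ.symm (Pi.mulSingle j s) ∈ coordSub T m i := by
      rw [hij]; simp [mulSingle_mem_coordSub]
    have h2 := congrArg ψ (hcomm _ hz)
    rw [map_mul, map_mul, MulEquiv.apply_symm_apply] at h2
    have h3 := congrFun h2 j
    simp only [Pi.mul_apply, mulSingle_same'] at h3
    exact h3.symm
  have hx : x = Pi.mulSingle i (x i) * x' := by rw [hx'def]; group
  conv_lhs => rw [hx]
  rw [map_mul, Pi.mul_apply, h1, mul_one]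

/-- the permutation of the coordinates induced by an automorphism -/
theorem exists_perm_of_aut [IsSimpleGroup T] (hT : ¬ IsMulCommutative T)
    (ψ : (Fin m → T) ≃* (Fin m → T)) :
    ∃ σ : Fin m → Fin m, Function.Bijective σ ∧
      ∀ i x, x ∈ coordSub T m i ↔ ψ x ∈ coordSub T m (σ i) := by
  choose σ hσ using exists_coord_map hT ψ
  have hinj : Function.Injective σ := by
    intro i i' h
    apply coordSub_index_unique (T := T)
    intro x hx
    rw [hσ i' x, ← h, ← hσ i x]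
    exact hx
  exact ⟨σ, ⟨hinj, Finite.injective_iff_surjective.mp hinj⟩, hσ⟩

/-- transitivity of the automorphism group on the coordinates -/
theorem coord_transitive [IsSimpleGroup T] (hT : ¬ IsMulCommutative T)
    (A : Subgroup (MulAut (Fin m → T)))
    (hmin : ∀ W : Subgroup (Fin m → T), W.Normal → (∀ ψ ∈ A, ∀ x ∈ W, ψ x ∈ W) → W = ⊥ ∨ W = ⊤)
    (i j : Fin m) : ∃ ψ ∈ A, ∀ x, x ∈ coordSub T m i ↔ ψ x ∈ coordSub T m j := by
  classical
  obtain ⟨W, hWdef⟩ : ∃ W : Subgroup (Fin m → T), ∀ x, x ∈ W ↔ ∀ l,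
      (¬ ∃ ψ ∈ A, ∀ y, y ∈ coordSub T m i ↔ ψ y ∈ coordSub T m l) → x l = 1 := by
    refine ⟨{ carrier := {x | ∀ l,
      (¬ ∃ ψ ∈ A, ∀ y, y ∈ coordSub T m i ↔ ψ y ∈ coordSub T m l) → x l = 1}
              one_mem' := fun l _ => rfl
              mul_mem' := ?_
              inv_mem' := ?_ }, fun x => Iff.rfl⟩
    · intro a b ha hb l hl
      simp [ha l hl, hb l hl]
    · intro a ha l hl
      simp [ha l hl]
  have hWn : W.Normal := by
    constructor
    intro n hn g
    rw [hWdef] at hn ⊢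
    intro l hl
    simp [hn l hl]
  have hWinv : ∀ ψ ∈ A, ∀ x ∈ W, ψ x ∈ W := by
    intro ψ hψ x hx
    rw [hWdef] at hx ⊢
    intro l hl
    obtain ⟨σ, hσb, hσ⟩ := exists_perm_of_aut hT (ψ : (Fin m → T) ≃* (Fin m → T))
    obtain ⟨l₀, rfl⟩ := hσb.2 l
    rw [coord_apply hT ψ l₀ (σ l₀) (hσ l₀) x]
    have : x l₀ = 1 := by
      apply hx
      rintro ⟨ψ', hψ', h'⟩
      apply hl
      refine ⟨ψ * ψ', A.mul_mem hψ hψ', fun y => ?_⟩
      rw [h' y, hσ l₀ (ψ' y)]
      rfl
    rw [this, Pi.mulSingle_one, map_one]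
    rfl
  obtain ⟨t₀, ht₀⟩ := exists_ne (1 : T)
  rcases hmin W hWn hWinv with h | h
  · exfalso
    have hmem : (Pi.mulSingle i t₀ : Fin m → T) ∈ W := by
      rw [hWdef]
      intro l hl
      apply mulSingle_ne'
      rintro rfl
      exact hl ⟨1, A.one_mem, fun y => Iff.rfl⟩
    rw [h, Subgroup.mem_bot] at hmem
    have := congrFun hmem i
    rw [mulSingle_same'] at this
    exact ht₀ this
  · by_contra hcon
    have hmem : (Pi.mulSingle j t₀ : Fin m → T) ∈ W := h ▸ Subgroup.mem_top _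
    rw [hWdef] at hmem
    have := hmem j hcon
    rw [mulSingle_same'] at this
    exact ht₀ this

/-- Case A: some projection of `D` is proper. -/
theorem pi_caseA [IsSimpleGroup T] (hT : ¬ IsMulCommutative T)
    (D : Subgroup (Fin m → T)) (A : Subgroup (MulAut (Fin m → T)))
    (hD : ∀ ψ ∈ A, ∀ d ∈ D, ψ d ∈ D)
    (htrans : ∀ i j : Fin m, ∃ ψ ∈ A, ∀ x, x ∈ coordSub T m i ↔ ψ x ∈ coordSub T m j)
    (hmax : ∀ R : Subgroup (Fin m → T), D ≤ R → (∀ ψ ∈ A, ∀ x ∈ R, ψ x ∈ R) → R = D ∨ R = ⊤)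
    (i₀ : Fin m) (t₀ : T) (ht₀ : ∀ d ∈ D, d i₀ ≠ t₀) :
    ∃ K : Fin m → Subgroup T, (∀ i, K i ≠ ⊤) ∧ ∀ x, x ∈ D ↔ ∀ i, x i ∈ K i := by
  classical
  obtain ⟨K, hKmem⟩ : ∃ K : Fin m → Subgroup T, ∀ i (t : T), t ∈ K i ↔ ∃ d ∈ D, d i = t := by
    refine ⟨fun i => D.map (Pi.evalMonoidHom (fun _ : Fin m => T) i), fun i t => ?_⟩
    simp [Subgroup.mem_map]
  have hK₀ : K i₀ ≠ ⊤ := by
    intro h
    have : t₀ ∈ K i₀ := h ▸ Subgroup.mem_top _
    obtain ⟨d, hd, hdt⟩ := (hKmem _ _).mp this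
    exact ht₀ d hd hdt
  have hKall : ∀ i, K i ≠ ⊤ := by
    intro i hi
    obtain ⟨ψ, hψ, hψi⟩ := htrans i i₀
    apply hK₀
    rw [eq_top_iff]
    intro t _
    have hz : (ψ : (Fin m → T) ≃* (Fin m → T)).symm (Pi.mulSingle i₀ t) ∈ coordSub T m i := by
      rw [hψi]; simp [mulSingle_mem_coordSub]
    obtain ⟨d, hd, hdi⟩ := (hKmem i _).mp
      (hi ▸ Subgroup.mem_top ((ψ : (Fin m → T) ≃* (Fin m → T)).symm (Pi.mulSingle i₀ t) i))
    rw [hKmem]
    refine ⟨ψ d, hD ψ hψ d hd, ?_⟩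
    rw [coord_apply hT ψ i i₀ hψi d, hdi, ← eq_mulSingle_of_mem_coordSub hz]
    simp
  refine ⟨K, hKall, ?_⟩
  obtain ⟨R, hRmem⟩ : ∃ R : Subgroup (Fin m → T), ∀ x, x ∈ R ↔ ∀ i, x i ∈ K i :=
    ⟨Subgroup.pi Set.univ K, fun x => by simp [Subgroup.mem_pi]⟩
  have hDR : D ≤ R := fun d hd => (hRmem d).mpr (fun i => (hKmem i _).mpr ⟨d, hd, rfl⟩)
  have hRinv : ∀ ψ ∈ A, ∀ x ∈ R, ψ x ∈ R := by
    intro ψ hψ x hx
    rw [hRmem] at hx ⊢
    intro j
    obtain ⟨σ, hσb, hσ⟩ := exists_perm_of_aut hT (ψ : (Fin m → T) ≃* (Fin m → T))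
    obtain ⟨i, rfl⟩ := hσb.2 j
    obtain ⟨d, hd, hdi⟩ := (hKmem i _).mp (hx i)
    rw [coord_apply hT ψ i (σ i) (hσ i) x, ← hdi, ← coord_apply hT ψ i (σ i) (hσ i) d]
    exact (hKmem _ _).mpr ⟨ψ d, hD ψ hψ d hd, rfl⟩
  rcases hmax R hDR hRinv with h | h
  · intro x; rw [← h, hRmem]
  · exfalso
    have : (Pi.mulSingle i₀ t₀ : Fin m → T) ∈ R := h ▸ Subgroup.mem_top _
    have h2 := (hRmem _).mp this i₀
    rw [mulSingle_same'] at h2
    obtain ⟨d, hd, hdt⟩ := (hKmem _ _).mp h2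
    exact ht₀ d hd hdt

/-- elements of `D` supported on `S` -/
def suppSub (D : Subgroup (Fin m → T)) (S : Finset (Fin m)) : Subgroup (Fin m → T) where
  carrier := {d | d ∈ D ∧ ∀ l, l ∉ S → d l = 1}
  one_mem' := ⟨D.one_mem, fun _ _ => rfl⟩
  mul_mem' := by
    rintro a b ⟨ha, ha'⟩ ⟨hb, hb'⟩
    exact ⟨D.mul_mem ha hb, fun l hl => by simp [ha' l hl, hb' l hl]⟩
  inv_mem' := by
    rintro a ⟨ha, ha'⟩
    exact ⟨D.inv_mem ha, fun l hl => by simp [ha' l hl]⟩

theorem mem_suppSub {D : Subgroup (Fin m → T)} {S : Finset (Fin m)} {d : Fin m → T} :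
    d ∈ suppSub D S ↔ d ∈ D ∧ ∀ l, l ∉ S → d l = 1 := Iff.rfl

theorem suppSub_empty (D : Subgroup (Fin m → T)) : suppSub D ∅ = ⊥ := by
  rw [Subgroup.eq_bot_iff_forall]
  intro d hd
  funext l
  exact hd.2 l (Finset.notMem_empty l)

/-- `S` is a support of minimal size `k` of a nontrivial element of `D` -/
def IsMinSupp (D : Subgroup (Fin m → T)) (k : ℕ) (S : Finset (Fin m)) : Prop :=
  S.card = k ∧ suppSub D S ≠ ⊥

section MinSupp

variable {D : Subgroup (Fin m → T)} {k : ℕ}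

theorem minSupp_inj (hk : ∀ S' : Finset (Fin m), S'.card < k → suppSub D S' = ⊥)
    {S : Finset (Fin m)} (hS : S.card = k) {i : Fin m} (hi : i ∈ S) {d : Fin m → T}
    (hd : d ∈ suppSub D S) (hdi : d i = 1) : d = 1 := by
  classical
  have h1 : d ∈ suppSub D (S.erase i) := by
    refine ⟨hd.1, fun l hl => ?_⟩
    by_cases hli : l = i
    · rw [hli]; exact hdi
    · exact hd.2 l (fun h => hl (Finset.mem_erase.mpr ⟨hli, h⟩))
  have h2 : (S.erase i).card < k := hS ▸ Finset.card_erase_lt_of_mem hi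
  rw [hk _ h2, Subgroup.mem_bot] at h1
  exact h1

theorem minSupp_inj2 (hk : ∀ S' : Finset (Fin m), S'.card < k → suppSub D S' = ⊥)
    {S : Finset (Fin m)} (hS : S.card = k) {i : Fin m} (hi : i ∈ S) {d d' : Fin m → T}
    (hd : d ∈ suppSub D S) (hd' : d' ∈ suppSub D S) (h : d i = d' i) : d = d' := by
  have h1 : d * d'⁻¹ = 1 := by
    apply minSupp_inj hk hS hi ((suppSub D S).mul_mem hd ((suppSub D S).inv_mem hd'))
    simp [h]
  exact mul_inv_eq_one.mp h1

theorem minSupp_surj [IsSimpleGroup T]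
    (hsub : ∀ i (t : T), ∃ d ∈ D, d i = t)
    (hk : ∀ S' : Finset (Fin m), S'.card < k → suppSub D S' = ⊥)
    {S : Finset (Fin m)} (hS : IsMinSupp D k S) {i : Fin m} (hi : i ∈ S) (t : T) :
    ∃ d ∈ suppSub D S, d i = t := by
  classical
  obtain ⟨L, hLmem⟩ : ∃ L : Subgroup T, ∀ t : T, t ∈ L ↔ ∃ d ∈ suppSub D S, d i = t := by
    refine ⟨(suppSub D S).map (Pi.evalMonoidHom (fun _ : Fin m => T) i), fun t => ?_⟩
    simp [Subgroup.mem_map]
  have hLn : L.Normal := by
    constructor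
    intro n hn g
    rw [hLmem] at hn ⊢
    obtain ⟨d, hd, hdn⟩ := hn
    obtain ⟨x, hx, hxg⟩ := hsub i g
    refine ⟨x * d * x⁻¹, ⟨D.mul_mem (D.mul_mem hx hd.1) (D.inv_mem hx), fun l hl => ?_⟩, ?_⟩
    · simp [hd.2 l hl]
    · simp [hdn, hxg]
  have hne : L ≠ ⊥ := by
    intro h
    apply hS.2
    rw [Subgroup.eq_bot_iff_forall]
    intro d hd
    apply minSupp_inj hk hS.1 hi hd
    have : d i ∈ L := (hLmem _).mpr ⟨d, hd, rfl⟩
    rw [h, Subgroup.mem_bot] at this
    exact this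
  rcases hLn.eq_bot_or_eq_top with h | h
  · exact absurd h hne
  · exact (hLmem t).mp (h ▸ Subgroup.mem_top t)

theorem minSupp_key [IsSimpleGroup T] (hT : ¬ IsMulCommutative T)
    (hsub : ∀ i (t : T), ∃ d ∈ D, d i = t)
    (hk : ∀ S' : Finset (Fin m), S'.card < k → suppSub D S' = ⊥)
    {S : Finset (Fin m)} (hS : IsMinSupp D k S) {x : Fin m → T} (hx : x ∈ D)
    {d : Fin m → T} (hd : d ∈ suppSub D S) {i j : Fin m} (hi : i ∈ S) (hj : j ∈ S)
    (h : d i = x i) : d j = x j := by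
  have h1 : (d j)⁻¹ * x j = 1 := by
    apply eq_one_of_forall_comm hT
    intro s
    obtain ⟨d', hd', hd's⟩ := minSupp_surj hsub hk hS hj s
    have hxd : x * d' * x⁻¹ ∈ suppSub D S := by
      refine ⟨D.mul_mem (D.mul_mem hx hd'.1) (D.inv_mem hx), fun l hl => ?_⟩
      simp [hd'.2 l hl]
    have hdd : d * d' * d⁻¹ ∈ suppSub D S :=
      (suppSub D S).mul_mem ((suppSub D S).mul_mem hd hd') ((suppSub D S).inv_mem hd)
    have heq : x * d' * x⁻¹ = d * d' * d⁻¹ := by
      apply minSupp_inj2 hk hS.1 hi hxd hdd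
      simp [h]
    have h4 := congrFun heq j
    simp only [Pi.mul_apply, Pi.inv_apply, hd's] at h4
    calc s * ((d j)⁻¹ * x j) = (d j)⁻¹ * (d j * s * (d j)⁻¹) * x j := by group
      _ = (d j)⁻¹ * (x j * s * (x j)⁻¹) * x j := by rw [h4]
      _ = (d j)⁻¹ * x j * s := by group
  exact (inv_mul_eq_one.mp h1)

theorem minSupp_eq [IsSimpleGroup T] (hT : ¬ IsMulCommutative T)
    (hsub : ∀ i (t : T), ∃ d ∈ D, d i = t)
    (hk : ∀ S' : Finset (Fin m), S'.card < k → suppSub D S' = ⊥)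
    {S S' : Finset (Fin m)} (hS : IsMinSupp D k S) (hS' : IsMinSupp D k S') {i : Fin m}
    (hi : i ∈ S) (hi' : i ∈ S') : S = S' := by
  have hsubset : S ⊆ S' := by
    intro j hj
    by_contra hj'
    apply hS'.2
    rw [Subgroup.eq_bot_iff_forall]
    intro d' hd'
    obtain ⟨d, hd, hdi⟩ := minSupp_surj hsub hk hS hi (d' i)
    have h1 : d j = d' j := minSupp_key hT hsub hk hS hd'.1 hd hi hj hdi
    rw [hd'.2 j hj'] at h1
    have h2 : d = 1 := minSupp_inj hk hS.1 hj hd h1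
    rw [h2] at hdi
    exact minSupp_inj hk hS'.1 hi' hd' hdi.symm
  exact Finset.eq_of_subset_of_card_le hsubset (by rw [hS.1, hS'.1])

theorem minSupp_cover [IsSimpleGroup T] (hT : ¬ IsMulCommutative T)
    (A : Subgroup (MulAut (Fin m → T))) (hD : ∀ ψ ∈ A, ∀ d ∈ D, ψ d ∈ D)
    (htrans : ∀ i j : Fin m, ∃ ψ ∈ A, ∀ x, x ∈ coordSub T m i ↔ ψ x ∈ coordSub T m j)
    {S : Finset (Fin m)} (hS : IsMinSupp D k S) (i : Fin m) :
    ∃ S' : Finset (Fin m), IsMinSupp D k S' ∧ i ∈ S' := by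
  classical
  obtain ⟨i₀, hi₀⟩ : S.Nonempty := by
    rw [Finset.nonempty_iff_ne_empty]
    intro h
    apply hS.2
    rw [h]; exact suppSub_empty D
  obtain ⟨ψ, hψ, hψi⟩ := htrans i₀ i
  obtain ⟨σ, hσb, hσ⟩ := exists_perm_of_aut hT (ψ : (Fin m → T) ≃* (Fin m → T))
  have hσi : σ i₀ = i := by
    apply coordSub_index_unique (T := T)
    intro x hx
    have h1 : (ψ : (Fin m → T) ≃* (Fin m → T)).symm x ∈ coordSub T m i₀ := by
      rw [hσ i₀]; simpa using hx
    have h2 := (hψi _).mp h1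
    simpa using h2
  refine ⟨S.image σ, ⟨?_, ?_⟩, Finset.mem_image.mpr ⟨i₀, hi₀, hσi⟩⟩
  · rw [Finset.card_image_of_injective S hσb.1]; exact hS.1
  · obtain ⟨d, hd, hd1⟩ : ∃ d ∈ suppSub D S, d ≠ 1 := by
      by_contra hcon
      push Not at hcon
      exact hS.2 ((Subgroup.eq_bot_iff_forall _).mpr hcon)
    intro h
    have hmem : ψ d ∈ suppSub D (S.image σ) := by
      refine ⟨hD ψ hψ d hd.1, fun l hl => ?_⟩
      obtain ⟨l₀, rfl⟩ := hσb.2 l
      have hl₀ : l₀ ∉ S := fun h' => hl (Finset.mem_image.mpr ⟨l₀, h', rfl⟩)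
      rw [coord_apply hT ψ l₀ (σ l₀) (hσ l₀) d, hd.2 l₀ hl₀, Pi.mulSingle_one, map_one]
      rfl
    rw [h, Subgroup.mem_bot] at hmem
    apply hd1
    apply (ψ : (Fin m → T) ≃* (Fin m → T)).injective
    rw [map_one]; exact hmem

end MinSupp

theorem min'_congr {s t : Finset (Fin m)} (hs : s.Nonempty) (ht : t.Nonempty) (h : s = t) :
    s.min' hs = t.min' ht := by
  subst h; rfl

/-- Case B: all projections of `D` are onto. -/
theorem pi_caseB [IsSimpleGroup T] (hT : ¬ IsMulCommutative T) (hm : 0 < m)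
    (D : Subgroup (Fin m → T)) (A : Subgroup (MulAut (Fin m → T)))
    (hD : ∀ ψ ∈ A, ∀ d ∈ D, ψ d ∈ D)
    (htrans : ∀ i j : Fin m, ∃ ψ ∈ A, ∀ x, x ∈ coordSub T m i ↔ ψ x ∈ coordSub T m j)
    (hsub : ∀ i (t : T), ∃ d ∈ D, d i = t) (hDtop : D ≠ ⊤) :
    ∃ (k : ℕ) (c : Fin m → Fin m) (ρ : Fin m → T ≃* T), 2 ≤ k ∧
      (∀ j : Fin m, Nat.card {i : Fin m // c i = j} = k ∨ Nat.card {i : Fin m // c i = j} = 0) ∧
      ∀ x, x ∈ D ↔ ∀ i j : Fin m, c i = c j → ρ i (x i) = ρ j (x j) := by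
  classical
  have hex : ∃ k, ∃ S : Finset (Fin m), IsMinSupp D k S := by
    obtain ⟨t, ht⟩ := exists_ne (1 : T)
    obtain ⟨d, hd, hdt⟩ := hsub ⟨0, hm⟩ t
    refine ⟨_, Finset.univ, rfl, ?_⟩
    intro h
    have : d ∈ suppSub D Finset.univ := ⟨hd, fun l hl => absurd (Finset.mem_univ l) hl⟩
    rw [h, Subgroup.mem_bot] at this
    rw [this] at hdt
    exact ht hdt.symm
  obtain ⟨k, hkS, hk⟩ : ∃ k, (∃ S, IsMinSupp D k S) ∧
      ∀ S' : Finset (Fin m), S'.card < k → suppSub D S' = ⊥ := by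
    refine ⟨Nat.find hex, Nat.find_spec hex, fun S' hlt => ?_⟩
    by_contra h
    exact Nat.find_min hex hlt ⟨S', rfl, h⟩
  obtain ⟨S, hS⟩ := hkS
  choose B hB hiB using minSupp_cover hT A hD htrans hS
  have hBeq : ∀ i j, j ∈ B i → B j = B i :=
    fun i j hj => minSupp_eq hT hsub hk (hB j) (hB i) (hiB j) hj
  obtain ⟨c, hcB, hc_iff⟩ : ∃ c : Fin m → Fin m, (∀ i, c i ∈ B i) ∧
      ∀ i j, c i = c j ↔ B i = B j := by
    refine ⟨fun i => (B i).min' ⟨i, hiB i⟩, fun i => Finset.min'_mem _ _, fun i j => ⟨fun h => ?_,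
      fun h => min'_congr _ _ h⟩⟩
    have h1 : B ((B i).min' ⟨i, hiB i⟩) = B i := hBeq i _ (Finset.min'_mem _ _)
    have h2 : B ((B j).min' ⟨j, hiB j⟩) = B j := hBeq j _ (Finset.min'_mem _ _)
    exact h1.symm.trans ((congrArg B h).trans h2)
  -- the twisting automorphisms
  obtain ⟨ρ, hρ⟩ : ∃ ρ : Fin m → T ≃* T, ∀ i, ∀ d ∈ suppSub D (B i), ρ i (d i) = d (c i) := by
    have hbij : ∀ i j, j ∈ B i → Function.Bijective
        ((Pi.evalMonoidHom (fun _ : Fin m => T) j).comp (suppSub D (B i)).subtype) := by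
      intro i j hj
      constructor
      · intro d d' h
        apply Subtype.ext
        exact minSupp_inj2 hk (hB i).1 hj d.2 d'.2 h
      · intro t
        obtain ⟨d, hd, hdt⟩ := minSupp_surj hsub hk (hB i) hj t
        exact ⟨⟨d, hd⟩, hdt⟩
    refine ⟨fun i => (MulEquiv.ofBijective _ (hbij i i (hiB i))).symm.trans
      (MulEquiv.ofBijective _ (hbij i (c i) (hcB i))), fun i d hd => ?_⟩
    have h1 : d i = (MulEquiv.ofBijective _ (hbij i i (hiB i))) ⟨d, hd⟩ := rfl
    rw [MulEquiv.trans_apply, h1, MulEquiv.symm_apply_apply]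
    rfl
  have hρD : ∀ x ∈ D, ∀ i, ρ i (x i) = x (c i) := by
    intro x hx i
    obtain ⟨d, hd, hdi⟩ := minSupp_surj hsub hk (hB i) (hiB i) (x i)
    rw [← hdi, hρ i d hd]
    exact minSupp_key hT hsub hk (hB i) hx hd (hiB i) (hcB i) hdi
  have hrelD : ∀ x ∈ D, ∀ i j : Fin m, c i = c j → ρ i (x i) = ρ j (x j) := by
    intro x hx i j hij
    rw [hρD x hx i, hρD x hx j, hij]
  have hsup : ∀ n : ℕ, ∀ x : Fin m → T, (∀ i j, c i = c j → ρ i (x i) = ρ j (x j)) →
      (Finset.univ.filter (fun l => x l ≠ 1)).card ≤ n → x ∈ D := by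
    intro n
    induction n with
    | zero =>
      intro x _ hcard
      have : x = 1 := by
        funext l
        by_contra hl
        have h1 : l ∈ Finset.univ.filter (fun l => x l ≠ 1) := by simpa using hl
        have := Finset.card_pos.mpr ⟨l, h1⟩
        omega
      rw [this]; exact D.one_mem
    | succ n ih =>
      intro x hrel hcard
      by_cases hx1 : x = 1
      · rw [hx1]; exact D.one_mem
      obtain ⟨i, hi⟩ : ∃ i, x i ≠ 1 := by
        by_contra hcon
        push Not at hcon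
        exact hx1 (funext hcon)
      obtain ⟨d, hd, hdi⟩ := minSupp_surj hsub hk (hB i) (hiB i) (x i)
      have hdj : ∀ j ∈ B i, d j = x j := by
        intro j hj
        have hBj : B j = B i := hBeq i j hj
        have hcij : c j = c i := (hc_iff j i).mpr hBj
        obtain ⟨d'', hd'', hd''j⟩ := minSupp_surj hsub hk (hB j) (hiB j) (x j)
        have hd''i : d'' ∈ suppSub D (B i) := hBj ▸ hd''
        have h1 : ρ j (x j) = d'' (c j) := by rw [← hd''j]; exact hρ j d'' hd''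
        have h2 : ρ i (x i) = d (c i) := by rw [← hdi]; exact hρ i d hd
        have h3 : d'' (c i) = d (c i) := by rw [← h2, ← hrel j i hcij, h1, hcij]
        have : d'' = d := minSupp_inj2 hk (hB i).1 (hcB i) hd''i hd h3
        rw [← this, hd''j]
      have hdD : d ∈ D := hd.1
      have hx' : x * d⁻¹ ∈ D := by
        apply ih
        · intro a b hab
          rw [Pi.mul_apply, Pi.mul_apply, map_mul, map_mul, Pi.inv_apply, Pi.inv_apply, map_inv,
            map_inv, hrel a b hab, hrelD d hdD a b hab]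
        · have hsubset : Finset.univ.filter (fun l => (x * d⁻¹) l ≠ 1) ⊆
              (Finset.univ.filter (fun l => x l ≠ 1)).erase i := by
            intro l hl
            simp only [Finset.mem_filter, Finset.mem_univ, true_and, Pi.mul_apply,
              Pi.inv_apply] at hl
            rw [Finset.mem_erase, Finset.mem_filter]
            by_cases hlB : l ∈ B i
            · exfalso; apply hl; rw [hdj l hlB]; simp
            · have : d l = 1 := hd.2 l hlB
              rw [this] at hl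
              refine ⟨fun h => hlB (h ▸ hiB i), Finset.mem_univ _, by simpa using hl⟩
          have h1 := Finset.card_le_card hsubset
          have h2 : ((Finset.univ.filter (fun l => x l ≠ 1)).erase i).card <
              (Finset.univ.filter (fun l => x l ≠ 1)).card :=
            Finset.card_erase_lt_of_mem (by simpa using hi)
          omega
      have : x = x * d⁻¹ * d := by group
      rw [this]; exact D.mul_mem hx' hdD
  have hchar : ∀ x, x ∈ D ↔ ∀ i j : Fin m, c i = c j → ρ i (x i) = ρ j (x j) :=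
    fun x => ⟨fun hx => hrelD x hx, fun h => hsup _ x h le_rfl⟩
  have hk1 : 1 ≤ k := by
    by_contra hcon
    have h0 : S.card = 0 := by have := hS.1; omega
    rw [Finset.card_eq_zero] at h0
    apply hS.2
    rw [h0]; exact suppSub_empty D
  have hk2 : 2 ≤ k := by
    by_contra hcon
    have hk1' : k = 1 := by omega
    apply hDtop
    rw [eq_top_iff]
    intro x _
    rw [hchar]
    intro i j hij
    have hBi : ∀ i, c i = i := by
      intro i
      have h1 : (B i).card = 1 := by rw [(hB i).1, hk1']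
      obtain ⟨a, ha⟩ := Finset.card_eq_one.mp h1
      have h2 := hcB i
      have h3 := hiB i
      rw [ha, Finset.mem_singleton] at h2 h3
      rw [h2, h3]
    have : i = j := by rw [← hBi i, ← hBi j, hij]
    subst this; rfl
  refine ⟨k, c, ρ, hk2, ?_, hchar⟩
  intro j
  by_cases hj : ∃ i₀, c i₀ = j
  · left
    obtain ⟨i₀, rfl⟩ := hj
    have h1 : ∀ i, c i = c i₀ ↔ i ∈ B i₀ := by
      intro i
      rw [hc_iff]
      exact ⟨fun h => h ▸ hiB i, fun h => hBeq i₀ i h⟩
    rw [Nat.card_congr (Equiv.subtypeEquivRight h1), Nat.card_eq_fintype_card, Fintype.card_coe]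
    exact (hB i₀).1
  · right
    push Not at hj
    have : IsEmpty {i : Fin m // c i = j} := ⟨fun ⟨i, hi⟩ => hj i hi⟩
    exact Nat.card_of_isEmpty

/-- **The dichotomy.** -/
theorem pi_stabilizer_dichotomy [IsSimpleGroup T] (hT : ¬ IsMulCommutative T) (hm : 0 < m)
    (D : Subgroup (Fin m → T)) (A : Subgroup (MulAut (Fin m → T)))
    (hD : ∀ ψ ∈ A, ∀ d ∈ D, ψ d ∈ D)
    (hmin : ∀ W : Subgroup (Fin m → T), W.Normal → (∀ ψ ∈ A, ∀ x ∈ W, ψ x ∈ W) → W = ⊥ ∨ W = ⊤)
    (hmax : ∀ R : Subgroup (Fin m → T), D ≤ R → (∀ ψ ∈ A, ∀ x ∈ R, ψ x ∈ R) → R = D ∨ R = ⊤)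
    (hDtop : D ≠ ⊤) :
    (∃ K : Fin m → Subgroup T, (∀ i, K i ≠ ⊤) ∧ ∀ x, x ∈ D ↔ ∀ i, x i ∈ K i) ∨
    (∃ (k : ℕ) (c : Fin m → Fin m) (ρ : Fin m → T ≃* T), 2 ≤ k ∧
      (∀ j : Fin m, Nat.card {i : Fin m // c i = j} = k ∨ Nat.card {i : Fin m // c i = j} = 0) ∧
      ∀ x, x ∈ D ↔ ∀ i j : Fin m, c i = c j → ρ i (x i) = ρ j (x j)) := by
  have htrans := coord_transitive hT A hmin
  by_cases h : ∃ (i₀ : Fin m) (t₀ : T), ∀ d ∈ D, d i₀ ≠ t₀
  · obtain ⟨i₀, t₀, ht₀⟩ := h
    exact Or.inl (pi_caseA hT D A hD htrans hmax i₀ t₀ ht₀)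
  · push Not at h
    exact Or.inr (pi_caseB hT hm D A hD htrans h hDtop)

end ONS

end Cfsg.Agent.H67
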