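import Mathlib
import Cfsg.Agent.S0721
import Cfsg.Agent.H67.ONanScott

/-!
helper67: the O'Nan–Scott dichotomy for `N ∩ M`, `N` a nonabelian minimal normal subgroup and `M`
a maximal subgroup not containing `N`.
-/

set_option autoImplicit false

namespace Cfsg.Agent.H67

theorem mem_normalizer_of_conj_both {G : Type*} [Group G] (L : Subgroup G) (g : G)
    (h1 : ∀ y ∈ L, g * y * g⁻¹ ∈ L) (h2 : ∀ y ∈ L, g⁻¹ * y * g ∈ L) :
    g ∈ Subgroup.normalizer (L : Set G) := by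
  rw [Subgroup.mem_normalizer_iff]
  intro y
  refine ⟨h1 y, fun hy => ?_⟩
  have := h2 _ hy
  have h3 : g⁻¹ * (g * y * g⁻¹) * g = y := by group
  rwa [h3] at this

theorem onan_scott_stabilizer {G : Type*} [Group G] [Finite G] (N M : Subgroup G) [hNn : N.Normal]
    (hN : N ≠ ⊥) (hmin : ∀ L : Subgroup G, L.Normal → L ≤ N → L = ⊥ ∨ L = N)
    (hnab : ¬ IsMulCommutative N) (hM : IsCoatom M) (hNM : ¬ N ≤ M) :
    ∃ (T : Type) (_ : Group T) (m : ℕ) (e : N ≃* (Fin m → T)), IsSimpleGroup T ∧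
      ¬ IsMulCommutative T ∧ 0 < m ∧
      ((∃ K : Fin m → Subgroup T, (∀ i, K i ≠ ⊤) ∧ ∀ n : N, (n : G) ∈ M ↔ ∀ i, e n i ∈ K i) ∨
       (∃ (k : ℕ) (c : Fin m → Fin m), 2 ≤ k ∧
         (∀ j : Fin m, Nat.card {i : Fin m // c i = j} = k ∨
           Nat.card {i : Fin m // c i = j} = 0) ∧
         ∀ n : N, (n : G) ∈ M ↔ ∀ i j : Fin m, c i = c j → e n i = e n j)) := by
  classical
  obtain ⟨T, instT, m, hTs, hm, ⟨e₀⟩⟩ := Cfsg.Agent.S0721.result N hN hmin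
  have hTnab : ¬ IsMulCommutative T := by
    intro hc
    apply hnab
    refine ⟨⟨fun a b => ?_⟩⟩
    apply e₀.injective
    rw [map_mul, map_mul]
    funext i
    exact hc.is_comm.comm (e₀ a i) (e₀ b i)
  obtain ⟨Φ, hΦ⟩ : ∃ Φ : G →* MulAut (Fin m → T), ∀ (g : G) (n : N),
      Φ g (e₀ n) = e₀ (MulAut.conjNormal g n) := by
    refine ⟨(MulAut.congr e₀).toMonoidHom.comp (MulAut.conjNormal (H := N)), fun g n => ?_⟩
    show e₀ (MulAut.conjNormal g (e₀.symm (e₀ n))) = _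
    rw [MulEquiv.symm_apply_apply]
  obtain ⟨A, hAdef⟩ : ∃ A : Subgroup (MulAut (Fin m → T)), A = M.map Φ := ⟨_, rfl⟩
  have hA : ∀ ψ ∈ A, ∃ g ∈ M, Φ g = ψ := by
    intro ψ hψ
    rw [hAdef] at hψ
    exact Subgroup.mem_map.mp hψ
  obtain ⟨D, hDmem⟩ : ∃ D : Subgroup (Fin m → T), ∀ n : N, e₀ n ∈ D ↔ (n : G) ∈ M := by
    refine ⟨(M.subgroupOf N).map e₀.toMonoidHom, fun n => ?_⟩
    rw [Subgroup.mem_map]
    constructor
    · rintro ⟨n', hn', h⟩
      have : n' = n := e₀.injective h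
      rw [← this]
      exact Subgroup.mem_subgroupOf.mp hn'
    · intro h
      exact ⟨n, Subgroup.mem_subgroupOf.mpr h, rfl⟩
  have hD : ∀ ψ ∈ A, ∀ d ∈ D, ψ d ∈ D := by
    intro ψ hψ d hd
    obtain ⟨g, hg, rfl⟩ := hA ψ hψ
    obtain ⟨n, rfl⟩ := e₀.surjective d
    rw [hΦ, hDmem, MulAut.conjNormal_apply]
    exact M.mul_mem (M.mul_mem hg ((hDmem n).mp hd)) (M.inv_mem hg)
  -- pulling back subgroups of the product
  obtain ⟨Lf, hLf⟩ : ∃ Lf : Subgroup (Fin m → T) → Subgroup G, ∀ W y,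
      y ∈ Lf W ↔ ∃ n : N, e₀ n ∈ W ∧ (n : G) = y := by
    refine ⟨fun W => (W.comap e₀.toMonoidHom).map N.subtype, fun W y => ?_⟩
    rw [Subgroup.mem_map]
    constructor
    · rintro ⟨n, hn, rfl⟩
      exact ⟨n, hn, rfl⟩
    · rintro ⟨n, hn, rfl⟩
      exact ⟨n, hn, rfl⟩
  have hLfN : ∀ W, Lf W ≤ N := by
    intro W y hy
    obtain ⟨n, -, rfl⟩ := (hLf W y).mp hy
    exact n.2
  have hMnorm : ∀ W : Subgroup (Fin m → T), (∀ ψ ∈ A, ∀ x ∈ W, ψ x ∈ W) →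
      M ≤ Subgroup.normalizer (Lf W : Set G) := by
    intro W hW g hg
    have key : ∀ g ∈ M, ∀ y ∈ Lf W, g * y * g⁻¹ ∈ Lf W := by
      intro g hg y hy
      obtain ⟨n, hn, rfl⟩ := (hLf W y).mp hy
      rw [hLf]
      refine ⟨MulAut.conjNormal g n, ?_, MulAut.conjNormal_apply g n⟩
      rw [← hΦ]
      exact hW _ (hAdef ▸ Subgroup.mem_map_of_mem Φ hg) _ hn
    apply mem_normalizer_of_conj_both _ _ (key g hg)
    intro y hy
    have := key g⁻¹ (M.inv_mem hg) y hy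
    rwa [inv_inv] at this
  have hLtop : ∀ W : Subgroup (Fin m → T), Lf W = N → W = ⊤ := by
    intro W hW
    rw [eq_top_iff]
    intro x _
    have h1 : ((e₀.symm x : N) : G) ∈ Lf W := hW ▸ (e₀.symm x).2
    obtain ⟨n, hn, hnx⟩ := (hLf W _).mp h1
    have : n = e₀.symm x := Subtype.ext hnx
    rw [this, MulEquiv.apply_symm_apply] at hn
    exact hn
  have hLbot : ∀ W : Subgroup (Fin m → T), Lf W = ⊥ → W = ⊥ := by
    intro W hW
    rw [Subgroup.eq_bot_iff_forall]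
    intro x hx
    have h1 : ((e₀.symm x : N) : G) ∈ Lf W :=
      (hLf W _).mpr ⟨e₀.symm x, by rw [MulEquiv.apply_symm_apply]; exact hx, rfl⟩
    rw [hW, Subgroup.mem_bot] at h1
    have h2 : e₀.symm x = 1 := Subtype.ext h1
    have h3 := congrArg e₀ h2
    rwa [MulEquiv.apply_symm_apply, map_one] at h3
  have hMN : M ⊔ N = ⊤ := hM.2 _ (left_lt_sup.mpr hNM)
  have hmin_abs : ∀ W : Subgroup (Fin m → T), W.Normal → (∀ ψ ∈ A, ∀ x ∈ W, ψ x ∈ W) →
      W = ⊥ ∨ W = ⊤ := by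
    intro W hWn hW
    have hNnorm : N ≤ Subgroup.normalizer (Lf W : Set G) := by
      intro g hg
      have key : ∀ g ∈ N, ∀ y ∈ Lf W, g * y * g⁻¹ ∈ Lf W := by
        intro g hg y hy
        obtain ⟨n, hn, rfl⟩ := (hLf W y).mp hy
        rw [hLf]
        refine ⟨⟨g, hg⟩ * n * ⟨g, hg⟩⁻¹, ?_, rfl⟩
        rw [map_mul, map_mul, map_inv]
        exact hWn.conj_mem _ hn _
      apply mem_normalizer_of_conj_both _ _ (key g hg)
      intro y hy
      have := key g⁻¹ (N.inv_mem hg) y hy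
      rwa [inv_inv] at this
    have hnorm : (Lf W).Normal := by
      rw [← Subgroup.normalizer_eq_top_iff, eq_top_iff, ← hMN]
      exact sup_le (hMnorm W hW) hNnorm
    rcases hmin (Lf W) hnorm (hLfN W) with h | h
    · exact Or.inl (hLbot W h)
    · exact Or.inr (hLtop W h)
  have hmax_abs : ∀ R : Subgroup (Fin m → T), D ≤ R → (∀ ψ ∈ A, ∀ x ∈ R, ψ x ∈ R) →
      R = D ∨ R = ⊤ := by
    intro R hDR hR
    by_cases hLM : Lf R ≤ M
    · left
      apply le_antisymm _ hDR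
      intro x hx
      have h1 : ((e₀.symm x : N) : G) ∈ Lf R :=
        (hLf R _).mpr ⟨e₀.symm x, by rw [MulEquiv.apply_symm_apply]; exact hx, rfl⟩
      have h2 := (hDmem (e₀.symm x)).mpr (hLM h1)
      rwa [MulEquiv.apply_symm_apply] at h2
    · right
      have hML : M ⊔ Lf R = ⊤ := hM.2 _ (left_lt_sup.mpr hLM)
      have hnorm : (Lf R).Normal := by
        rw [← Subgroup.normalizer_eq_top_iff, eq_top_iff, ← hML]
        exact sup_le (hMnorm R hR) Subgroup.le_normalizer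
      rcases hmin (Lf R) hnorm (hLfN R) with h | h
      · exfalso
        apply hLM
        rw [h]; exact bot_le
      · exact hLtop R h
  have hDtop : D ≠ ⊤ := by
    intro h
    apply hNM
    intro y hy
    have : e₀ ⟨y, hy⟩ ∈ D := h ▸ Subgroup.mem_top _
    exact (hDmem ⟨y, hy⟩).mp this
  rcases pi_stabilizer_dichotomy hTnab hm D A hD hmin_abs hmax_abs hDtop with
    ⟨K, hK, hchar⟩ | ⟨k, c, ρ, hk, hfib, hchar⟩
  · exact ⟨T, instT, m, e₀, hTs, hTnab, hm, Or.inl ⟨K, hK, fun n => by rw [← hDmem n, hchar]⟩⟩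
  · refine ⟨T, instT, m, e₀.trans (MulEquiv.piCongrRight ρ), hTs, hTnab, hm,
      Or.inr ⟨k, c, hk, hfib, fun n => ?_⟩⟩
    rw [← hDmem n, hchar]
    rfl

end Cfsg.Agent.H67
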