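import Mathlib
import Cfsg.Prelude.Def_Blocks
import Cfsg.Agent.H74.W2PDefs
import Cfsg.Agent.H32.W2PBR

/-!
# S4707 piece W5 (helper67, for helper74)

`chi_rat`: the character of an invariant subspace `W` of the permutation module is rational
as soon as the integral centralizer matrices act on `W` by rational scalars.
-/

set_option autoImplicit false
set_option linter.unusedSectionVars false
set_option linter.unusedVariables false
set_option linter.style.haveILetI false

namespace Cfsg.Agent.H67.PD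

open Equiv MulAction Cfsg.Agent.H74.W2P

variable {Ω : Type*} [Fintype Ω] [DecidableEq Ω]

theorem chi_rat {G : Subgroup (Perm Ω)} {W : Submodule ℂ (Ω → ℂ)} (hinv : Inv G W)
    (hne : W ≠ ⊥)
    (hscal : ∀ A : Matrix Ω Ω ℤ, Cent G A → ∃ q : ℚ, ∀ f ∈ W,
      (A.map (Int.cast : ℤ → ℂ)).mulVec f = (q : ℂ) • f)
    (χ : Cfsg.IrrCharacter G)
    (hχ : ∀ (g : G) (T : W →ₗ[ℂ] W),
      (∀ f : W, ((T f : W) : Ω → ℂ) = fun ω => (f : Ω → ℂ) ((g⁻¹ : G) • ω)) →
        (χ : G → ℂ) g = LinearMap.trace ℂ W T) (g : G) :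
    ∃ q : ℚ, (χ : G → ℂ) g = (q : ℂ) := by
  classical
  letI : Fintype G := Fintype.ofFinite _
  have hχk : ∀ k : G, (χ : G → ℂ) k = LinearMap.trace ℂ W (Cfsg.Agent.H32.W2P.Tk hinv k) :=
    fun k => hχ k (Cfsg.Agent.H32.W2P.Tk hinv k) (fun f => rfl)
  obtain ⟨q, hact⟩ := hscal (Cfsg.Agent.H32.W2P.clsMat G g) (Cfsg.Agent.H32.W2P.clsMat_cent G g)
  have hcls : ∀ k : G, IsConj g k → (χ : G → ℂ) k = (χ : G → ℂ) g := by
    intro k hk
    obtain ⟨c, hc⟩ := isConj_iff.mp hk
    rw [← hc, hχk, hχk, Cfsg.Agent.H32.W2P.trace_Tk_conj]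
  have hS : (∑ k : G, if IsConj g k then Cfsg.Agent.H32.W2P.Tk hinv k else 0) =
      (q : ℂ) • (LinearMap.id : W →ₗ[ℂ] W) := by
    refine LinearMap.ext fun f => Subtype.ext (funext fun i => ?_)
    have h1 := congrFun (hact f f.2) i
    rw [Cfsg.Agent.H32.W2P.clsMat_mulVec] at h1
    rw [LinearMap.sum_apply, Submodule.coe_sum, Finset.sum_apply, LinearMap.smul_apply,
      LinearMap.id_apply, Submodule.coe_smul, ← h1]
    apply Finset.sum_congr rfl
    intro k _
    split_ifs with hk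
    · rfl
    · rfl
  have htr := congrArg (LinearMap.trace ℂ W) hS
  rw [map_sum, map_smul, LinearMap.trace_id] at htr
  have h2 : ∑ k : G, LinearMap.trace ℂ W
        (if IsConj g k then Cfsg.Agent.H32.W2P.Tk hinv k else 0) =
      ((Subgroup.centralizer ({g} : Set G)).index : ℂ) * (χ : G → ℂ) g := by
    have h3 : ∀ k : G, LinearMap.trace ℂ W
        (if IsConj g k then Cfsg.Agent.H32.W2P.Tk hinv k else 0) =
        if IsConj g k then (χ : G → ℂ) g else 0 := by
      intro k
      split_ifs with hk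
      · rw [← hχk, hcls k hk]
      · exact map_zero _
    rw [Finset.sum_congr rfl (fun k _ => h3 k), ← Cfsg.Agent.H32.W2P.card_conj_eq_index g,
      Finset.sum_ite, Finset.sum_const_zero, add_zero, Finset.sum_const, nsmul_eq_mul]
  rw [h2, smul_eq_mul] at htr
  have hidx : ((Subgroup.centralizer ({g} : Set G)).index : ℂ) ≠ 0 := by
    have : (Subgroup.centralizer ({g} : Set G)).index ≠ 0 := Subgroup.index_ne_zero_of_finite
    exact_mod_cast this
  refine ⟨q * (Module.finrank ℂ W : ℚ) / ((Subgroup.centralizer ({g} : Set G)).index : ℚ), ?_⟩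
  push_cast
  rw [eq_div_iff hidx, mul_comm]
  exact htr

end Cfsg.Agent.H67.PD
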