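import Cfsg.Agent.H7.RTDefs
import Cfsg.Agent.H22.ReeSyl

/-!
# RT-CONJH1 (helper67, for helper7's S2359)

An element of prime order `p ∣ (q-1)/2` of `²G₂(q)`, `q = 3^(2m+1)`, is conjugate into `H¹`.
-/

set_option autoImplicit false
set_option linter.unusedVariables false
set_option linter.unusedSectionVars false
set_option linter.style.haveILetI false

open Cfsg Cfsg.Lie Cfsg.Agent.H22 Cfsg.Agent.H22.GEx Cfsg.Agent.H22.Ree Cfsg.Agent.H45.R2
  Cfsg.Agent.H7.RC Cfsg.Agent.H7.RT Matrix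

namespace Cfsg.Agent.H67.RT

universe u

variable {K : Type u} [Field K] [Fintype K] [CharP K 3] {m : ℕ}

/-- arithmetic: a prime divisor of `(3^(2m+1) - 1)/2` is `> 3`, does not divide `3^(2m+1)` and
divides `3^(2m+1) - 1`. -/
theorem conjH1_arith (m p : ℕ) (hp : p.Prime) (hd : p ∣ (3 ^ (2 * m + 1) - 1) / 2) :
    3 < p ∧ ¬ p ∣ 3 ^ (2 * m + 1) ∧ p ∣ 3 ^ (2 * m + 1) - 1 := by
  have h8 := q_mod8 m
  have h3 : 3 ∣ 3 ^ (2 * m + 1) := dvd_pow_self 3 (by omega)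
  have hq1 : 1 ≤ 3 ^ (2 * m + 1) := Nat.one_le_pow _ _ (by norm_num)
  have hd1 : p ∣ 3 ^ (2 * m + 1) - 1 := dvd_trans hd (Nat.div_dvd_of_dvd (by omega))
  have hp2 : p ≠ 2 := by
    rintro rfl
    obtain ⟨k, hk⟩ := hd
    omega
  have hp3 : p ≠ 3 := by
    rintro rfl
    obtain ⟨k, hk⟩ := hd1
    obtain ⟨j, hj⟩ := h3
    omega
  have hp5 : 3 < p := by
    have := hp.two_le
    by_contra hlt
    have : p = 2 ∨ p = 3 := by omega
    rcases this with h | h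
    · exact hp2 h
    · exact hp3 h
  refine ⟨hp5, ?_, hd1⟩
  intro hdq
  have := (Nat.prime_dvd_prime_iff_eq hp Nat.prime_three).mp (hp.dvd_of_dvd_pow hdq)
  exact hp3 this

theorem conjH1 (C : Ctx K (3 ^ m)) (hK : Fintype.card K = 3 ^ (2 * m + 1)) (hcan : CanonG2 K)
    (hW : WeylG2 K) (hconj : StConjInto.{u}) (hNA : StNTA) : StConjH1 K m := by
  intro p hpf hd y hy
  obtain ⟨hp5, hpq, hd1⟩ := conjH1_arith m p hpf.out hd
  haveI : Finite ↥(twistedG2 K (3 ^ m)) := inferInstance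
  apply hconj ↥(twistedG2 K (3 ^ m)) p (H1G K (3 ^ m)) _ y hy
  have hcH : Nat.card ↥(H1G K (3 ^ m)) = 3 ^ (2 * m + 1) - 1 := by
    unfold H1G
    rw [Nat.card_congr (Subgroup.subgroupOfEquivOfLe inf_le_right).toEquiv, C.card_H1 hK]
  rw [hcH, C.card_twisted hK hcan hW]
  have hq2 : 2 ≤ 3 ^ (2 * m + 1) := by
    have := q_mod8 m
    omega
  exact (hNA (3 ^ (2 * m + 1)) p hq2 hpf.out hp5 hpq).1 hd1

example (C : Ctx K (3 ^ m)) (hK : Fintype.card K = 3 ^ (2 * m + 1)) (hcan : CanonG2 K)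
    (hW : WeylG2 K) (hconj : StConjInto.{u}) (hNA : StNTA) : StConjH1 K m :=
  conjH1 C hK hcan hW hconj hNA

end Cfsg.Agent.H67.RT
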