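import Cfsg.Agent.H7.RTDefs
import Cfsg.Agent.H22.ReeSyl

/-!
# RT-NOTHREE (helper67, for helper7's S2359)

In `²G₂(q)`, `q = 3^(2m+1)`, no element of order 3 commutes with a non-trivial element of odd
order dividing `q + 1`.
-/

set_option autoImplicit false
set_option linter.unusedVariables false
set_option linter.unusedSectionVars false
set_option linter.style.haveILetI false

open Cfsg Cfsg.Lie Cfsg.Agent.H22 Cfsg.Agent.H22.GEx Cfsg.Agent.H22.Ree Cfsg.Agent.H45.R2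
  Cfsg.Agent.H7.RC Cfsg.Agent.H7.RT Matrix

namespace Cfsg.Agent.H67.RT

universe u

variable {K : Type u} [Field K] [Fintype K] [CharP K 3] {m : ℕ}

/-- an element of `²G₂` commuting with a non-trivial element of `U` lies in `B¹`. -/
theorem noThree_aux (C : Ctx K (3 ^ m)) (hK : Fintype.card K = 3 ^ (2 * m + 1))
    (hcan : CanonG2 K) (hW : WeylG2 K) (X Y : GL chevG2.Idx K) (hX : X ∈ twistedG2 K (3 ^ m))
    (hY : Y ∈ chevG2.posUnipotent K) (hY1 : Y ≠ 1) (hXY : Y * X = X * Y) :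
    X ∈ chevG2.borelSubgroup K ⊓ twistedG2 K (3 ^ m) := by
  rcases C.mem_decomp hK hcan hW X hX with h | ⟨b, hb, u, hu, hXe⟩
  · exact h
  · exfalso
    have h4 : b⁻¹ * Y * b⁻¹⁻¹ ∈ chevG2.posUnipotent K := C.B_conj_U _ _ (inv_mem hb.1) hY
    have h3 : u * Y * u⁻¹ ∈ chevG2.posUnipotent K := C.B_conj_U _ _ (U_le_B hu.1) hY
    have hYc : Y = X * Y * X⁻¹ := by rw [← hXY]; group
    have e1 : b⁻¹ * Y * b⁻¹⁻¹ = (C.n0 : GL chevG2.Idx K) * (u * Y * u⁻¹) *
        (C.n0 : GL chevG2.Idx K)⁻¹ := by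
      calc b⁻¹ * Y * b⁻¹⁻¹ = b⁻¹ * (X * Y * X⁻¹) * b⁻¹⁻¹ := by rw [← hYc]
        _ = (C.n0 : GL chevG2.Idx K) * (u * Y * u⁻¹) * (C.n0 : GL chevG2.Idx K)⁻¹ := by
          rw [hXe]; group
    have h5 := C.U_inf_conj hcan _ _ h4 h3 e1
    apply hY1
    have e2 : Y = b * (b⁻¹ * Y * b⁻¹⁻¹) * b⁻¹ := by group
    rw [e2, h5]; group

/-- arithmetic: an odd number dividing both `q³ (q - 1)` and `q + 1` is `1`. -/
theorem noThree_arith (q n : ℕ) (hq : 1 ≤ q) (hodd : Odd n) (h1 : n ∣ q ^ 3 * (q - 1))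
    (h2 : n ∣ q + 1) : n = 1 := by
  have hcop : Nat.Coprime n (q ^ 3) := by
    apply Nat.Coprime.pow_right
    have : Nat.Coprime (q + 1) q := by
      rw [Nat.coprime_comm]; exact (Nat.coprime_self_add_right).mpr (Nat.coprime_one_right q)
    exact Nat.Coprime.coprime_dvd_left h2 this
  have h3 : n ∣ q - 1 := hcop.dvd_of_dvd_mul_left h1
  have h4 : n ∣ 2 := by
    have : q + 1 - (q - 1) = 2 := by omega
    rw [← this]
    exact Nat.dvd_sub h2 h3
  have h5 : n ≤ 2 := Nat.le_of_dvd (by norm_num) h4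
  obtain ⟨k, hk⟩ := hodd
  omega

theorem noThree (C : Ctx K (3 ^ m)) (hK : Fintype.card K = 3 ^ (2 * m + 1)) (hcan : CanonG2 K)
    (hW : WeylG2 K) : StNoThree K m := by
  intro x y hx1 hxodd hxd hcomm hy3
  haveI : Fact (Nat.Prime 3) := ⟨Nat.prime_three⟩
  have hyp : IsPGroup 3 (Subgroup.zpowers y) := by
    apply IsPGroup.of_card (n := 1)
    rw [Nat.card_zpowers, hy3, pow_one]
  obtain ⟨P, hP⟩ := hyp.exists_le_sylow
  have hyP : y ∈ (P : Subgroup ↥(twistedG2 K (3 ^ m))) := hP (Subgroup.mem_zpowers y)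
  have hy1 : y ≠ 1 := by
    rintro rfl
    rw [orderOf_one] at hy3
    omega
  obtain ⟨P₀, hP₀⟩ := C.exists_sylow_eq_U1 hK hcan hW
  obtain ⟨g, rfl⟩ := MulAction.exists_smul_eq ↥(twistedG2 K (3 ^ m)) P₀ P
  have hy' : (g : GL chevG2.Idx K)⁻¹ * (y : GL chevG2.Idx K) * (g : GL chevG2.Idx K) ∈
      chevG2.posUnipotent K := by
    rw [Sylow.coe_subgroup_smul, Subgroup.mem_pointwise_smul_iff_inv_smul_mem, MulAut.smul_def,
      MulAut.conj_inv_apply, hP₀, mem_U1sub] at hyP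
    exact hyP
  have hy'1 : (g : GL chevG2.Idx K)⁻¹ * (y : GL chevG2.Idx K) * (g : GL chevG2.Idx K) ≠ 1 := by
    intro h
    apply hy1
    apply Subtype.ext
    have e : (y : GL chevG2.Idx K) = (g : GL chevG2.Idx K) *
        ((g : GL chevG2.Idx K)⁻¹ * (y : GL chevG2.Idx K) * (g : GL chevG2.Idx K)) *
        (g : GL chevG2.Idx K)⁻¹ := by group
    rw [e, h]; simp
  have hc : (y : GL chevG2.Idx K) * (x : GL chevG2.Idx K) =
      (x : GL chevG2.Idx K) * (y : GL chevG2.Idx K) := congrArg Subtype.val hcomm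
  have hx'mem : (g : GL chevG2.Idx K)⁻¹ * (x : GL chevG2.Idx K) * (g : GL chevG2.Idx K) ∈
      twistedG2 K (3 ^ m) := mul_mem (mul_mem (inv_mem g.2) x.2) g.2
  have hcomm' : (g : GL chevG2.Idx K)⁻¹ * (y : GL chevG2.Idx K) * (g : GL chevG2.Idx K) *
      ((g : GL chevG2.Idx K)⁻¹ * (x : GL chevG2.Idx K) * (g : GL chevG2.Idx K)) =
      (g : GL chevG2.Idx K)⁻¹ * (x : GL chevG2.Idx K) * (g : GL chevG2.Idx K) *
      ((g : GL chevG2.Idx K)⁻¹ * (y : GL chevG2.Idx K) * (g : GL chevG2.Idx K)) := by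
    calc (g : GL chevG2.Idx K)⁻¹ * (y : GL chevG2.Idx K) * (g : GL chevG2.Idx K) *
          ((g : GL chevG2.Idx K)⁻¹ * (x : GL chevG2.Idx K) * (g : GL chevG2.Idx K))
        = (g : GL chevG2.Idx K)⁻¹ * ((y : GL chevG2.Idx K) * (x : GL chevG2.Idx K)) *
          (g : GL chevG2.Idx K) := by group
      _ = (g : GL chevG2.Idx K)⁻¹ * ((x : GL chevG2.Idx K) * (y : GL chevG2.Idx K)) *
          (g : GL chevG2.Idx K) := by rw [hc]
      _ = _ := by group
  have hB := noThree_aux C hK hcan hW _ _ hx'mem hy' hy'1 hcomm'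
  -- order computation
  have hord1 : orderOf ((g : GL chevG2.Idx K)⁻¹ * (x : GL chevG2.Idx K) * (g : GL chevG2.Idx K)) =
      orderOf x := by
    rw [← Subgroup.orderOf_coe x]
    symm
    apply SemiconjBy.orderOf_eq (g : GL chevG2.Idx K)⁻¹
    unfold SemiconjBy
    group
  have hord2 : orderOf x ∣ Nat.card ↥(chevG2.borelSubgroup K ⊓ twistedG2 K (3 ^ m)) := by
    rw [← hord1, ← Subgroup.orderOf_mk _ hB]
    exact orderOf_dvd_natCard _
  rw [C.card_B1 hK hcan, C.card_eq, C.card_H1 hK, Nat.card_eq_fintype_card, hK] at hord2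
  have hq1 : 1 ≤ 3 ^ (2 * m + 1) := Nat.one_le_pow _ _ (by norm_num)
  have hone := noThree_arith (3 ^ (2 * m + 1)) (orderOf x) hq1 hxodd hord2 hxd
  exact hx1 (orderOf_eq_one_iff.mp hone)

example (C : Ctx K (3 ^ m)) (hK : Fintype.card K = 3 ^ (2 * m + 1)) (hcan : CanonG2 K)
    (hW : WeylG2 K) : StNoThree K m := noThree C hK hcan hW

end Cfsg.Agent.H67.RT
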