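import Mathlib
import Cfsg.Agent.H96.RoDefs

/-!
# RO-FIELD (helper67, for helper96's S2127)

An additive injective `f` with `f (κ t) = ψ κ · f t` for a multiplicative `ψ` comes from a field
automorphism.
-/

set_option autoImplicit false
set_option linter.unusedVariables false
set_option linter.unusedSectionVars false
set_option linter.style.haveILetI false

namespace Cfsg.Agent.H67.Ro

open Cfsg.Agent.H96.Ro

universe u

theorem field : StField.{u} := by
  intro K _ _ f ψ hadd hinj hψ hfψ
  have h1 : f 1 ≠ 0 := fun h => one_ne_zero (hinj 1 h)
  have h0 : f 0 = 0 := by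
    have h := hadd 0 0
    rw [add_zero] at h
    exact left_eq_add.mp h
  have hunit : ∀ κ : Kˣ, f (κ : K) = ((ψ κ : Kˣ) : K) * f 1 := by
    intro κ
    have h := hfψ κ 1
    rwa [mul_one] at h
  let σ₀ : K →+* K :=
    { toFun := fun t => f t / f 1
      map_one' := div_self h1
      map_mul' := by
        intro a b
        by_cases ha : a = 0
        · subst ha
          simp [h0]
        · have h := hfψ (Units.mk0 a ha) b
          have hu := hunit (Units.mk0 a ha)
          simp only [Units.val_mk0] at h hu
          show f (a * b) / f 1 = f a / f 1 * (f b / f 1)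
          rw [h, hu]
          field_simp
      map_zero' := by simp [h0]
      map_add' := by
        intro a b
        show f (a + b) / f 1 = f a / f 1 + f b / f 1
        rw [hadd, add_div] }
  have hbij : Function.Bijective σ₀ := by
    have hi : Function.Injective σ₀ := σ₀.injective
    exact ⟨hi, Finite.surjective_of_injective hi⟩
  refine ⟨RingEquiv.ofBijective σ₀ hbij, ?_, ?_⟩
  · intro κ
    show ((ψ κ : Kˣ) : K) = f (κ : K) / f 1
    rw [hunit κ]
    field_simp
  · intro t
    show f t = f t / f 1 * f 1
    field_simp

example : StField.{u} := field

end Cfsg.Agent.H67.Ro
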