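import Mathlib
import Cfsg.Agent.H96.RoDefs

/-!
# RO-TRIV2B (helper67, for helper96's S2127)

In the shape `γ (t, u, v) = (t, u, g2 t + f3 v)`: `f3 = id` and `g2 = 0`.
-/

set_option autoImplicit false
set_option linter.unusedVariables false
set_option linter.unusedSectionVars false
set_option linter.style.haveILetI false

namespace Cfsg.Agent.H67.Ro

open Cfsg.Agent.H96.Ro

universe u

theorem triv2B (ha : StArith.{u}) : StTriv2B.{u} := by
  intro K _ _ _ m hm hK γ hγ f3 g2 hshape hf3add hg2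
  obtain ⟨-, ⟨t₁, ht₁⟩, -, -, -, -, hfrob⟩ := ha K m hm hK
  have h3 : (3 : K) = 0 := by exact_mod_cast CharP.cast_eq_zero K 3
  have hf30 : f3 0 = 0 := by
    have h := hf3add 0 0
    rw [add_zero] at h
    exact left_eq_add.mp h
  have key : ∀ t u v t' u' v' s w : K, s = t + t' →
      w = v + v' - t' * u + t' ^ 3 ^ (m + 1) * t * t' - t' ^ 3 ^ (m + 1) * t ^ 2 →
      g2 s + f3 w = (g2 t + f3 v) + (g2 t' + f3 v') - t' * u + t' ^ 3 ^ (m + 1) * t * t' -
        t' ^ 3 ^ (m + 1) * t ^ 2 := by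
    intro t u v t' u' v' s w hs hw
    have h := hγ (t, u, v) (t', u', v')
    rw [hshape t u v, hshape t' u' v'] at h
    simp only [rm] at h
    rw [hshape] at h
    have h3' := congrArg (fun x : K × K × K => x.2.2) h
    dsimp only at h3'
    rw [hs, hw]
    exact h3'
  have hg20 : g2 0 = 0 := by
    have h := key 0 0 0 0 0 0 0 0 (by ring) (by ring)
    rw [hf30] at h
    linear_combination -h
  have hf3neg : ∀ t u : K, f3 (-(t * u)) = -(t * u) := by
    intro t u
    have h := key 0 u 0 t 0 0 t (-(t * u)) (by ring) (by ring)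
    rw [hf30, hg20] at h
    linear_combination h
  have hf3 : ∀ x : K, f3 x = x := by
    intro x
    have h := hf3neg (-1) x
    rw [show -(-1 * x) = x by ring] at h
    exact h
  have hg2add : ∀ t t' : K, g2 (t + t') = g2 t + g2 t' := by
    intro t t'
    have h := key t 0 0 t' 0 0 (t + t')
      (t' ^ 3 ^ (m + 1) * t * t' - t' ^ 3 ^ (m + 1) * t ^ 2) rfl (by ring)
    rw [hf3, hf30] at h
    linear_combination h
  refine ⟨hf3, ?_⟩
  by_contra hcon
  push Not at hcon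
  obtain ⟨t₀, ht₀⟩ := hcon
  have hodd : Odd (3 ^ (m + 1)) := Odd.pow (by decide)
  have hP : ∀ κ : K, (κ + 1) ^ (3 ^ (m + 1) + 2) = κ ^ (3 ^ (m + 1) + 2) + 1 := by
    intro κ
    by_cases h0 : κ = 0
    · subst h0
      simp
    by_cases h1 : κ + 1 = 0
    · have hk : κ = -1 := eq_neg_of_add_eq_zero_left h1
      subst hk
      have hodd2 : Odd (3 ^ (m + 1) + 2) := by
        obtain ⟨k, hk⟩ := hodd
        exact ⟨k + 1, by omega⟩
      rw [hodd2.neg_one_pow]
      simp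
    · have e1 := hg2 (κ + 1) h1 t₀
      have e2 := hg2 κ h0 t₀
      have e3 := hg2add (κ * t₀) t₀
      have e4 : (κ + 1) * t₀ = κ * t₀ + t₀ := by ring
      rw [e4, e3, e2] at e1
      have h5 : ((κ + 1) ^ (3 ^ (m + 1) + 2) - (κ ^ (3 ^ (m + 1) + 2) + 1)) * g2 t₀ = 0 := by
        linear_combination -e1
      rcases mul_eq_zero.mp h5 with h | h
      · exact sub_eq_zero.mp h
      · exact absurd h ht₀
  have hE : ∀ κ : K, 2 * (κ ^ 3 ^ (m + 1) * κ) + κ ^ 3 ^ (m + 1) + κ ^ 2 + 2 * κ = 0 := by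
    intro κ
    have h := hP κ
    have ea : (κ + 1) ^ (3 ^ (m + 1) + 2) = (κ ^ 3 ^ (m + 1) + 1) * (κ + 1) ^ 2 := by
      rw [pow_add (κ + 1) (3 ^ (m + 1)) 2, hfrob κ 1, one_pow]
    have eb : κ ^ (3 ^ (m + 1) + 2) = κ ^ 3 ^ (m + 1) * κ ^ 2 := pow_add κ _ 2
    rw [ea, eb] at h
    linear_combination h
  have hall : ∀ κ : K, κ ^ 3 ^ (m + 1) = κ := by
    intro κ
    have h1 := hE κ
    have h2 := hE (-κ)
    rw [hodd.neg_pow] at h2
    linear_combination 2 * h1 - 2 * h2 - (κ ^ 3 ^ (m + 1) + 3 * κ) * h3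
  exact ht₁ (hall t₁)

example (ha : StArith.{u}) : StTriv2B.{u} := triv2B ha

end Cfsg.Agent.H67.Ro
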