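import Cfsg.Agent.H45.S8Defs1

/-!
# S8-AINV and S8-H1 (helper67, for helper45's S1158)

`a = h(-1,-1)` is an involution of `H¹`; `H¹` is cyclic of order `q - 1` and fixes the point `B¹`.
-/

set_option autoImplicit false
set_option synthInstance.maxHeartbeats 400000
set_option linter.unusedVariables false
set_option linter.unusedSectionVars false
set_option linter.style.haveILetI false

open Cfsg Cfsg.Lie Cfsg.Agent.H22 Cfsg.Agent.H22.GEx Cfsg.Agent.H22.Ree Cfsg.Agent.H7.RT
  Cfsg.Agent.H45.S8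

namespace Cfsg.Agent.H67.S8

universe u

theorem aInv {K : Type u} [Field K] [CharP K 3] {e : ℕ} (C : Ctx K e) : StAInv C :=
  ⟨aEl_ne_one C, aEl_mul_self C, aEl_mem_H C⟩

example {K : Type u} [Field K] [CharP K 3] {e : ℕ} (C : Ctx K e) : StAInv C := aInv C

variable {K : Type u} [Field K] [Fintype K] [CharP K 3] {m : ℕ}

theorem h1 (C : Ctx K (3 ^ m)) (hK : Fintype.card K = 3 ^ (2 * m + 1)) : StH1 K m := by
  refine ⟨?_, ?_, ?_⟩
  · haveI : IsCyclic ↥(chevG2.diagonalSubgroup K ⊓ twistedG2 K (3 ^ m)) := C.H1_cyclic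
    unfold H1G
    exact isCyclic_of_surjective (Subgroup.subgroupOfEquivOfLe
      (inf_le_right : chevG2.diagonalSubgroup K ⊓ twistedG2 K (3 ^ m) ≤ twistedG2 K (3 ^ m))).symm
      (MulEquiv.surjective _)
  · unfold H1G qq
    rw [Nat.card_congr (Subgroup.subgroupOfEquivOfLe inf_le_right).toEquiv, C.card_H1 hK]
  · intro h hh
    rw [mem_H1G] at hh
    show (QuotientGroup.mk (h * 1) : Om K (3 ^ m)) = QuotientGroup.mk 1
    rw [mk_eq_iff, mul_one, OneMemClass.coe_one, mul_one]
    exact inv_mem (H_le_B hh)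

example (C : Ctx K (3 ^ m)) (hK : Fintype.card K = 3 ^ (2 * m + 1)) : StH1 K m := h1 C hK

end Cfsg.Agent.H67.S8
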