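import Cfsg.Agent.H45.S8Defs1
import Cfsg.Agent.H67.RTNoThree

/-!
# S8-OMU and S8-OM3FIX (helper67, for helper45's S1158)

A non-trivial element of `U¹` fixes only the point `B¹` of `Ω = ²G₂ / B¹`; an element commuting
with an element of order 3 fixes a point.
-/

set_option autoImplicit false
set_option synthInstance.maxHeartbeats 400000
set_option linter.unusedVariables false
set_option linter.unusedSectionVars false
set_option linter.style.haveILetI false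

open Cfsg Cfsg.Lie Cfsg.Agent.H22 Cfsg.Agent.H22.GEx Cfsg.Agent.H22.Ree Cfsg.Agent.H7.RT
  Cfsg.Agent.H45.S8

namespace Cfsg.Agent.H67.S8

universe u

variable {K : Type u} [Field K] [Fintype K] [CharP K 3] {m : ℕ}

theorem omU (C : Ctx K (3 ^ m)) (hK : Fintype.card K = 3 ^ (2 * m + 1)) (hcan : CanonG2 K)
    (hW : WeylG2 K) : StOmU K (3 ^ m) := by
  intro u hu hu1 x hx
  rw [mem_U1sub] at hu
  rcases C.coset_cases hK hcan hW x with h | ⟨v, hv, rfl⟩
  · exact h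
  · exfalso
    have h1 : (QuotientGroup.mk (u * (v * C.n0G)) : Om K (3 ^ m)) =
        QuotientGroup.mk (v * C.n0G) := hx
    rw [mk_eq_iff] at h1
    have h2 : (C.n0 : GL chevG2.Idx K)⁻¹ *
        ((v : GL chevG2.Idx K)⁻¹ * (u : GL chevG2.Idx K)⁻¹ * (v : GL chevG2.Idx K)) *
        (C.n0 : GL chevG2.Idx K) ∈ chevG2.borelSubgroup K := by
      have e : (C.n0 : GL chevG2.Idx K)⁻¹ *
          ((v : GL chevG2.Idx K)⁻¹ * (u : GL chevG2.Idx K)⁻¹ * (v : GL chevG2.Idx K)) *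
          (C.n0 : GL chevG2.Idx K) =
          ((u * (v * C.n0G) : ↥(twistedG2 K (3 ^ m))) : GL chevG2.Idx K)⁻¹ *
            ((v * C.n0G : ↥(twistedG2 K (3 ^ m))) : GL chevG2.Idx K) := by
        simp only [Subgroup.coe_mul, C.n0G_coe]; group
      rw [e]; exact h1
    have hw : (v : GL chevG2.Idx K)⁻¹ * (u : GL chevG2.Idx K)⁻¹ * (v : GL chevG2.Idx K) ∈
        chevG2.posUnipotent K := mul_mem (mul_mem (inv_mem hv) (inv_mem hu)) hv
    have h3 := C.mem_H_of_conj hcan _ (U_le_B hw) h2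
    have h4 := C.U_inf_H hcan _ hw h3
    apply hu1
    apply Subtype.ext
    have e : (u : GL chevG2.Idx K) = (v : GL chevG2.Idx K) *
        ((v : GL chevG2.Idx K)⁻¹ * (u : GL chevG2.Idx K)⁻¹ * (v : GL chevG2.Idx K))⁻¹ *
        (v : GL chevG2.Idx K)⁻¹ := by group
    rw [e, h4]; simp

example (C : Ctx K (3 ^ m)) (hK : Fintype.card K = 3 ^ (2 * m + 1)) (hcan : CanonG2 K)
    (hW : WeylG2 K) : StOmU K (3 ^ m) := omU C hK hcan hW

theorem om3Fix (C : Ctx K (3 ^ m)) (hK : Fintype.card K = 3 ^ (2 * m + 1)) (hcan : CanonG2 K)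
    (hW : WeylG2 K) : StOmThreeFix K (3 ^ m) := by
  intro z g hz hcomm
  haveI : Fact (Nat.Prime 3) := ⟨Nat.prime_three⟩
  have hzp : IsPGroup 3 (Subgroup.zpowers z) := by
    apply IsPGroup.of_card (n := 1)
    rw [Nat.card_zpowers, hz, pow_one]
  obtain ⟨P, hP⟩ := hzp.exists_le_sylow
  have hzP : z ∈ (P : Subgroup ↥(twistedG2 K (3 ^ m))) := hP (Subgroup.mem_zpowers z)
  have hz1 : z ≠ 1 := by
    rintro rfl
    rw [orderOf_one] at hz
    omega
  obtain ⟨P₀, hP₀⟩ := C.exists_sylow_eq_U1 hK hcan hW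
  obtain ⟨c, rfl⟩ := MulAction.exists_smul_eq ↥(twistedG2 K (3 ^ m)) P₀ P
  have hz' : (c : GL chevG2.Idx K)⁻¹ * (z : GL chevG2.Idx K) * (c : GL chevG2.Idx K) ∈
      chevG2.posUnipotent K := by
    rw [Sylow.coe_subgroup_smul, Subgroup.mem_pointwise_smul_iff_inv_smul_mem, MulAut.smul_def,
      MulAut.conj_inv_apply, hP₀, mem_U1sub] at hzP
    exact hzP
  have hz'1 : (c : GL chevG2.Idx K)⁻¹ * (z : GL chevG2.Idx K) * (c : GL chevG2.Idx K) ≠ 1 := by
    intro h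
    apply hz1
    apply Subtype.ext
    have e : (z : GL chevG2.Idx K) = (c : GL chevG2.Idx K) *
        ((c : GL chevG2.Idx K)⁻¹ * (z : GL chevG2.Idx K) * (c : GL chevG2.Idx K)) *
        (c : GL chevG2.Idx K)⁻¹ := by group
    rw [e, h]; simp
  have hc : (g : GL chevG2.Idx K) * (z : GL chevG2.Idx K) =
      (z : GL chevG2.Idx K) * (g : GL chevG2.Idx K) := congrArg Subtype.val hcomm
  have hg'mem : (c : GL chevG2.Idx K)⁻¹ * (g : GL chevG2.Idx K) * (c : GL chevG2.Idx K) ∈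
      twistedG2 K (3 ^ m) := mul_mem (mul_mem (inv_mem c.2) g.2) c.2
  have hcomm' : (c : GL chevG2.Idx K)⁻¹ * (z : GL chevG2.Idx K) * (c : GL chevG2.Idx K) *
      ((c : GL chevG2.Idx K)⁻¹ * (g : GL chevG2.Idx K) * (c : GL chevG2.Idx K)) =
      (c : GL chevG2.Idx K)⁻¹ * (g : GL chevG2.Idx K) * (c : GL chevG2.Idx K) *
      ((c : GL chevG2.Idx K)⁻¹ * (z : GL chevG2.Idx K) * (c : GL chevG2.Idx K)) := by
    calc (c : GL chevG2.Idx K)⁻¹ * (z : GL chevG2.Idx K) * (c : GL chevG2.Idx K) *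
          ((c : GL chevG2.Idx K)⁻¹ * (g : GL chevG2.Idx K) * (c : GL chevG2.Idx K))
        = (c : GL chevG2.Idx K)⁻¹ * ((z : GL chevG2.Idx K) * (g : GL chevG2.Idx K)) *
          (c : GL chevG2.Idx K) := by group
      _ = (c : GL chevG2.Idx K)⁻¹ * ((g : GL chevG2.Idx K) * (z : GL chevG2.Idx K)) *
          (c : GL chevG2.Idx K) := by rw [hc]
      _ = _ := by group
  have hB := Cfsg.Agent.H67.RT.noThree_aux C hK hcan hW _ _ hg'mem hz' hz'1 hcomm'
  refine ⟨QuotientGroup.mk c, ?_⟩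
  show (QuotientGroup.mk (g * c) : Om K (3 ^ m)) = QuotientGroup.mk c
  rw [mk_eq_iff]
  have e : ((g * c : ↥(twistedG2 K (3 ^ m))) : GL chevG2.Idx K)⁻¹ * (c : GL chevG2.Idx K) =
      ((c : GL chevG2.Idx K)⁻¹ * (g : GL chevG2.Idx K) * (c : GL chevG2.Idx K))⁻¹ := by
    simp only [Subgroup.coe_mul]; group
  rw [e]; exact inv_mem hB.1

example (C : Ctx K (3 ^ m)) (hK : Fintype.card K = 3 ^ (2 * m + 1)) (hcan : CanonG2 K)
    (hW : WeylG2 K) : StOmThreeFix K (3 ^ m) := om3Fix C hK hcan hW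

end Cfsg.Agent.H67.S8
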