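import Mathlib

set_option autoImplicit false

namespace Cfsg.Agent.H67.Ten

theorem two_pow_mul_odd_val {n : ℕ} (hn : n ≠ 0) :
    ∃ m : ℕ, Odd m ∧ n = 2 ^ padicValNat 2 n * m := by
  obtain ⟨k, m, hm, hnk⟩ := Nat.exists_eq_two_pow_mul_odd hn
  have hm0 : m ≠ 0 := fun h => by simp [h] at hm
  have hv : padicValNat 2 n = k := by
    rw [hnk, padicValNat.mul (by positivity) hm0, padicValNat.prime_pow,
      padicValNat.eq_zero_of_not_dvd (fun h => (Nat.not_even_iff_odd.mpr hm)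
        (even_iff_two_dvd.mpr h)), add_zero]
  exact ⟨m, hm, by rw [hv]; exact hnk⟩

theorem exists_root_of_unity {F : Type*} [Field F] [Fintype F] (r : ℕ) (hr : r.Prime)
    (hrF : (r : F) ≠ 0) (hc : orderOf (Fintype.card F : ZMod r) = 1) :
    ∃ ζ : F, ζ ^ r = 1 ∧ ζ ≠ 1 := by
  classical
  have h1 : (Fintype.card F : ZMod r) = 1 := orderOf_eq_one_iff.mp hc
  have hq : 1 ≤ Fintype.card F := Fintype.card_pos
  have h2 : r ∣ Fintype.card F - 1 := by
    have : ((Fintype.card F - 1 : ℕ) : ZMod r) = 0 := by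
      rw [Nat.cast_sub hq, h1]; simp
    exact (ZMod.natCast_eq_zero_iff _ _).mp this
  haveI := Fact.mk hr
  obtain ⟨u, hu⟩ := exists_prime_orderOf_dvd_card' (G := Fˣ) r
    (by rw [Nat.card_eq_fintype_card, Fintype.card_units]; exact h2)
  refine ⟨(u : F), ?_, ?_⟩
  · have : u ^ r = 1 := by rw [← hu]; exact pow_orderOf_eq_one u
    rw [← Units.val_pow_eq_pow_val, this, Units.val_one]
  · intro h
    have : u = 1 := Units.ext (by simpa using h)
    rw [this, orderOf_one] at hu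
    exact hr.one_lt.ne hu

theorem exists_pow_eq_neg_one {F : Type*} [Field F] [Fintype F] (n : ℕ) (hn : 0 < n)
    (hq : Odd (Fintype.card F))
    (h : padicValNat 2 n < padicValNat 2 (Fintype.card F - 1)) : ∃ l : F, l ^ n = -1 := by
  classical
  set m := Fintype.card F - 1 with hm
  have hm0 : m ≠ 0 := by
    intro h0
    rw [h0] at h
    simp at h
  obtain ⟨ω, hω⟩ := IsCyclic.exists_generator (α := Fˣ)
  have hord : orderOf ω = m := by
    rw [orderOf_eq_card_of_forall_mem_zpowers hω, Nat.card_eq_fintype_card, Fintype.card_units]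
  obtain ⟨n', hn'odd, hnn'⟩ := two_pow_mul_odd_val hn.ne'
  set a := padicValNat 2 n with ha
  have hdvd : 2 ^ (a + 1) ∣ m := (padicValNat_dvd_iff_le hm0).mpr h
  obtain ⟨t, ht⟩ := hdvd
  have hm2 : m = 2 * (2 ^ a * t) := by rw [ht]; ring
  -- ω ^ (m / 2) = -1
  have hneg : ((ω ^ (2 ^ a * t) : Fˣ) : F) = -1 := by
    have hsq : ((ω ^ (2 ^ a * t) : Fˣ) : F) * ((ω ^ (2 ^ a * t) : Fˣ) : F) = 1 := by
      rw [← Units.val_mul, ← pow_add, ← two_mul, ← hm2, ← hord, pow_orderOf_eq_one, Units.val_one]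
    have hne : ((ω ^ (2 ^ a * t) : Fˣ) : F) ≠ 1 := by
      intro h1
      have h1' : ω ^ (2 ^ a * t) = 1 := Units.ext (by simpa using h1)
      have hpos : 0 < 2 ^ a * t := by
        rcases Nat.eq_zero_or_pos (2 ^ a * t) with h0 | h0
        · rw [h0] at hm2; simp at hm2; exact absurd hm2 hm0
        · exact h0
      have hlt : 2 ^ a * t < orderOf ω := by rw [hord, hm2]; omega
      exact pow_ne_one_of_lt_orderOf hpos.ne' hlt h1'
    rcases mul_self_eq_one_iff.mp hsq with h1 | h1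
    · exact absurd h1 hne
    · exact h1
  refine ⟨((ω ^ t : Fˣ) : F), ?_⟩
  have e1 : ((ω ^ t : Fˣ) : F) ^ n = (((ω ^ (2 ^ a * t) : Fˣ) : F)) ^ n' := by
    rw [← Units.val_pow_eq_pow_val, ← Units.val_pow_eq_pow_val, ← pow_mul, ← pow_mul]
    congr 2
    rw [hnn']; ring
  rw [e1, hneg]
  exact hn'odd.neg_one_pow

theorem pow_eq_one_of_pow_two_mul {F : Type*} [Field F] [Fintype F] (n : ℕ) (hn : 0 < n)
    (hq : Odd (Fintype.card F))
    (h : padicValNat 2 (Fintype.card F - 1) ≤ padicValNat 2 n) (l : F) (hl : l ^ (2 * n) = 1) :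
    l ^ n = 1 := by
  classical
  have hl0 : l ≠ 0 := by
    rintro rfl
    rw [zero_pow (by omega)] at hl
    exact zero_ne_one hl
  have h1 : l ^ (Fintype.card F - 1) = 1 := FiniteField.pow_card_sub_one_eq_one l hl0
  have hq1 : Fintype.card F - 1 ≠ 0 := by
    have := Fintype.one_lt_card (α := F)
    omega
  obtain ⟨m', hm'odd, hqm⟩ := two_pow_mul_odd_val hq1
  set k := padicValNat 2 (Fintype.card F - 1) with hk
  obtain ⟨s, hs⟩ : 2 ^ k ∣ n := (padicValNat_dvd_iff_le hn.ne').mpr h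
  obtain ⟨c, hc⟩ := hm'odd
  have e1 : (l ^ n) ^ m' = l ^ n := by
    rw [hc, pow_succ, pow_mul, ← pow_mul l n 2, mul_comm n 2, hl, one_pow, one_mul]
  have e2 : (l ^ n) ^ m' = 1 := by
    rw [← pow_mul, hs, show 2 ^ k * s * m' = (2 ^ k * m') * s by ring, ← hqm, pow_mul, h1,
      one_pow]
  rw [← e1, e2]

end Cfsg.Agent.H67.Ten
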