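import Mathlib
import Cfsg.Agent.H74.W2PDefs

set_option autoImplicit false
set_option linter.unusedSectionVars false

/-!
# S0720 (Wielandt, degree `2p`): basic facts on the two `x`-cycles (helper67)
-/

namespace Cfsg.Agent.H67.W2P

open Cfsg.Agent.H74.W2P Equiv MulAction

variable {Ω : Type*} [Fintype Ω] [DecidableEq Ω]

/-- a power of `x` with a fixed point is trivial -/
theorem pow_fix_dvd {G : Subgroup (Perm Ω)} {p : ℕ} {x : Perm Ω} (hyp : Hyp G p x) (ω : Ω)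
    (k : ℕ) (hk : (x ^ k) ω = ω) : p ∣ k := by
  by_contra hnd
  have hcop : Nat.Coprime k p :=
    Nat.Coprime.symm ((Nat.Prime.coprime_iff_not_dvd hyp.hp).2 hnd)
  obtain ⟨m, -, hm⟩ := Nat.exists_mul_mod_eq_one_of_coprime hcop hyp.hp.one_lt
  have h1 : ((x ^ k) ^ m) ω = ω := Equiv.Perm.pow_apply_eq_self_of_apply_eq_self hk m
  have h2 : (x ^ k) ^ m = x := by
    rw [← pow_mul, ← pow_mod_orderOf, hyp.hxord, hm, pow_one]
  rw [h2] at h1
  exact hyp.hxfix ω h1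

theorem pow_p {G : Subgroup (Perm Ω)} {p : ℕ} {x : Perm Ω} (hyp : Hyp G p x) : x ^ p = 1 := by
  rw [← hyp.hxord]; exact pow_orderOf_eq_one x

/-- the `p` points `x ^ k ω`, `k < p`, are distinct -/
theorem pow_injOn {G : Subgroup (Perm Ω)} {p : ℕ} {x : Perm Ω} (hyp : Hyp G p x) (ω : Ω) :
    Set.InjOn (fun k : ℕ => (x ^ k) ω) (Finset.range p : Set ℕ) := by
  have key : ∀ k l : ℕ, k ≤ l → l < p → (x ^ k) ω = (x ^ l) ω → k = l := by
    intro k l hkl hl h
    have h1 : (x ^ l) ω = (x ^ k) ((x ^ (l - k)) ω) := by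
      rw [← Equiv.Perm.mul_apply, ← pow_add, Nat.add_sub_cancel' hkl]
    rw [h1] at h
    have h2 : (x ^ (l - k)) ω = ω := ((x ^ k).injective h).symm
    have h3 := pow_fix_dvd hyp ω (l - k) h2
    have h4 : l - k = 0 := Nat.eq_zero_of_dvd_of_lt h3 (by omega)
    omega
  intro k hk l hl hkl
  simp only [Finset.coe_range, Set.mem_Iio] at hk hl
  rcases le_total k l with h | h
  · exact key k l h hl hkl
  · exact (key l k h hk hkl.symm).symm

theorem sameCycle_iff {G : Subgroup (Perm Ω)} {p : ℕ} {x : Perm Ω} (hyp : Hyp G p x) (a ω : Ω) :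
    x.SameCycle a ω ↔ ∃ k ∈ Finset.range p, (x ^ k) a = ω := by
  constructor
  · intro h
    obtain ⟨i, hi, hi2⟩ := h.exists_pow_eq'
    rw [hyp.hxord] at hi
    exact ⟨i, Finset.mem_range.2 hi, hi2⟩
  · rintro ⟨k, -, rfl⟩
    exact Equiv.Perm.sameCycle_pow_right.2 (Equiv.Perm.SameCycle.refl x a)

/-- `Ω` is the disjoint union of the `x`-cycles of `a₀` and `b₀` -/
theorem cover {G : Subgroup (Perm Ω)} {p : ℕ} {x : Perm Ω} (hyp : Hyp G p x) (a₀ b₀ : Ω)
    (hb₀ : ¬ x.SameCycle a₀ b₀) :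
    (Finset.univ : Finset Ω) =
      (Finset.range p).image (fun k : ℕ => (x ^ k) a₀) ∪
        (Finset.range p).image (fun k : ℕ => (x ^ k) b₀) ∧
    Disjoint ((Finset.range p).image (fun k : ℕ => (x ^ k) a₀))
      ((Finset.range p).image (fun k : ℕ => (x ^ k) b₀)) := by
  have hdisj : Disjoint ((Finset.range p).image (fun k : ℕ => (x ^ k) a₀))
      ((Finset.range p).image (fun k : ℕ => (x ^ k) b₀)) := by
    rw [Finset.disjoint_left]
    intro ω h1 h2
    rw [Finset.mem_image] at h1 h2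
    have s1 : x.SameCycle a₀ ω := (sameCycle_iff hyp a₀ ω).2 h1
    have s2 : x.SameCycle b₀ ω := (sameCycle_iff hyp b₀ ω).2 h2
    exact hb₀ (s1.trans s2.symm)
  refine ⟨?_, hdisj⟩
  symm
  apply Finset.eq_univ_of_card
  rw [Finset.card_union_of_disjoint hdisj, Finset.card_image_of_injOn (pow_injOn hyp a₀),
    Finset.card_image_of_injOn (pow_injOn hyp b₀), Finset.card_range, hyp.hcard]
  ring

/-- every point is in the cycle of `a₀` or of `b₀` -/
theorem cover_cases {G : Subgroup (Perm Ω)} {p : ℕ} {x : Perm Ω} (hyp : Hyp G p x) (a₀ b₀ : Ω)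
    (hb₀ : ¬ x.SameCycle a₀ b₀) (ω : Ω) :
    (∃ k ∈ Finset.range p, (x ^ k) a₀ = ω) ∨ (∃ k ∈ Finset.range p, (x ^ k) b₀ = ω) := by
  have h := (cover hyp a₀ b₀ hb₀).1
  have hω : ω ∈ (Finset.univ : Finset Ω) := Finset.mem_univ ω
  rw [h, Finset.mem_union, Finset.mem_image, Finset.mem_image] at hω
  exact hω

/-- a sum over `Ω` split along the two cycles -/
theorem sum_split {G : Subgroup (Perm Ω)} {p : ℕ} {x : Perm Ω} (hyp : Hyp G p x) (a₀ b₀ : Ω)
    (hb₀ : ¬ x.SameCycle a₀ b₀) {M : Type*} [AddCommMonoid M] (F : Ω → M) :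
    ∑ j, F j = ∑ z ∈ Finset.range p, F ((x ^ z) a₀) + ∑ z ∈ Finset.range p, F ((x ^ z) b₀) := by
  obtain ⟨h1, h2⟩ := cover hyp a₀ b₀ hb₀
  rw [h1, Finset.sum_union h2, Finset.sum_image (pow_injOn hyp a₀),
    Finset.sum_image (pow_injOn hyp b₀)]

/-- a point outside the cycle of `a₀` -/
theorem exists_b0 {G : Subgroup (Perm Ω)} {p : ℕ} {x : Perm Ω} (hyp : Hyp G p x) (a₀ : Ω) :
    ∃ b₀ : Ω, ¬ x.SameCycle a₀ b₀ := by
  by_contra hcon
  have hall : ∀ ω : Ω, ω ∈ (Finset.range p).image (fun k : ℕ => (x ^ k) a₀) := by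
    intro ω
    rw [Finset.mem_image]
    apply (sameCycle_iff hyp a₀ ω).1
    by_contra h
    exact hcon ⟨ω, h⟩
  have h1 : (Finset.univ : Finset Ω) ⊆ (Finset.range p).image (fun k : ℕ => (x ^ k) a₀) :=
    fun ω _ => hall ω
  have h2 := Finset.card_le_card h1
  rw [Finset.card_univ, hyp.hcard] at h2
  have h3 := Finset.card_image_le (s := Finset.range p) (f := fun k : ℕ => (x ^ k) a₀)
  rw [Finset.card_range] at h3
  have := hyp.hp.pos
  omega

theorem sig_a {x : Perm Ω} (a₀ : Ω) (z : ℕ) :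
    sig x a₀ ((x ^ z) a₀) = 1 := by
  unfold sig
  rw [if_pos (Equiv.Perm.sameCycle_pow_right.2 (Equiv.Perm.SameCycle.refl x a₀))]

theorem sig_b {x : Perm Ω} (a₀ b₀ : Ω) (hb₀ : ¬ x.SameCycle a₀ b₀) (z : ℕ) :
    sig x a₀ ((x ^ z) b₀) = -1 := by
  unfold sig
  rw [if_neg (fun h => hb₀ (Equiv.Perm.sameCycle_pow_right.1 h))]

theorem zeta_prim {p : ℕ} (hp : p ≠ 0) : IsPrimitiveRoot (zeta p) p :=
  Complex.isPrimitiveRoot_exp p hp

end Cfsg.Agent.H67.W2P
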