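import Mathlib
import Cfsg.Agent.H74.W2PDefs
import Cfsg.Agent.H67.W2PBase

set_option autoImplicit false
set_option linter.unusedSectionVars false
set_option linter.style.haveILetI false

/-!
# S0720-LA2 (helper67): Galois uniformity of `dim (U0 ⊓ Vh h)`, `h ≠ 0`
-/

namespace Cfsg.Agent.H67.W2P

open Cfsg.Agent.H74.W2P Equiv MulAction

variable {Ω : Type*} [Fintype Ω] [DecidableEq Ω]

/-- Galois transfer between primitive roots of unity for integer polynomials -/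
theorem aeval_prim_transfer {n : ℕ} (hn : 0 < n) {μ μ' : ℂ} (hμ : IsPrimitiveRoot μ n)
    (hμ' : IsPrimitiveRoot μ' n) (R : Polynomial ℤ) (h : Polynomial.aeval μ R = 0) :
    Polynomial.aeval μ' R = 0 := by
  have h1 : minpoly ℤ μ ∣ R := minpoly.isIntegrallyClosed_dvd (hμ.isIntegral hn) h
  rw [← Polynomial.cyclotomic_eq_minpoly hμ hn] at h1
  obtain ⟨S, rfl⟩ := h1
  have h2 : Polynomial.aeval μ' (Polynomial.cyclotomic n ℤ) = 0 := by
    rw [Polynomial.aeval_def, Polynomial.eval₂_eq_eval_map, Polynomial.map_cyclotomic]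
    exact hμ'.isRoot_cyclotomic hn
  rw [map_mul, h2, zero_mul]

section rank

variable {K : Type*} [Field K] {ι : Type*}

theorem finrank_span_zero (w : ι → K × K) (h : ∀ i, w i = 0) :
    Module.finrank K (Submodule.span K (Set.range w)) = 0 := by
  have : Submodule.span K (Set.range w) = ⊥ := by
    rw [Submodule.span_eq_bot]
    rintro _ ⟨i, rfl⟩
    exact h i
  rw [this]
  exact finrank_bot K (K × K)

theorem finrank_span_one (w : ι → K × K) (i₀ : ι) (h0 : w i₀ ≠ 0)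
    (hd : ∀ i j, (w i).1 * (w j).2 - (w i).2 * (w j).1 = 0) :
    Module.finrank K (Submodule.span K (Set.range w)) = 1 := by
  have : Submodule.span K (Set.range w) = Submodule.span K {w i₀} := by
    apply le_antisymm
    · rw [Submodule.span_le]
      rintro _ ⟨j, rfl⟩
      rw [SetLike.mem_coe, Submodule.mem_span_singleton]
      have hj := hd i₀ j
      by_cases h1 : (w i₀).1 = 0
      · have h2 : (w i₀).2 ≠ 0 := by
          intro h2
          exact h0 (Prod.ext h1 h2)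
        refine ⟨(w j).2 / (w i₀).2, ?_⟩
        rw [h1] at hj
        have hj1 : (w j).1 = 0 := by
          have : (w i₀).2 * (w j).1 = 0 := by linear_combination -hj
          rcases mul_eq_zero.1 this with h | h
          · exact absurd h h2
          · exact h
        apply Prod.ext
        · simp [h1, hj1]
        · simp only [Prod.smul_snd, smul_eq_mul]
          field_simp
      · refine ⟨(w j).1 / (w i₀).1, ?_⟩
        apply Prod.ext
        · simp only [Prod.smul_fst, smul_eq_mul]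
          field_simp
        · simp only [Prod.smul_snd, smul_eq_mul]
          field_simp
          linear_combination -hj
    · apply Submodule.span_mono
      rintro _ rfl
      exact ⟨i₀, rfl⟩
  rw [this]
  exact finrank_span_singleton h0

theorem finrank_span_two (w : ι → K × K) (i j : ι)
    (hd : (w i).1 * (w j).2 - (w i).2 * (w j).1 ≠ 0) :
    Module.finrank K (Submodule.span K (Set.range w)) = 2 := by
  have : Submodule.span K (Set.range w) = ⊤ := by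
    rw [eq_top_iff]
    rintro ⟨a, b⟩ -
    have hi : w i ∈ Submodule.span K (Set.range w) := Submodule.subset_span ⟨i, rfl⟩
    have hj : w j ∈ Submodule.span K (Set.range w) := Submodule.subset_span ⟨j, rfl⟩
    have e : (a, b) =
        ((a * (w j).2 - b * (w j).1) / ((w i).1 * (w j).2 - (w i).2 * (w j).1)) • w i +
        ((b * (w i).1 - a * (w i).2) / ((w i).1 * (w j).2 - (w i).2 * (w j).1)) • w j := by
      apply Prod.ext
      · simp only [Prod.fst_add, Prod.smul_fst, smul_eq_mul]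
        rw [div_mul_eq_mul_div, div_mul_eq_mul_div, ← add_div, eq_div_iff hd]
        ring
      · simp only [Prod.snd_add, Prod.smul_snd, smul_eq_mul]
        rw [div_mul_eq_mul_div, div_mul_eq_mul_div, ← add_div, eq_div_iff hd]
        ring
    rw [e]
    exact Submodule.add_mem _ (Submodule.smul_mem _ _ hi) (Submodule.smul_mem _ _ hj)
  rw [this, finrank_top, Module.finrank_prod, Module.finrank_self]

theorem finrank_span_congr (w w' : ι → K × K)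
    (hz : (∀ i, w i = 0) ↔ (∀ i, w' i = 0))
    (hd : (∀ i j, (w i).1 * (w j).2 - (w i).2 * (w j).1 = 0) ↔
      (∀ i j, (w' i).1 * (w' j).2 - (w' i).2 * (w' j).1 = 0)) :
    Module.finrank K (Submodule.span K (Set.range w)) =
      Module.finrank K (Submodule.span K (Set.range w')) := by
  by_cases h0 : ∀ i, w i = 0
  · rw [finrank_span_zero w h0, finrank_span_zero w' (hz.1 h0)]
  · have h0' : ¬ ∀ i, w' i = 0 := fun h => h0 (hz.2 h)
    by_cases h1 : ∀ i j, (w i).1 * (w j).2 - (w i).2 * (w j).1 = 0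
    · obtain ⟨i, hi⟩ := not_forall.1 h0
      obtain ⟨i', hi'⟩ := not_forall.1 h0'
      rw [finrank_span_one w i hi h1, finrank_span_one w' i' hi' (hd.1 h1)]
    · have h1' : ¬ ∀ i j, (w' i).1 * (w' j).2 - (w' i).2 * (w' j).1 = 0 :=
        fun h => h1 (hd.2 h)
      obtain ⟨i, hi⟩ := not_forall.1 h1
      obtain ⟨j, hj⟩ := not_forall.1 hi
      obtain ⟨i', hi'⟩ := not_forall.1 h1'
      obtain ⟨j', hj'⟩ := not_forall.1 hi'
      rw [finrank_span_two w i j hj, finrank_span_two w' i' j' hj']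

end rank

theorem mem_Vh {x : Perm Ω} {p : ℕ} {h : ZMod p} {f : Ω → ℂ} :
    f ∈ Vh x p h ↔ ∀ ω, f (x ω) = zeta p ^ h.val * f ω := Iff.rfl

theorem Vh_pow {x : Perm Ω} {p : ℕ} {h : ZMod p} {f : Ω → ℂ} (hf : f ∈ Vh x p h) (k : ℕ)
    (ω : Ω) : f ((x ^ k) ω) = (zeta p ^ h.val) ^ k * f ω := by
  induction k with
  | zero => simp
  | succ k ih =>
    rw [pow_succ', Equiv.Perm.mul_apply, mem_Vh.1 hf, ih, pow_succ]
    ring

/-- `p` times the projection onto the `μ⁻¹`-eigenspace of `f ↦ f ∘ x` -/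
noncomputable def Pmu (x : Perm Ω) (p : ℕ) (μ : ℂ) : (Ω → ℂ) →ₗ[ℂ] (Ω → ℂ) where
  toFun f := fun ω => ∑ k ∈ Finset.range p, μ ^ k * f ((x ^ k) ω)
  map_add' f g := by
    funext ω
    simp only [Pi.add_apply, mul_add, Finset.sum_add_distrib]
  map_smul' c f := by
    funext ω
    simp only [Pi.smul_apply, smul_eq_mul, RingHom.id_apply, Finset.mul_sum]
    refine Finset.sum_congr rfl (fun k _ => by ring)

theorem Pmu_apply (x : Perm Ω) (p : ℕ) (μ : ℂ) (f : Ω → ℂ) (ω : Ω) :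
    Pmu x p μ f ω = ∑ k ∈ Finset.range p, μ ^ k * f ((x ^ k) ω) := rfl

theorem Pmu_shift {x : Perm Ω} {p : ℕ} (hx : x ^ p = 1) {μ : ℂ} (hμ : μ ^ p = 1) (f : Ω → ℂ)
    (ω : Ω) : μ * Pmu x p μ f (x ω) = Pmu x p μ f ω := by
  rw [Pmu_apply, Pmu_apply, Finset.mul_sum]
  have e : ∀ k ∈ Finset.range p, μ * (μ ^ k * f ((x ^ k) (x ω))) =
      (fun k => μ ^ k * f ((x ^ k) ω)) (k + 1) := by
    intro k _
    simp only [pow_succ, Equiv.Perm.mul_apply]
    ring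
  rw [Finset.sum_congr rfl e]
  have h1 := Finset.sum_range_succ' (fun k => μ ^ k * f ((x ^ k) ω)) p
  have h2 := Finset.sum_range_succ (fun k => μ ^ k * f ((x ^ k) ω)) p
  rw [h2] at h1
  simp only [hx, hμ, pow_zero, Equiv.Perm.one_apply, one_mul] at h1
  linear_combination -h1

theorem mu_pow {G : Subgroup (Perm Ω)} {p : ℕ} {x : Perm Ω} (hyp : Hyp G p x) (h : ZMod p) :
    ((zeta p ^ h.val)⁻¹) ^ p = 1 := by
  have hζ : zeta p ^ p = 1 := (zeta_prim hyp.hp.ne_zero).pow_eq_one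
  rw [inv_pow, ← pow_mul, mul_comm, pow_mul, hζ, one_pow, inv_one]

theorem zpow_ne {G : Subgroup (Perm Ω)} {p : ℕ} {x : Perm Ω} (hyp : Hyp G p x) (h : ZMod p) :
    zeta p ^ h.val ≠ 0 :=
  pow_ne_zero _ ((zeta_prim hyp.hp.ne_zero).ne_zero hyp.hp.ne_zero)

theorem Pmu_mem_Vh {G : Subgroup (Perm Ω)} {p : ℕ} {x : Perm Ω} (hyp : Hyp G p x) (h : ZMod p)
    (f : Ω → ℂ) : Pmu x p (zeta p ^ h.val)⁻¹ f ∈ Vh x p h := by
  rw [mem_Vh]
  intro ω
  have hne := zpow_ne hyp h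
  have := Pmu_shift (pow_p hyp) (mu_pow hyp h) f ω
  rw [← this]
  field_simp

theorem Pmu_of_mem {G : Subgroup (Perm Ω)} {p : ℕ} {x : Perm Ω} (hyp : Hyp G p x) (h : ZMod p)
    (f : Ω → ℂ) (hf : f ∈ Vh x p h) : Pmu x p (zeta p ^ h.val)⁻¹ f = (p : ℂ) • f := by
  funext ω
  have hne := zpow_ne hyp h
  rw [Pmu_apply]
  have e : ∀ k ∈ Finset.range p, ((zeta p ^ h.val)⁻¹) ^ k * f ((x ^ k) ω) = f ω := by
    intro k _
    rw [Vh_pow hf, inv_pow, ← mul_assoc, inv_mul_cancel₀ (pow_ne_zero _ hne), one_mul]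
  rw [Finset.sum_congr rfl e, Finset.sum_const, Finset.card_range]
  simp

theorem U0_comp {G : Subgroup (Perm Ω)} {x : Perm Ω} (a₀ : Ω) (g : Perm Ω) (hg : g ∈ G)
    (f : Ω → ℂ) (hf : f ∈ U0 G x a₀) : (fun ω => f (g ω)) ∈ U0 G x a₀ := by
  have hle : U0 G x a₀ ≤ (U0 G x a₀).comap (LinearMap.funLeft ℂ ℂ g) := by
    unfold U0
    rw [Submodule.span_le]
    rintro _ ⟨g', hg', rfl⟩
    apply Submodule.subset_span
    exact ⟨g' * g, G.mul_mem hg' hg, rfl⟩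
  exact hle hf

theorem Pmu_mem_U0 {G : Subgroup (Perm Ω)} {p : ℕ} {x : Perm Ω} (hyp : Hyp G p x) (a₀ : Ω)
    (μ : ℂ) (f : Ω → ℂ) (hf : f ∈ U0 G x a₀) : Pmu x p μ f ∈ U0 G x a₀ := by
  have e : Pmu x p μ f = ∑ k ∈ Finset.range p, μ ^ k • (fun ω => f ((x ^ k) ω)) := by
    funext ω
    rw [Pmu_apply, Finset.sum_apply]
    rfl
  rw [e]
  apply Submodule.sum_mem
  intro k _
  exact Submodule.smul_mem _ _ (U0_comp a₀ (x ^ k) (G.pow_mem hyp.hxG k) f hf)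

theorem inf_eq_map {G : Subgroup (Perm Ω)} {p : ℕ} {x : Perm Ω} (hyp : Hyp G p x) (a₀ : Ω)
    (h : ZMod p) :
    U0 G x a₀ ⊓ Vh x p h = (U0 G x a₀).map (Pmu x p (zeta p ^ h.val)⁻¹) := by
  apply le_antisymm
  · intro f hf
    rw [Submodule.mem_inf] at hf
    rw [Submodule.mem_map]
    refine ⟨(p : ℂ)⁻¹ • f, Submodule.smul_mem _ _ hf.1, ?_⟩
    rw [map_smul, Pmu_of_mem hyp h f hf.2, smul_smul,
      inv_mul_cancel₀ (Nat.cast_ne_zero.2 hyp.hp.ne_zero), one_smul]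
  · rintro _ ⟨f, hf, rfl⟩
    exact Submodule.mem_inf.2 ⟨Pmu_mem_U0 hyp a₀ _ f hf, Pmu_mem_Vh hyp h f⟩

/-- evaluation at the two base points -/
noncomputable def ev2 (a₀ b₀ : Ω) : (Ω → ℂ) →ₗ[ℂ] ℂ × ℂ :=
  (LinearMap.proj a₀).prod (LinearMap.proj b₀)

theorem ev2_apply (a₀ b₀ : Ω) (f : Ω → ℂ) : ev2 a₀ b₀ f = (f a₀, f b₀) := rfl

theorem finrank_map_ev2 {G : Subgroup (Perm Ω)} {p : ℕ} {x : Perm Ω} (hyp : Hyp G p x)
    (a₀ b₀ : Ω) (hb₀ : ¬ x.SameCycle a₀ b₀) (h : ZMod p) (N : Submodule ℂ (Ω → ℂ))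
    (hN : N ≤ Vh x p h) :
    Module.finrank ℂ (N.map (ev2 a₀ b₀)) = Module.finrank ℂ N := by
  have hinj : Function.Injective ((ev2 a₀ b₀).domRestrict N) := by
    rw [← LinearMap.ker_eq_bot, LinearMap.ker_eq_bot']
    rintro ⟨f, hf⟩ h0
    have h0' : (f a₀, f b₀) = 0 := h0
    have ha : f a₀ = 0 := congrArg Prod.fst h0'
    have hb : f b₀ = 0 := congrArg Prod.snd h0'
    apply Subtype.ext
    funext ω
    rcases cover_cases hyp a₀ b₀ hb₀ ω with ⟨k, -, rfl⟩ | ⟨k, -, rfl⟩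
    · change f ((x ^ k) a₀) = 0
      rw [Vh_pow (hN hf), ha, mul_zero]
    · change f ((x ^ k) b₀) = 0
      rw [Vh_pow (hN hf), hb, mul_zero]
  have := LinearMap.finrank_range_of_inj hinj
  rw [LinearMap.range_domRestrict] at this
  exact this

/-- the coordinates of the (scaled) projections of the translates of `σ` -/
noncomputable def wfam (G : Subgroup (Perm Ω)) (x : Perm Ω) (a₀ b₀ : Ω) (p : ℕ) (μ : ℂ)
    (g : G) : ℂ × ℂ :=
  (∑ k ∈ Finset.range p, μ ^ k * sig x a₀ ((g : Perm Ω) ((x ^ k) a₀)),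
   ∑ k ∈ Finset.range p, μ ^ k * sig x a₀ ((g : Perm Ω) ((x ^ k) b₀)))

theorem finrank_inf_eq {G : Subgroup (Perm Ω)} {p : ℕ} {x : Perm Ω} (hyp : Hyp G p x)
    (a₀ b₀ : Ω) (hb₀ : ¬ x.SameCycle a₀ b₀) (h : ZMod p) :
    Module.finrank ℂ ↥(U0 G x a₀ ⊓ Vh x p h) =
      Module.finrank ℂ (Submodule.span ℂ (Set.range (wfam G x a₀ b₀ p (zeta p ^ h.val)⁻¹))) := by
  rw [inf_eq_map hyp a₀ h]
  rw [← finrank_map_ev2 hyp a₀ b₀ hb₀ h _ (by
    rw [← inf_eq_map hyp a₀ h]; exact inf_le_right)]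
  rw [← Submodule.map_comp]
  unfold U0
  rw [Submodule.map_span]
  have himg : (⇑(ev2 a₀ b₀ ∘ₗ Pmu x p (zeta p ^ h.val)⁻¹)) ''
      {f | ∃ g ∈ G, f = fun ω => sig x a₀ (g ω)} =
      Set.range (wfam G x a₀ b₀ p (zeta p ^ h.val)⁻¹) := by
    ext v
    constructor
    · rintro ⟨f, ⟨g, hg, rfl⟩, rfl⟩
      exact ⟨⟨g, hg⟩, rfl⟩
    · rintro ⟨g, rfl⟩
      exact ⟨_, ⟨g, g.2, rfl⟩, rfl⟩
  rw [himg]

/-- integer version of `sig` -/
noncomputable def sigZ (x : Perm Ω) (a₀ : Ω) (ω : Ω) : ℤ :=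
  if x.SameCycle a₀ ω then 1 else -1

theorem sig_eq_sigZ (x : Perm Ω) (a₀ ω : Ω) : sig x a₀ ω = (sigZ x a₀ ω : ℂ) := by
  unfold sig sigZ
  split_ifs <;> simp

/-- the integer polynomial `∑ σ(g x^k c) X^k` -/
noncomputable def qpoly (x : Perm Ω) (a₀ : Ω) (p : ℕ) (g : Perm Ω) (c : Ω) : Polynomial ℤ :=
  ∑ k ∈ Finset.range p, Polynomial.C (sigZ x a₀ (g ((x ^ k) c))) * Polynomial.X ^ k

theorem aeval_qpoly (x : Perm Ω) (a₀ : Ω) (p : ℕ) (g : Perm Ω) (c : Ω) (μ : ℂ) :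
    Polynomial.aeval μ (qpoly x a₀ p g c) =
      ∑ k ∈ Finset.range p, μ ^ k * sig x a₀ (g ((x ^ k) c)) := by
  unfold qpoly
  rw [map_sum]
  refine Finset.sum_congr rfl (fun k _ => ?_)
  rw [map_mul, Polynomial.aeval_C, map_pow, Polynomial.aeval_X, sig_eq_sigZ, mul_comm]
  simp

theorem wfam_eq (G : Subgroup (Perm Ω)) (x : Perm Ω) (a₀ b₀ : Ω) (p : ℕ) (μ : ℂ) (g : G) :
    wfam G x a₀ b₀ p μ g = (Polynomial.aeval μ (qpoly x a₀ p (g : Perm Ω) a₀),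
      Polynomial.aeval μ (qpoly x a₀ p (g : Perm Ω) b₀)) := by
  rw [aeval_qpoly, aeval_qpoly]
  rfl

theorem prim_of_ne {G : Subgroup (Perm Ω)} {p : ℕ} {x : Perm Ω} (hyp : Hyp G p x) {h : ZMod p}
    (hh : h ≠ 0) : IsPrimitiveRoot (zeta p ^ h.val)⁻¹ p := by
  haveI : NeZero p := ⟨hyp.hp.ne_zero⟩
  have h1 : h.val < p := ZMod.val_lt h
  have h2 : h.val ≠ 0 := fun h0 => hh ((ZMod.val_eq_zero h).1 h0)
  have hcop : Nat.Coprime h.val p :=
    Nat.Coprime.symm ((Nat.Prime.coprime_iff_not_dvd hyp.hp).2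
      (Nat.not_dvd_of_pos_of_lt (Nat.pos_of_ne_zero h2) h1))
  exact ((zeta_prim hyp.hp.ne_zero).pow_of_coprime h.val hcop).inv

theorem wfam_zero_transfer {G : Subgroup (Perm Ω)} {p : ℕ} (hp : 0 < p) {x : Perm Ω} (a₀ b₀ : Ω)
    {μ μ' : ℂ} (hμ : IsPrimitiveRoot μ p) (hμ' : IsPrimitiveRoot μ' p)
    (hz : ∀ g, wfam G x a₀ b₀ p μ g = 0) : ∀ g, wfam G x a₀ b₀ p μ' g = 0 := by
  intro g
  have h1 := hz g
  rw [wfam_eq] at h1 ⊢
  have ha : Polynomial.aeval μ (qpoly x a₀ p (g : Perm Ω) a₀) = 0 := congrArg Prod.fst h1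
  have hb : Polynomial.aeval μ (qpoly x a₀ p (g : Perm Ω) b₀) = 0 := congrArg Prod.snd h1
  rw [aeval_prim_transfer hp hμ hμ' _ ha, aeval_prim_transfer hp hμ hμ' _ hb]
  rfl

theorem wfam_minor_transfer {G : Subgroup (Perm Ω)} {p : ℕ} (hp : 0 < p) {x : Perm Ω}
    (a₀ b₀ : Ω) {μ μ' : ℂ} (hμ : IsPrimitiveRoot μ p) (hμ' : IsPrimitiveRoot μ' p)
    (hd : ∀ g g', (wfam G x a₀ b₀ p μ g).1 * (wfam G x a₀ b₀ p μ g').2 -
      (wfam G x a₀ b₀ p μ g).2 * (wfam G x a₀ b₀ p μ g').1 = 0) :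
    ∀ g g', (wfam G x a₀ b₀ p μ' g).1 * (wfam G x a₀ b₀ p μ' g').2 -
      (wfam G x a₀ b₀ p μ' g).2 * (wfam G x a₀ b₀ p μ' g').1 = 0 := by
  intro g g'
  have h1 := hd g g'
  rw [wfam_eq, wfam_eq] at h1 ⊢
  have key : ∀ ν : ℂ, Polynomial.aeval ν (qpoly x a₀ p (g : Perm Ω) a₀) *
      Polynomial.aeval ν (qpoly x a₀ p (g' : Perm Ω) b₀) -
      Polynomial.aeval ν (qpoly x a₀ p (g : Perm Ω) b₀) *
      Polynomial.aeval ν (qpoly x a₀ p (g' : Perm Ω) a₀) =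
      Polynomial.aeval ν (qpoly x a₀ p (g : Perm Ω) a₀ * qpoly x a₀ p (g' : Perm Ω) b₀ -
        qpoly x a₀ p (g : Perm Ω) b₀ * qpoly x a₀ p (g' : Perm Ω) a₀) := by
    intro ν
    rw [map_sub, map_mul, map_mul]
  change _ = 0 at h1
  change Polynomial.aeval μ' (qpoly x a₀ p (g : Perm Ω) a₀) *
      Polynomial.aeval μ' (qpoly x a₀ p (g' : Perm Ω) b₀) -
      Polynomial.aeval μ' (qpoly x a₀ p (g : Perm Ω) b₀) *
      Polynomial.aeval μ' (qpoly x a₀ p (g' : Perm Ω) a₀) = 0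
  rw [key μ']
  apply aeval_prim_transfer hp hμ hμ'
  rw [← key μ]
  exact h1

theorem unif {G : Subgroup (Perm Ω)} {p : ℕ} {x : Perm Ω} (hyp : Hyp G p x) (a₀ : Ω)
    {h h' : ZMod p} (hh : h ≠ 0) (hh' : h' ≠ 0) :
    Module.finrank ℂ ↥(U0 G x a₀ ⊓ Vh x p h) = Module.finrank ℂ ↥(U0 G x a₀ ⊓ Vh x p h') := by
  obtain ⟨b₀, hb₀⟩ := exists_b0 hyp a₀
  rw [finrank_inf_eq hyp a₀ b₀ hb₀ h, finrank_inf_eq hyp a₀ b₀ hb₀ h']
  have hμ := prim_of_ne hyp hh
  have hμ' := prim_of_ne hyp hh'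
  apply finrank_span_congr
  · exact ⟨wfam_zero_transfer hyp.hp.pos a₀ b₀ hμ hμ', wfam_zero_transfer hyp.hp.pos a₀ b₀ hμ' hμ⟩
  · exact ⟨wfam_minor_transfer hyp.hp.pos a₀ b₀ hμ hμ',
      wfam_minor_transfer hyp.hp.pos a₀ b₀ hμ' hμ⟩

end Cfsg.Agent.H67.W2P
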