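import Mathlib
import Cfsg.Agent.H74.W2PDefs
import Cfsg.Agent.H67.W2PBase
import Cfsg.Agent.H67.W2PLA2

set_option autoImplicit false
set_option linter.unusedSectionVars false
set_option linter.style.haveILetI false

/-!
# S0720-LA10-DEC / S0720-LA10X1 (helper67): `V = ℂ·1 + U0 + ∑_{h ≠ 0} Uperp ⊓ Vh h`
-/

namespace Cfsg.Agent.H67.W2P

open Cfsg.Agent.H74.W2P Equiv MulAction

variable {Ω : Type*} [Fintype Ω] [DecidableEq Ω]

theorem sum_zmod_val {p : ℕ} [NeZero p] {M : Type*} [AddCommMonoid M] (F : ℕ → M) :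
    ∑ h : ZMod p, F h.val = ∑ j ∈ Finset.range p, F j := by
  apply Finset.sum_bij (fun h _ => h.val)
  · intro h _
    exact Finset.mem_range.2 (ZMod.val_lt h)
  · intro h _ h' _ e
    exact ZMod.val_injective p e
  · intro j hj
    exact ⟨(j : ZMod p), Finset.mem_univ _, ZMod.val_natCast_of_lt (Finset.mem_range.1 hj)⟩
  · intro h _
    rfl

/-- the (scaled) projections onto the `Vh h` sum to `p` -/
theorem sum_Pmu {G : Subgroup (Perm Ω)} {p : ℕ} {x : Perm Ω} (hyp : Hyp G p x) [NeZero p]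
    (f : Ω → ℂ) : ∑ h : ZMod p, Pmu x p (zeta p ^ h.val)⁻¹ f = (p : ℂ) • f := by
  funext ω
  rw [Finset.sum_apply]
  simp only [Pmu_apply]
  rw [Finset.sum_comm]
  have e : ∀ k ∈ Finset.range p, ∑ h : ZMod p, ((zeta p ^ h.val)⁻¹) ^ k * f ((x ^ k) ω) =
      if k = 0 then (p : ℂ) * f ω else 0 := by
    intro k hk
    rw [← Finset.sum_mul]
    have e1 : ∀ h : ZMod p, ((zeta p ^ h.val)⁻¹) ^ k =
        (fun j => (((zeta p)⁻¹) ^ k) ^ j) h.val := by
      intro h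
      simp only
      rw [← inv_pow, ← pow_mul, ← pow_mul, mul_comm]
    rw [Finset.sum_congr rfl (fun h _ => e1 h), sum_zmod_val (fun j => (((zeta p)⁻¹) ^ k) ^ j)]
    split_ifs with hk0
    · subst hk0
      simp
    · have hprim : IsPrimitiveRoot (((zeta p)⁻¹) ^ k) p := by
        apply (zeta_prim hyp.hp.ne_zero).inv.pow_of_coprime
        exact Nat.Coprime.symm ((Nat.Prime.coprime_iff_not_dvd hyp.hp).2
          (Nat.not_dvd_of_pos_of_lt (Nat.pos_of_ne_zero hk0) (Finset.mem_range.1 hk)))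
      rw [hprim.geom_sum_eq_zero hyp.hp.one_lt, zero_mul]
  rw [Finset.sum_congr rfl e, Finset.sum_ite_eq', if_pos (Finset.mem_range.2 hyp.hp.pos)]
  rfl

theorem conj_sig (x : Perm Ω) (a₀ ω : Ω) : (starRingEnd ℂ) (sig x a₀ ω) = sig x a₀ ω := by
  unfold sig
  split_ifs <;> simp

theorem U0_conj {G : Subgroup (Perm Ω)} {x : Perm Ω} (a₀ : Ω) (u : Ω → ℂ)
    (hu : u ∈ U0 G x a₀) : (fun ω => (starRingEnd ℂ) (u ω)) ∈ U0 G x a₀ := by
  unfold U0 at hu ⊢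
  induction hu using Submodule.span_induction with
  | mem u hu =>
    obtain ⟨g, hg, rfl⟩ := hu
    apply Submodule.subset_span
    refine ⟨g, hg, ?_⟩
    funext ω
    change (starRingEnd ℂ) (sig x a₀ (g ω)) = sig x a₀ (g ω)
    exact conj_sig x a₀ (g ω)
  | zero =>
    have : (fun ω : Ω => (starRingEnd ℂ) ((0 : Ω → ℂ) ω)) = 0 := by
      funext ω
      simp
    rw [this]
    exact Submodule.zero_mem _
  | add u v _ _ hu hv =>
    have : (fun ω => (starRingEnd ℂ) ((u + v) ω)) =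
        (fun ω => (starRingEnd ℂ) (u ω)) + (fun ω => (starRingEnd ℂ) (v ω)) := by
      funext ω
      simp
    rw [this]
    exact Submodule.add_mem _ hu hv
  | smul c u _ hu =>
    have : (fun ω => (starRingEnd ℂ) ((c • u) ω)) =
        (starRingEnd ℂ) c • (fun ω => (starRingEnd ℂ) (u ω)) := by
      funext ω
      simp
    rw [this]
    exact Submodule.smul_mem _ _ hu

theorem Uperp_orth {G : Subgroup (Perm Ω)} {x : Perm Ω} (a₀ : Ω) (f : Ω → ℂ)
    (hf : f ∈ Uperp G x a₀) (u : Ω → ℂ) (hu : u ∈ U0 G x a₀) : ∑ ω, f ω * u ω = 0 := by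
  unfold U0 at hu
  induction hu using Submodule.span_induction with
  | mem u hu =>
    obtain ⟨g, hg, rfl⟩ := hu
    exact hf g hg
  | zero => simp
  | add u v _ _ hu hv =>
    simp only [Pi.add_apply, mul_add, Finset.sum_add_distrib, hu, hv, add_zero]
  | smul c u _ hu =>
    have e : ∀ ω, f ω * (c • u) ω = c * (f ω * u ω) := by
      intro ω
      simp only [Pi.smul_apply, smul_eq_mul]
      ring
    simp only [e, ← Finset.mul_sum, hu, mul_zero]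

theorem U0_inf_Uperp {G : Subgroup (Perm Ω)} {x : Perm Ω} (a₀ : Ω) :
    U0 G x a₀ ⊓ Uperp G x a₀ = ⊥ := by
  rw [eq_bot_iff]
  intro f hf
  rw [Submodule.mem_inf] at hf
  have h := Uperp_orth a₀ f hf.2 _ (U0_conj a₀ f hf.1)
  have h2 : ∑ ω, Complex.normSq (f ω) = 0 := by
    have : ((∑ ω, Complex.normSq (f ω) : ℝ) : ℂ) = 0 := by
      rw [Complex.ofReal_sum, ← h]
      exact Finset.sum_congr rfl (fun ω _ => (Complex.mul_conj (f ω)).symm)
    exact_mod_cast this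
  rw [Finset.sum_eq_zero_iff_of_nonneg (fun ω _ => Complex.normSq_nonneg _)] at h2
  rw [Submodule.mem_bot]
  funext ω
  exact Complex.normSq_eq_zero.1 (h2 ω (Finset.mem_univ ω))

theorem finrank_Vh_le {G : Subgroup (Perm Ω)} {p : ℕ} {x : Perm Ω} (hyp : Hyp G p x)
    (h : ZMod p) : Module.finrank ℂ (Vh x p h) ≤ 2 := by
  obtain ⟨a₀⟩ : Nonempty Ω := by
    rw [← Fintype.card_pos_iff, hyp.hcard]
    have := hyp.hp.pos
    omega
  obtain ⟨b₀, hb₀⟩ := exists_b0 hyp a₀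
  rw [← finrank_map_ev2 hyp a₀ b₀ hb₀ h (Vh x p h) le_rfl]
  calc Module.finrank ℂ ((Vh x p h).map (ev2 a₀ b₀)) ≤ Module.finrank ℂ (ℂ × ℂ) :=
        Submodule.finrank_le _
    _ = 2 := by rw [Module.finrank_prod, Module.finrank_self]

/-- `Vh h = (U0 ⊓ Vh h) ⊕ (Uperp ⊓ Vh h)` for `h ≠ 0` -/
theorem Vh_eq_sup {G : Subgroup (Perm Ω)} {p : ℕ} {x : Perm Ω} (hyp : Hyp G p x) (a₀ : Ω)
    (hU : DimU G p x a₀) (hW : DimW G p x a₀) (h : ZMod p) (hh : h ≠ 0) :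
    (U0 G x a₀ ⊓ Vh x p h) ⊔ (Uperp G x a₀ ⊓ Vh x p h) = Vh x p h := by
  have hle : (U0 G x a₀ ⊓ Vh x p h) ⊔ (Uperp G x a₀ ⊓ Vh x p h) ≤ Vh x p h :=
    sup_le inf_le_right inf_le_right
  have hinf : (U0 G x a₀ ⊓ Vh x p h) ⊓ (Uperp G x a₀ ⊓ Vh x p h) = ⊥ := by
    rw [eq_bot_iff, ← U0_inf_Uperp (G := G) (x := x) a₀]
    exact inf_le_inf inf_le_left inf_le_left
  have hfr := Submodule.finrank_sup_add_finrank_inf_eq (U0 G x a₀ ⊓ Vh x p h)
    (Uperp G x a₀ ⊓ Vh x p h)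
  rw [hinf, finrank_bot, hU h hh, hW h hh] at hfr
  have h2 := finrank_Vh_le hyp h
  exact Submodule.eq_of_le_of_finrank_le hle (by omega)

theorem Vh_zero_mem {G : Subgroup (Perm Ω)} {p : ℕ} {x : Perm Ω} (hyp : Hyp G p x) (a₀ : Ω)
    (f : Ω → ℂ) (hf : f ∈ Vh x p 0) :
    f ∈ Submodule.span ℂ {(fun _ => 1 : Ω → ℂ)} ⊔ U0 G x a₀ := by
  obtain ⟨b₀, hb₀⟩ := exists_b0 hyp a₀
  haveI : NeZero p := ⟨hyp.hp.ne_zero⟩
  have hinv : ∀ (k : ℕ) (ω : Ω), f ((x ^ k) ω) = f ω := by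
    intro k ω
    rw [Vh_pow hf, ZMod.val_zero, pow_zero, one_pow, one_mul]
  have hσ : sig x a₀ ∈ U0 G x a₀ := Submodule.subset_span ⟨1, G.one_mem, rfl⟩
  have e : f = ((f a₀ + f b₀) / 2) • (fun _ => 1 : Ω → ℂ) +
      ((f a₀ - f b₀) / 2) • sig x a₀ := by
    funext ω
    rcases cover_cases hyp a₀ b₀ hb₀ ω with ⟨k, -, rfl⟩ | ⟨k, -, rfl⟩
    · simp only [Pi.add_apply, Pi.smul_apply, smul_eq_mul, sig_a, hinv]
      ring
    · simp only [Pi.add_apply, Pi.smul_apply, smul_eq_mul, sig_b a₀ b₀ hb₀, hinv]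
      ring
  rw [e]
  exact Submodule.add_mem _
    (Submodule.mem_sup_left (Submodule.smul_mem _ _ (Submodule.mem_span_singleton_self _)))
    (Submodule.mem_sup_right (Submodule.smul_mem _ _ hσ))

/-- S0720-LA10X1 -/
theorem eq_top_of_parts {G : Subgroup (Perm Ω)} {p : ℕ} {x : Perm Ω} (hyp : Hyp G p x) (a₀ : Ω)
    (hU : DimU G p x a₀) (hW : DimW G p x a₀) (K : Submodule ℂ (Ω → ℂ))
    (h1 : (fun _ : Ω => (1 : ℂ)) ∈ K) (hU0 : U0 G x a₀ ≤ K)
    (hK : ∀ h : ZMod p, h ≠ 0 → Uperp G x a₀ ⊓ Vh x p h ≤ K) : K = ⊤ := by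
  haveI : NeZero p := ⟨hyp.hp.ne_zero⟩
  have hVh : ∀ h : ZMod p, Vh x p h ≤ K := by
    intro h
    by_cases hh : h = 0
    · subst hh
      intro f hf
      have := Vh_zero_mem (G := G) hyp a₀ f hf
      exact (sup_le ((Submodule.span_singleton_le_iff_mem _ _).2 h1) hU0) this
    · rw [← Vh_eq_sup hyp a₀ hU hW h hh]
      exact sup_le (inf_le_left.trans hU0) (hK h hh)
  rw [eq_top_iff]
  intro f _
  have e := sum_Pmu hyp f
  have hmem : (p : ℂ) • f ∈ K := by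
    rw [← e]
    exact Submodule.sum_mem _ (fun h _ => hVh h (Pmu_mem_Vh hyp h f))
  have := Submodule.smul_mem K (p : ℂ)⁻¹ hmem
  rwa [smul_smul, inv_mul_cancel₀ (Nat.cast_ne_zero.2 hyp.hp.ne_zero), one_smul] at this

/-- S0720-LA10-DEC -/
theorem decomp {G : Subgroup (Perm Ω)} {p : ℕ} {x : Perm Ω} (hyp : Hyp G p x) (a₀ : Ω)
    (hU : DimU G p x a₀) (hW : DimW G p x a₀) :
    Submodule.span ℂ {(fun _ => 1 : Ω → ℂ)} ⊔ U0 G x a₀ ⊔
      ⨆ h : ZMod p, ⨆ (_ : h ≠ 0), Uperp G x a₀ ⊓ Vh x p h = ⊤ := by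
  apply eq_top_of_parts hyp a₀ hU hW
  · exact Submodule.mem_sup_left (Submodule.mem_sup_left (Submodule.mem_span_singleton_self _))
  · exact le_sup_of_le_left le_sup_right
  · intro h hh
    exact le_sup_of_le_right (le_iSup₂_of_le h hh le_rfl)

end Cfsg.Agent.H67.W2P
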