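import Mathlib
import Cfsg.Agent.H74.W2PDefs
import Cfsg.Agent.H67.W2PBase

set_option autoImplicit false
set_option linter.unusedSectionVars false
set_option linter.style.haveILetI false

/-!
# S0720-LA9 (helper67): the scalars `wch` of integer centralizer matrices are `≡ n(A)` mod `1 - ζ`
-/

namespace Cfsg.Agent.H67.W2P

open Cfsg.Agent.H74.W2P Equiv MulAction

variable {Ω : Type*} [Fintype Ω] [DecidableEq Ω]

theorem wch_cong {G : Subgroup (Perm Ω)} {p : ℕ} {x : Perm Ω} (hyp : Hyp G p x) (a₀ b₀ : Ω)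
    (hb₀ : ¬ x.SameCycle a₀ b₀) (hsc : ScalU G x a₀) : CongW G p x a₀ b₀ := by
  intro A hA h
  have hζ : IsIntegral ℤ (zeta p) := (zeta_prim hyp.hp.ne_zero).isIntegral hyp.hp.pos
  obtain ⟨AC, hAC⟩ : ∃ AC : Matrix Ω Ω ℂ, AC = A.map (Int.cast : ℤ → ℂ) := ⟨_, rfl⟩
  have hACapp : ∀ i j, AC i j = (A i j : ℂ) := by
    intro i j; rw [hAC]; rfl
  have hACc : CentC G AC := by
    intro g hg i j
    rw [hACapp, hACapp, hA g hg i j]
  rw [← hAC]
  refine ⟨-∑ z ∈ Finset.range p, (AC a₀ ((x ^ z) a₀) + AC b₀ ((x ^ z) b₀)) *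
      ∑ j ∈ Finset.range (h.val * z), zeta p ^ j, ?_, ?_⟩
  · apply IsIntegral.neg
    apply IsIntegral.sum
    intro z _
    apply IsIntegral.mul
    · rw [hACapp, hACapp, ← Int.cast_add]
      exact isIntegral_algebraMap (R := ℤ) (A := ℂ) (x := A a₀ ((x ^ z) a₀) + A b₀ ((x ^ z) b₀))
    · apply IsIntegral.sum
      intro j _
      exact hζ.pow j
  · -- row sums
    haveI : IsPretransitive G Ω := hyp.hprim.toIsPretransitive
    obtain ⟨g, hg⟩ := MulAction.exists_smul_eq G a₀ b₀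
    have hg' : (g : Perm Ω) a₀ = b₀ := hg
    have F1 : ∑ j, AC b₀ j = ∑ j, AC a₀ j := by
      rw [← hg', ← Equiv.sum_comp (g : Perm Ω) (fun j => AC ((g : Perm Ω) a₀) j)]
      exact Finset.sum_congr rfl (fun j _ => hACc g g.2 a₀ j)
    have hσ : sig x a₀ ∈ U0 G x a₀ := by
      apply Submodule.subset_span
      exact ⟨1, G.one_mem, rfl⟩
    have F2 := congrFun (hsc AC hACc (sig x a₀) hσ) b₀
    simp only [Matrix.mulVec, dotProduct, Pi.smul_apply, smul_eq_mul] at F2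
    have hsb : sig x a₀ b₀ = -1 := by simpa using sig_b a₀ b₀ hb₀ 0
    rw [hsb] at F2
    rw [sum_split hyp a₀ b₀ hb₀ (fun j => AC b₀ j)] at F1
    rw [sum_split hyp a₀ b₀ hb₀ (fun j => AC a₀ j)] at F1
    rw [sum_split hyp a₀ b₀ hb₀ (fun j => AC b₀ j * sig x a₀ j)] at F2
    rw [sum_split hyp a₀ b₀ hb₀ (fun j => AC a₀ j * sig x a₀ j)] at F2
    simp only [sig_a, sig_b a₀ b₀ hb₀, mul_one, mul_neg, Finset.sum_neg_distrib] at F2
    unfold wch
    have e1 : ∑ j, (A a₀ j : ℂ) = ∑ j, AC a₀ j :=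
      Finset.sum_congr rfl (fun j _ => (hACapp a₀ j).symm)
    rw [e1, sum_split hyp a₀ b₀ hb₀ (fun j => AC a₀ j),
      sum_split hyp a₀ b₀ hb₀ (fun j => AC a₀ j * sig x a₀ j)]
    simp only [sig_a, sig_b a₀ b₀ hb₀, mul_one, mul_neg, Finset.sum_neg_distrib]
    rw [Finset.mul_sum]
    have e2 : ∀ z ∈ Finset.range p, (1 - zeta p) * ((AC a₀ ((x ^ z) a₀) + AC b₀ ((x ^ z) b₀)) *
        ∑ j ∈ Finset.range (h.val * z), zeta p ^ j) =
        (AC a₀ ((x ^ z) a₀) + AC b₀ ((x ^ z) b₀)) -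
          (AC a₀ ((x ^ z) a₀) + AC b₀ ((x ^ z) b₀)) * zeta p ^ (h.val * z) := by
      intro z _
      have := mul_neg_geom_sum (zeta p) (h.val * z)
      linear_combination (AC a₀ ((x ^ z) a₀) + AC b₀ ((x ^ z) b₀)) * this
    rw [Finset.sum_congr rfl e2]
    rw [Finset.sum_sub_distrib, Finset.sum_add_distrib]
    linear_combination (1 / 2 : ℂ) * F1 - (1 / 2 : ℂ) * F2

end Cfsg.Agent.H67.W2P
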