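import Mathlib
import Cfsg.Agent.H67.YoshidaCocycle

/-!
Helper lemmas of seat helper67 (towards S2792, Yoshida's transfer theorem for weakly closed
subgroups): norms and iterated commutators, and the cocycle lemma for a `p`-group `Q = W⟨u⟩`.
-/

set_option autoImplicit false

namespace Cfsg.Agent.H67

/-- `(X - 1) ^ (p - 1) = 1 + X + ⋯ + X ^ (p - 1)` over the prime field. -/
theorem X_sub_one_pow_eq_geom (p : ℕ) [Fact p.Prime] :
    ((Polynomial.X : Polynomial (ZMod p)) - 1) ^ (p - 1) =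
      ∑ i ∈ Finset.range p, (Polynomial.X : Polynomial (ZMod p)) ^ i := by
  have hp : p.Prime := Fact.out
  have h1 : (∑ i ∈ Finset.range p, (Polynomial.X : Polynomial (ZMod p)) ^ i) *
      (Polynomial.X - 1) = Polynomial.X ^ p - 1 := geom_sum_mul _ _
  have h2 : ((Polynomial.X : Polynomial (ZMod p)) - 1) ^ p = Polynomial.X ^ p - 1 := by
    rw [sub_pow_char, one_pow]
  have h3 : ((Polynomial.X : Polynomial (ZMod p)) - 1) ^ (p - 1) * (Polynomial.X - 1) =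
      Polynomial.X ^ p - 1 := by
    rw [← pow_succ, Nat.sub_add_cancel hp.one_le, h2]
  have hne : (Polynomial.X : Polynomial (ZMod p)) - 1 ≠ 0 := by
    have := Polynomial.X_sub_C_ne_zero (1 : ZMod p)
    simpa using this
  exact mul_right_cancel₀ hne (h3.trans h1.symm)

/-- The multiplicative difference operator on sequences. -/
def seqDiff {A : Type*} [CommGroup A] (T : ℕ → A) : ℕ → A := fun j => T (j + 1) * (T j)⁻¹

theorem seqDiff_iterate_map {A B : Type*} [CommGroup A] [CommGroup B] (φ : B →* A) (m : ℕ) :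
    ∀ (t : ℕ → B) (j : ℕ), φ ((seqDiff^[m] t) j) = (seqDiff^[m] (fun i => φ (t i))) j := by
  induction m with
  | zero => intro t j; rfl
  | succ m ih =>
    intro t j
    rw [Function.iterate_succ_apply, Function.iterate_succ_apply, ih]
    have : (fun i => φ (seqDiff t i)) = seqDiff (fun i => φ (t i)) := by
      funext i
      simp [seqDiff]
    rw [this]

/-- In an abelian group of exponent `p`, the product of the first `p` terms of a sequence is its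
`(p - 1)`-st iterated difference at `0`. -/
theorem prod_range_eq_seqDiff_of_exp {B : Type*} [CommGroup B] {p : ℕ} [Fact p.Prime]
    (hB : ∀ b : B, b ^ p = 1) (t : ℕ → B) :
    ∏ i ∈ Finset.range p, t i = (seqDiff^[p - 1] t) 0 := by
  have hexp : ∀ a : Additive B, p • a = 0 := fun a => by
    have := hB (Additive.toMul a)
    exact congrArg Additive.ofMul this
  let _ : Module (ZMod p) (Additive B) := AddCommGroup.zmodModule hexp
  let E : Module.End (ZMod p) (ℕ → Additive B) :=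
    LinearMap.funLeft (ZMod p) (Additive B) (fun j : ℕ => j + 1)
  have hE : ∀ (s : ℕ → Additive B) (j : ℕ), E s j = s (j + 1) := fun s j => rfl
  have hEpow : ∀ (i : ℕ) (s : ℕ → Additive B) (j : ℕ), (E ^ i) s j = s (j + i) := by
    intro i
    induction i with
    | zero => intro s j; rfl
    | succ i ih =>
      intro s j
      rw [pow_succ, Module.End.mul_apply, ih, hE, add_assoc]
  have hpoly : (E - 1) ^ (p - 1) = ∑ i ∈ Finset.range p, E ^ i := by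
    have := congrArg (Polynomial.aeval E) (X_sub_one_pow_eq_geom p)
    simpa using this
  have hdiff : ∀ (m : ℕ) (t : ℕ → B),
      ((E - 1) ^ m) (fun j => Additive.ofMul (t j)) =
        fun j => Additive.ofMul ((seqDiff^[m] t) j) := by
    intro m
    induction m with
    | zero => intro t; rfl
    | succ m ih =>
      intro t
      rw [pow_succ, Module.End.mul_apply, Function.iterate_succ_apply]
      have h1 : (E - 1) (fun j => Additive.ofMul (t j)) =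
          fun j => Additive.ofMul (seqDiff t j) := by
        funext j
        have h0 : (E - 1) (fun j => Additive.ofMul (t j)) j =
            Additive.ofMul (t (j + 1)) - Additive.ofMul (t j) := by
          rw [LinearMap.sub_apply, Pi.sub_apply, hE]
          rfl
        rw [h0, ← ofMul_div, div_eq_mul_inv]
        rfl
      rw [h1, ih]
  have h2 := congrFun (hdiff (p - 1) t) 0
  rw [hpoly, LinearMap.sum_apply, Finset.sum_apply] at h2
  have h3 : ∑ i ∈ Finset.range p, (E ^ i) (fun j => Additive.ofMul (t j)) 0 =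
      Additive.ofMul (∏ i ∈ Finset.range p, t i) := by
    rw [ofMul_prod]
    refine Finset.sum_congr rfl (fun i _ => ?_)
    rw [hEpow, zero_add]
  rw [h3] at h2
  exact Additive.ofMul.injective h2

/-- The product of the first `p` terms of a sequence of elements of order dividing `p` in an
abelian group is its `(p - 1)`-st iterated difference at `0`. -/
theorem prod_range_eq_seqDiff {A : Type*} [CommGroup A] {p : ℕ} [Fact p.Prime] (S : ℕ → A)
    (hS : ∀ j, S j ^ p = 1) : ∏ i ∈ Finset.range p, S i = (seqDiff^[p - 1] S) 0 := by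
  obtain ⟨T, hT⟩ : ∃ T : Subgroup A, T = (powMonoidHom p : A →* A).ker := ⟨_, rfl⟩
  have hmem : ∀ a : A, a ∈ T ↔ a ^ p = 1 := by
    intro a
    rw [hT, MonoidHom.mem_ker, powMonoidHom_apply]
  have hTexp : ∀ b : T, b ^ p = 1 := fun b => Subtype.ext ((hmem b).1 b.2)
  have h1 := prod_range_eq_seqDiff_of_exp hTexp (fun j => (⟨S j, (hmem _).2 (hS j)⟩ : T))
  have h2 := congrArg T.subtype h1
  rw [map_prod, seqDiff_iterate_map] at h2
  exact h2

/-- The norm of `u` under conjugation by `z`, evaluated by a map multiplicative of exponent `p`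
on a normal subgroup `R ∋ u`, is the value at the iterated commutator `[u, z; p - 1]`. -/
theorem prod_conj_eq_iterComm {Q A : Type*} [Group Q] [CommGroup A] {p : ℕ} [Fact p.Prime]
    (R : Subgroup Q) [hRn : R.Normal] (ν : Q → A)
    (hν : ∀ a ∈ R, ∀ b ∈ R, ν (a * b) = ν a * ν b) (hνp : ∀ a ∈ R, ν a ^ p = 1) (z u : Q)
    (hu : u ∈ R) :
    ∏ i ∈ Finset.range p, ν ((z ^ i)⁻¹ * u * z ^ i) =
      ν ((fun y => y⁻¹ * z⁻¹ * y * z)^[p - 1] u) := by
  have h1 : ν 1 = 1 := by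
    have := hν 1 R.one_mem 1 R.one_mem
    rw [mul_one] at this
    exact mul_eq_left.mp this.symm
  have hinv : ∀ a ∈ R, ν a⁻¹ = (ν a)⁻¹ := by
    intro a ha
    have := hν a ha a⁻¹ (R.inv_mem ha)
    rw [mul_inv_cancel, h1] at this
    exact eq_inv_of_mul_eq_one_right this.symm
  have hconj : ∀ (g : Q), ∀ a ∈ R, g⁻¹ * a * g ∈ R := by
    intro g a ha
    have := hRn.conj_mem a ha g⁻¹
    rwa [inv_inv] at this
  have hD : ∀ r ∈ R, r⁻¹ * z⁻¹ * r * z ∈ R := by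
    intro r hr
    have := R.mul_mem (R.inv_mem hr) (hconj z r hr)
    have e : r⁻¹ * (z⁻¹ * r * z) = r⁻¹ * z⁻¹ * r * z := by group
    rwa [e] at this
  have key : ∀ (m : ℕ), ∀ r ∈ R, seqDiff^[m] (fun i => ν ((z ^ i)⁻¹ * r * z ^ i)) =
      fun j => ν ((z ^ j)⁻¹ * ((fun y => y⁻¹ * z⁻¹ * y * z)^[m] r) * z ^ j) := by
    intro m
    induction m with
    | zero => intro r _; rfl
    | succ m ih =>
      intro r hr
      rw [Function.iterate_succ_apply, Function.iterate_succ_apply]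
      have hΔ : seqDiff (fun i => ν ((z ^ i)⁻¹ * r * z ^ i)) =
          fun i => ν ((z ^ i)⁻¹ * (r⁻¹ * z⁻¹ * r * z) * z ^ i) := by
        funext j
        show ν ((z ^ (j + 1))⁻¹ * r * z ^ (j + 1)) * (ν ((z ^ j)⁻¹ * r * z ^ j))⁻¹ = _
        have e : (z ^ j)⁻¹ * (r⁻¹ * z⁻¹ * r * z) * z ^ j =
            ((z ^ j)⁻¹ * r * z ^ j)⁻¹ * ((z ^ (j + 1))⁻¹ * r * z ^ (j + 1)) := by
          rw [pow_succ]
          group
        rw [e, hν _ (R.inv_mem (hconj _ r hr)) _ (hconj _ r hr), hinv _ (hconj _ r hr), mul_comm]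
      rw [hΔ]
      exact ih _ (hD r hr)
  have h2 := prod_range_eq_seqDiff (fun i => ν ((z ^ i)⁻¹ * u * z ^ i))
    (fun j => hνp _ (hconj _ u hu))
  rw [h2, key (p - 1) u hu]
  simp

section PGroup

variable {Q : Type*} [Group Q] [Finite Q] {p : ℕ} [Fact p.Prime]
  {Ω : Type*} [MulAction Q Ω] [DecidableEq Ω] {A : Type*} [CommGroup A]

/-- The product of a cocycle over an orbit as a norm: `u ∈ R`, `R` normal of index `p` containing
the stabilizer, `x ∉ R`. -/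
theorem coc_prod_orbit_eq_norm
    (c : Q → Ω → A) (hc : ∀ k k' ω, c (k * k') ω = c k (k' • ω) * c k' ω)
    (hcp : ∀ k ω, c k ω ^ p = 1) (u : Q) (ω₀ : Ω) (O : Finset Ω)
    (hO : ∀ ω, ω ∈ O ↔ ∃ q : Q, q • ω₀ = ω) (R : Subgroup Q) [hRn : R.Normal] (hidx : R.index = p)
    (hSR : MulAction.stabilizer Q ω₀ ≤ R) (x : Q) (hx : x ∉ R) (huR : u ∈ R) :
    ∃ ν : Q → A, (∀ a ∈ R, ∀ b ∈ R, ν (a * b) = ν a * ν b) ∧ (∀ a ∈ R, ν a ^ p = 1) ∧
      ∏ ω ∈ O, c u ω = ∏ i ∈ Finset.range p, ν ((x ^ i)⁻¹ * u * x ^ i) := by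
  obtain ⟨hcos, hinjx, -⟩ := pow_coset_of_index_prime R hidx x hx
  have : Fintype Q := Fintype.ofFinite Q
  obtain ⟨O₀, hO₀⟩ : ∃ O₀ : Finset Ω, ∀ ω, ω ∈ O₀ ↔ ∃ r ∈ R, r • ω₀ = ω := by
    classical
    refine ⟨(Finset.univ.filter (fun q : Q => q ∈ R)).image (fun q => q • ω₀), ?_⟩
    intro ω
    simp [Finset.mem_image]
  have hO₀inv : ∀ r ∈ R, ∀ ω ∈ O₀, r • ω ∈ O₀ := by
    intro r hr ω hω
    obtain ⟨r', hr', rfl⟩ := (hO₀ ω).mp hω
    exact (hO₀ _).mpr ⟨r * r', R.mul_mem hr hr', mul_smul r r' ω₀⟩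
  have hν : ∀ a ∈ R, ∀ b ∈ R, (∏ ω ∈ O₀, c (a * b) ω) = (∏ ω ∈ O₀, c a ω) * ∏ ω ∈ O₀, c b ω :=
    fun a _ b hb => coc_prod_mul c hc a b O₀ (hO₀inv b hb)
  have hνp : ∀ a ∈ R, (∏ ω ∈ O₀, c a ω) ^ p = 1 := by
    intro a _
    rw [← Finset.prod_pow]
    exact Finset.prod_eq_one (fun ω _ => hcp a ω)
  refine ⟨fun r => ∏ ω ∈ O₀, c r ω, hν, hνp, ?_⟩
  have hOeq : O = ((Finset.range p) ×ˢ O₀).image (fun a : ℕ × Ω => x ^ a.1 • a.2) := by
    ext ω
    rw [hO, Finset.mem_image]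
    constructor
    · rintro ⟨q, rfl⟩
      obtain ⟨i, hi, hmem⟩ := hcos q
      refine ⟨(i, ((x ^ i)⁻¹ * q) • ω₀), Finset.mem_product.mpr
        ⟨Finset.mem_range.mpr hi, (hO₀ _).mpr ⟨_, hmem, rfl⟩⟩, ?_⟩
      show x ^ i • ((x ^ i)⁻¹ * q) • ω₀ = q • ω₀
      rw [← mul_smul, mul_inv_cancel_left]
    · rintro ⟨⟨i, ω'⟩, hmem, rfl⟩
      obtain ⟨_, hω'⟩ := Finset.mem_product.mp hmem
      obtain ⟨r, _, rfl⟩ := (hO₀ ω').mp hω'
      exact ⟨x ^ i * r, mul_smul _ _ _⟩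
  have hinj : Set.InjOn (fun a : ℕ × Ω => x ^ a.1 • a.2)
      (((Finset.range p) ×ˢ O₀ : Finset (ℕ × Ω)) : Set (ℕ × Ω)) := by
    rintro ⟨i, ω₁⟩ h1 ⟨j, ω₂⟩ h2 heq
    rw [Finset.mem_coe, Finset.mem_product] at h1 h2
    obtain ⟨r₁, hr₁, rfl⟩ := (hO₀ ω₁).mp h1.2
    obtain ⟨r₂, hr₂, rfl⟩ := (hO₀ ω₂).mp h2.2
    have heq' : x ^ i • r₁ • ω₀ = x ^ j • r₂ • ω₀ := heq
    have hij : i = j := by
      apply hinjx i (Finset.mem_range.mp h1.1) j (Finset.mem_range.mp h2.1)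
      have hst : (x ^ j * r₂)⁻¹ * (x ^ i * r₁) ∈ MulAction.stabilizer Q ω₀ := by
        rw [MulAction.mem_stabilizer_iff, mul_smul, mul_smul, heq', ← mul_smul, ← mul_smul,
          mul_assoc, inv_mul_cancel, one_smul]
      have hR' := hSR hst
      have : (x ^ j)⁻¹ * x ^ i = r₂ * ((x ^ j * r₂)⁻¹ * (x ^ i * r₁)) * r₁⁻¹ := by group
      rw [this]
      exact R.mul_mem (R.mul_mem hr₂ hR') (R.inv_mem hr₁)
    subst hij
    have := MulAction.injective (x ^ i) heq'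
    simp [this]
  rw [hOeq, Finset.prod_image hinj, Finset.prod_product]
  apply Finset.prod_congr rfl
  intro i _
  show ∏ ω ∈ O₀, c u (x ^ i • ω) = ∏ ω ∈ O₀, c ((x ^ i)⁻¹ * u * x ^ i) ω
  have hui : (x ^ i)⁻¹ * u * x ^ i ∈ R := by
    have := hRn.conj_mem u huR (x ^ i)⁻¹
    rwa [inv_inv] at this
  have h1 : ∀ ω, c u (x ^ i • ω) * c (x ^ i) ω =
      c (x ^ i) (((x ^ i)⁻¹ * u * x ^ i) • ω) * c ((x ^ i)⁻¹ * u * x ^ i) ω := by
    intro ω
    rw [← hc, ← hc]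
    congr 1
    group
  have h2 : (∏ ω ∈ O₀, c u (x ^ i • ω)) * ∏ ω ∈ O₀, c (x ^ i) ω =
      (∏ ω ∈ O₀, c (x ^ i) ω) * ∏ ω ∈ O₀, c ((x ^ i)⁻¹ * u * x ^ i) ω := by
    rw [← Finset.prod_mul_distrib, Finset.prod_congr rfl (fun ω _ => h1 ω),
      Finset.prod_mul_distrib, prod_smul_eq_prod _ O₀ (hO₀inv _ hui) (c (x ^ i))]
  rw [mul_comm] at h2
  exact mul_left_cancel h2

/-- Single orbit lemma, weakly closed version. -/
theorem coc_prod_orbit_wc (hQ : IsPGroup p Q) (W : Subgroup Q) (u : Q)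
    (hgen : ∀ R : Subgroup Q, W ≤ R → u ∈ R → R = ⊤)
    (c : Q → Ω → A) (hc : ∀ k k' ω, c (k * k') ω = c k (k' • ω) * c k' ω)
    (hcp : ∀ k ω, c k ω ^ p = 1)
    (hstar : ∀ (R : Subgroup Q), R.Normal → R.index = p → ∀ (ν : Q → A),
      (∀ a ∈ R, ∀ b ∈ R, ν (a * b) = ν a * ν b) → (∀ a ∈ R, ν a ^ p = 1) →
      ∀ x ∈ R, ∀ z ∈ W, z ∉ R → ν ((fun y => y⁻¹ * z⁻¹ * y * z)^[p - 1] x) = 1)
    (ω₀ : Ω) (hω₀ : ∃ q : Q, q • ω₀ ≠ ω₀) (O : Finset Ω)
    (hO : ∀ ω, ω ∈ O ↔ ∃ q : Q, q • ω₀ = ω)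
    (hu : ∀ ω ∈ O, ∀ n : ℕ, p ∣ n → u ^ n • ω = ω → c (u ^ n) ω = 1) :
    ∏ ω ∈ O, c u ω = 1 := by
  have hp : p.Prime := Fact.out
  have hstab : MulAction.stabilizer Q ω₀ ≠ ⊤ := by
    intro h
    obtain ⟨q, hq⟩ := hω₀
    exact hq (MulAction.mem_stabilizer_iff.mp (h ▸ Subgroup.mem_top q))
  obtain ⟨R, hRn, hidx, hSR⟩ := exists_normal_index_p_ge hQ _ hstab
  have hOinv : ∀ q : Q, ∀ ω ∈ O, q • ω ∈ O := by
    intro q ω hω
    obtain ⟨q', rfl⟩ := (hO ω).mp hω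
    exact (hO _).mpr ⟨q * q', mul_smul q q' ω₀⟩
  by_cases huR : u ∈ R
  · have hWR : ¬ W ≤ R := fun h => ne_top_of_index_eq_prime R hidx (hgen R h huR)
    obtain ⟨z, hzW, hzR⟩ := SetLike.not_le_iff_exists.mp hWR
    obtain ⟨ν, hν, hνp, hprod⟩ := coc_prod_orbit_eq_norm c hc hcp u ω₀ O hO R hidx hSR z hzR huR
    rw [hprod, prod_conj_eq_iterComm R ν hν hνp z u huR]
    exact hstar R hRn hidx ν hν hνp u huR z hzW hzR
  · apply coc_prod_cyclic c hc u O (hOinv u)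
    intro ω hω n hn
    apply hu ω hω n _ hn
    apply (pow_coset_of_index_prime R hidx u huR).2.2
    obtain ⟨q, rfl⟩ := (hO ω).mp hω
    have hst : q⁻¹ * u ^ n * q ∈ MulAction.stabilizer Q ω₀ := by
      rw [MulAction.mem_stabilizer_iff, mul_smul, mul_smul, hn, inv_smul_smul]
    have hR' := hRn.conj_mem _ (hSR hst) q
    have e : q * (q⁻¹ * u ^ n * q) * q⁻¹ = u ^ n := by group
    rwa [e] at hR'

/-- The cocycle lemma for a `p`-group `Q = W⟨u⟩`: if the iterated commutators `[x, z; p - 1]`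
(`z ∈ W`) are killed by all maps of exponent `p` on normal subgroups of index `p`, then the
product of `c u` over a `Q`-stable set without `Q`-fixed points is trivial. -/
theorem coc_prod_eq_one_wc (hQ : IsPGroup p Q) (W : Subgroup Q) (u : Q)
    (hgen : ∀ R : Subgroup Q, W ≤ R → u ∈ R → R = ⊤)
    (c : Q → Ω → A) (hc : ∀ k k' ω, c (k * k') ω = c k (k' • ω) * c k' ω)
    (hcp : ∀ k ω, c k ω ^ p = 1)
    (hstar : ∀ (R : Subgroup Q), R.Normal → R.index = p → ∀ (ν : Q → A),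
      (∀ a ∈ R, ∀ b ∈ R, ν (a * b) = ν a * ν b) → (∀ a ∈ R, ν a ^ p = 1) →
      ∀ x ∈ R, ∀ z ∈ W, z ∉ R → ν ((fun y => y⁻¹ * z⁻¹ * y * z)^[p - 1] x) = 1)
    (T : Finset Ω) (hT : ∀ q : Q, ∀ ω ∈ T, q • ω ∈ T) (hfix : ∀ ω ∈ T, ∃ q : Q, q • ω ≠ ω)
    (hu : ∀ ω ∈ T, ∀ n : ℕ, p ∣ n → u ^ n • ω = ω → c (u ^ n) ω = 1) :
    ∏ ω ∈ T, c u ω = 1 := by
  have : Fintype Q := Fintype.ofFinite Q
  refine prod_eq_one_of_peel (c u) (fun T => (∀ q : Q, ∀ ω ∈ T, q • ω ∈ T) ∧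
    (∀ ω ∈ T, ∃ q : Q, q • ω ≠ ω) ∧
    ∀ ω ∈ T, ∀ n : ℕ, p ∣ n → u ^ n • ω = ω → c (u ^ n) ω = 1) ?_ T ⟨hT, hfix, hu⟩
  rintro T ⟨hT, hfix, hu⟩ ⟨ω₀, hω₀⟩
  have hO : ∀ ω, ω ∈ Finset.univ.image (fun q : Q => q • ω₀) ↔ ∃ q : Q, q • ω₀ = ω := by
    intro ω; simp
  have hsub : Finset.univ.image (fun q : Q => q • ω₀) ⊆ T := by
    intro ω hω
    obtain ⟨q, rfl⟩ := (hO ω).mp hω
    exact hT q ω₀ hω₀
  refine ⟨_, hsub, ⟨ω₀, (hO _).mpr ⟨1, one_smul _ _⟩⟩, ⟨?_, ?_, ?_⟩, ?_⟩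
  · intro q ω hω
    rw [Finset.mem_sdiff] at hω ⊢
    refine ⟨hT q ω hω.1, fun hmem => hω.2 ?_⟩
    obtain ⟨q', hq'⟩ := (hO _).mp hmem
    refine (hO _).mpr ⟨q⁻¹ * q', ?_⟩
    rw [mul_smul, hq', inv_smul_smul]
  · exact fun ω hω => hfix ω (Finset.mem_sdiff.mp hω).1
  · exact fun ω hω => hu ω (Finset.mem_sdiff.mp hω).1
  · exact coc_prod_orbit_wc hQ W u hgen c hc hcp hstar ω₀ (hfix ω₀ hω₀) _ hO
      (fun ω hω => hu ω (hsub hω))

end PGroup

end Cfsg.Agent.H67
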