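import Mathlib
import Cfsg.Agent.H67.YoshidaWC
import Cfsg.Agent.H67.YoshidaTransfer
import Cfsg.Agent.H67.Conj

/-!
Helper lemmas of seat helper67 (towards S2792): Yoshida's transfer theorem for a weakly closed
subgroup `W` of a Sylow `p`-subgroup `P`: if every iterated commutator `[x, z; p - 1]`
(`x ∈ P`, `z ∈ W`) lying in a maximal subgroup `W₀` of `W` lies in the Frattini subgroup of `W₀`,
then `P ∩ G' ≤ N_G(W)'`.
-/

set_option autoImplicit false

namespace Cfsg.Agent.H67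

theorem isCoatom_of_index_prime {H : Type*} [Group H] {p : ℕ} [Fact p.Prime] (K : Subgroup H)
    (hK : K.index = p) : IsCoatom K := by
  have hp : p.Prime := Fact.out
  refine ⟨?_, ?_⟩
  · intro h
    rw [h, Subgroup.index_top] at hK
    exact hp.one_lt.ne hK
  · intro L hKL
    have h1 := Subgroup.relIndex_mul_index hKL.le
    rw [hK] at h1
    have h2 : L.index ∣ p := Dvd.intro_left _ h1
    rcases (Nat.dvd_prime hp).mp h2 with h | h
    · exact Subgroup.index_eq_one.mp h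
    · exfalso
      rw [h] at h1
      have h3 : K.relIndex L = 1 :=
        Nat.eq_of_mul_eq_mul_right hp.pos (by rw [one_mul]; exact h1)
      exact (not_le_of_gt hKL) (Subgroup.relIndex_eq_one.mp h3)

/-- A homomorphism of a finite group with values of exponent `p` in an abelian group kills the
Frattini subgroup. -/
theorem frattini_le_ker_of_exp {H : Type*} [Group H] [Finite H] {A : Type*} [CommGroup A]
    {p : ℕ} [Fact p.Prime] (ν₀ : H →* A) (hν : ∀ h : H, ν₀ h ^ p = 1) :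
    frattini H ≤ ν₀.ker := by
  intro x hx
  by_contra hne
  rw [MonoidHom.mem_ker] at hne
  have hexp : ∀ a : ν₀.range, a ^ p = 1 := by
    rintro ⟨_, h, rfl⟩
    exact Subtype.ext (hν h)
  have hz : (⟨ν₀ x, x, rfl⟩ : ν₀.range) ≠ 1 := fun h => hne (congrArg Subtype.val h)
  have : Finite ν₀.range := Finite.of_surjective ν₀.rangeRestrict ν₀.rangeRestrict_surjective
  obtain ⟨B, hzB, hBidx⟩ := Cfsg.Agent.H36.exists_index_prime_notMem hexp _ hz
  have hK : (B.comap ν₀.rangeRestrict).index = p := by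
    rw [Subgroup.index_comap_of_surjective B ν₀.rangeRestrict_surjective, hBidx]
  have h1 := frattini_le_coatom (isCoatom_of_index_prime _ hK) hx
  exact hzB h1

theorem iterComm_coe {G : Type*} [Group G] (U : Subgroup G) (z : U) (m : ℕ) : ∀ x : U,
    (((fun y : U => y⁻¹ * z⁻¹ * y * z)^[m] x : U) : G) =
      (fun y : G => y⁻¹ * (z : G)⁻¹ * y * z)^[m] x := by
  induction m with
  | zero => intro x; rfl
  | succ m ih =>
    intro x
    rw [Function.iterate_succ_apply, Function.iterate_succ_apply, ih]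
    rfl

section WC

variable {G : Type*} [Group G] [Finite G] (P : Subgroup G) {p : ℕ} [Fact p.Prime]
  {A : Type*} [CommGroup A]

theorem le_normalizer_of_wc (W : Subgroup G) (hWP : W ≤ P)
    (hwc : ∀ g : G, W.map (MulAut.conj g).toMonoidHom ≤ P →
      W.map (MulAut.conj g).toMonoidHom = W) : P ≤ Subgroup.normalizer (W : Set G) := by
  intro g hg
  rw [mem_normalizer_iff_map_conj]
  apply hwc
  rintro _ ⟨w, hw, rfl⟩
  exact P.mul_mem (P.mul_mem hg (hWP hw)) (P.inv_mem hg)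

/-- The commutator condition of the weakly closed subgroup, transported to a subgroup
`U` with `W ≤ U ≤ P`. -/
theorem hstar_of_hG (W : Subgroup G)
    (hG : ∀ x ∈ P, ∀ z ∈ W, ∀ W₀ : Subgroup ↥W, IsCoatom W₀ →
      (fun y : G => y⁻¹ * z⁻¹ * y * z)^[p - 1] x ∈ W₀.map W.subtype →
      (fun y : G => y⁻¹ * z⁻¹ * y * z)^[p - 1] x ∈
        ((frattini ↥W₀).map W₀.subtype).map W.subtype)
    (U : Subgroup G) (hWU : W ≤ U) (hUP : U ≤ P)
    (hUN : U ≤ Subgroup.normalizer (W : Set G))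
    (R : Subgroup U) (hRn : R.Normal) (hidx : R.index = p) (ν : U → A)
    (hν : ∀ a ∈ R, ∀ b ∈ R, ν (a * b) = ν a * ν b) (hνp : ∀ a ∈ R, ν a ^ p = 1)
    (x : U) (hx : x ∈ R) (z : U) (hz : z ∈ W.subgroupOf U) (hzR : z ∉ R) :
    ν ((fun y => y⁻¹ * z⁻¹ * y * z)^[p - 1] x) = 1 := by
  have hp : p.Prime := Fact.out
  have hzW : (z : G) ∈ W := Subgroup.mem_subgroupOf.mp hz
  obtain ⟨W₀, hW₀⟩ : ∃ W₀ : Subgroup ↥W, ∀ w : ↥W, w ∈ W₀ ↔
      (⟨(w : G), hWU w.2⟩ : U) ∈ R := by
    refine ⟨(R.map U.subtype).subgroupOf W, fun w => ?_⟩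
    rw [Subgroup.mem_subgroupOf, Subgroup.mem_map]
    constructor
    · rintro ⟨r, hr, hrw⟩
      have : r = ⟨(w : G), hWU w.2⟩ := Subtype.ext hrw
      rwa [this] at hr
    · intro hr
      exact ⟨_, hr, rfl⟩
  have hcoatom : IsCoatom W₀ := by
    refine ⟨?_, ?_⟩
    · intro h
      have h1 : (⟨(z : G), hzW⟩ : ↥W) ∈ W₀ := by rw [h]; trivial
      rw [hW₀] at h1
      exact hzR h1
    · intro V hV
      obtain ⟨v, hvV, hvW₀⟩ := SetLike.exists_of_lt hV
      rw [hW₀] at hvW₀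
      obtain ⟨hcos, -, -⟩ := pow_coset_of_index_prime R hidx (⟨(v : G), hWU v.2⟩ : U) hvW₀
      rw [eq_top_iff]
      intro w _
      obtain ⟨i, -, hi⟩ := hcos ⟨(w : G), hWU w.2⟩
      have h1 : (v ^ i)⁻¹ * w ∈ W₀ := by
        rw [hW₀]
        exact hi
      have h2 := V.mul_mem (V.pow_mem hvV i) (hV.le h1)
      rwa [mul_inv_cancel_left] at h2
  have hDR : ∀ y ∈ R, y⁻¹ * z⁻¹ * y * z ∈ R := by
    intro y hy
    have h1 := hRn.conj_mem y hy z⁻¹
    rw [inv_inv] at h1
    have := R.mul_mem (R.inv_mem hy) h1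
    have e : y⁻¹ * (z⁻¹ * y * z) = y⁻¹ * z⁻¹ * y * z := by group
    rwa [e] at this
  have hitR : ∀ m : ℕ, ∀ y ∈ R, (fun y => y⁻¹ * z⁻¹ * y * z)^[m] y ∈ R := by
    intro m
    induction m with
    | zero => intro y hy; exact hy
    | succ m ih =>
      intro y hy
      rw [Function.iterate_succ_apply]
      exact ih _ (hDR y hy)
  have hDW : ∀ y : U, ((y⁻¹ * z⁻¹ * y * z : U) : G) ∈ W := by
    intro y
    have hyN := hUN y.2
    have h1 : (y : G)⁻¹ * (z : G)⁻¹ * (y : G) ∈ W := by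
      have := (Subgroup.mem_normalizer_iff.mp (Subgroup.inv_mem _ hyN) (z : G)⁻¹).mp
        (W.inv_mem hzW)
      rwa [inv_inv] at this
    exact W.mul_mem h1 hzW
  have hp1 : p - 1 = (p - 2) + 1 := by have := hp.two_le; omega
  obtain ⟨it, hit⟩ : ∃ it : U, it = (fun y : U => y⁻¹ * z⁻¹ * y * z)^[p - 1] x := ⟨_, rfl⟩
  have hitW : (it : G) ∈ W := by
    rw [hit, hp1, Function.iterate_succ_apply']
    exact hDW _
  have hitR' : it ∈ R := by rw [hit]; exact hitR _ x hx
  have hcoe : (it : G) = (fun y : G => y⁻¹ * (z : G)⁻¹ * y * z)^[p - 1] x := by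
    rw [hit]
    exact iterComm_coe U z _ x
  rw [← hit]
  have h3 := hG (x : G) (hUP x.2) (z : G) hzW W₀ hcoatom (by
    rw [← hcoe]
    exact ⟨⟨(it : G), hitW⟩, (hW₀ _).mpr hitR', rfl⟩)
  rw [← hcoe] at h3
  obtain ⟨y₁, hy₁, hy₁eq⟩ := h3
  obtain ⟨y, hy, rfl⟩ := hy₁
  have hmemR : ∀ w : W₀, (⟨((w : ↥W) : G), hWU (w : ↥W).2⟩ : U) ∈ R := fun w => (hW₀ _).mp w.2
  let ν₀ : W₀ →* A := MonoidHom.mk' (fun w => ν ⟨((w : ↥W) : G), hWU (w : ↥W).2⟩) (by
    intro a b
    exact hν _ (hmemR a) _ (hmemR b))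
  have hker := frattini_le_ker_of_exp ν₀ (fun w => hνp _ (hmemR w)) hy
  rw [MonoidHom.mem_ker] at hker
  have h4 : (⟨((y : ↥W) : G), hWU (y : ↥W).2⟩ : U) = it := Subtype.ext hy₁eq
  rw [← h4]
  exact hker

variable [Fintype (G ⧸ P)]

/-- Step 5' for a weakly closed subgroup. -/
theorem transfer_eq_pow_of_wc (hP : IsPGroup p P) (hidx : ¬ p ∣ P.index) (W : Subgroup G)
    (hWP : W ≤ P)
    (hwc : ∀ g : G, W.map (MulAut.conj g).toMonoidHom ≤ P →
      W.map (MulAut.conj g).toMonoidHom = W)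
    (hG : ∀ x ∈ P, ∀ z ∈ W, ∀ W₀ : Subgroup ↥W, IsCoatom W₀ →
      (fun y : G => y⁻¹ * z⁻¹ * y * z)^[p - 1] x ∈ W₀.map W.subtype →
      (fun y : G => y⁻¹ * z⁻¹ * y * z)^[p - 1] x ∈
        ((frattini ↥W₀).map W₀.subtype).map W.subtype)
    (f : G → A)
    (hfN : ∀ a ∈ Subgroup.normalizer (W : Set G), ∀ b ∈ Subgroup.normalizer (W : Set G),
      f (a * b) = f a * f b)
    (hf : ∀ a ∈ P, ∀ b ∈ P, f (a * b) = f a * f b) (hfp : ∀ a ∈ P, f a ^ p = 1) :
    ∃ e : ℕ, ¬ p ∣ e ∧ ∀ u ∈ P, cosetTransfer P f hf u = f u ^ e := by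
  classical
  have hp : p.Prime := Fact.out
  have hPN : P ≤ Subgroup.normalizer (W : Set G) := le_normalizer_of_wc P W hWP hwc
  have hf1 : f 1 = 1 := by
    have := hf 1 P.one_mem 1 P.one_mem
    rw [mul_one] at this
    exact mul_eq_left.mp this.symm
  have hfinv : ∀ a ∈ Subgroup.normalizer (W : Set G), f a⁻¹ = (f a)⁻¹ := by
    intro a ha
    have := hfN a ha a⁻¹ (Subgroup.inv_mem _ ha)
    rw [mul_inv_cancel, hf1] at this
    exact eq_inv_of_mul_eq_one_right this.symm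
  obtain ⟨Fix, hFix⟩ : ∃ Fix : Finset (G ⧸ P), Fix =
      Finset.univ.filter (fun ω : G ⧸ P => ∀ w ∈ W, w • ω = ω) := ⟨_, rfl⟩
  have hmemFix : ∀ ω, ω ∈ Fix ↔ ∀ w ∈ W, w • ω = ω := by
    intro ω
    rw [hFix]
    simp
  have hcardfix : P.index ≡ Fix.card [MOD p] := by
    have h1 := (hP.to_le hWP).card_modEq_card_fixedPoints (G ⧸ P)
    have h2 : Nat.card (MulAction.fixedPoints ↥W (G ⧸ P)) = Fix.card :=
      Nat.subtype_card Fix (by
        intro ω
        rw [hmemFix, MulAction.mem_fixedPoints]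
        exact ⟨fun h w => h w.1 w.2, fun h w hw => h ⟨w, hw⟩⟩)
    rw [h2] at h1
    exact h1
  have hep : ¬ p ∣ Fix.card := fun h =>
    hidx (Nat.modEq_zero_iff_dvd.mp (hcardfix.trans (Nat.modEq_zero_iff_dvd.mpr h)))
  refine ⟨Fix.card, hep, ?_⟩
  have hτp : ∀ g : G, cosetTransfer P f hf g ^ p = 1 := by
    intro g
    rw [cosetTransfer_apply, ← Finset.prod_pow]
    exact Finset.prod_eq_one (fun ω _ => hfp _ (cosetCoc_mem P g ω))
  have hσN : ∀ ω ∈ Fix, Quotient.out ω ∈ Subgroup.normalizer (W : Set G) := by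
    intro ω hω
    rw [hmemFix] at hω
    have h1 : (Quotient.out ω)⁻¹ ∈ Subgroup.normalizer (W : Set G) := by
      rw [mem_normalizer_iff_map_conj]
      apply hwc
      rintro _ ⟨w, hw, rfl⟩
      have := cosetCoc_mem P w ω
      rw [hω w hw] at this
      show (Quotient.out ω)⁻¹ * w * ((Quotient.out ω)⁻¹)⁻¹ ∈ P
      rwa [inv_inv]
    have := Subgroup.inv_mem _ h1
    rwa [inv_inv] at this
  have hFixinv : ∀ g ∈ P, ∀ ω ∈ Fix, g • ω ∈ Fix := by
    intro g hg ω hω
    rw [hmemFix] at hω ⊢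
    intro w hw
    have hgN := hPN hg
    have h1 : g⁻¹ * w * g ∈ W := by
      have := (Subgroup.mem_normalizer_iff.mp (Subgroup.inv_mem _ hgN) w).mp hw
      rwa [inv_inv] at this
    have h2 := hω _ h1
    rw [← mul_smul]
    have e : w * g = g * (g⁻¹ * w * g) := by group
    rw [e, mul_smul, h2]
  have main : ∀ k : ℕ, ∀ u ∈ P, u ^ p ^ k = 1 → cosetTransfer P f hf u = f u ^ Fix.card := by
    intro k
    induction k with
    | zero =>
      intro u _ hu1
      rw [pow_zero, pow_one] at hu1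
      subst hu1
      rw [map_one, hf1, one_pow]
    | succ k ih =>
      intro u hu hupk
      rw [cosetTransfer_apply, ← Finset.prod_filter_mul_prod_filter_not Finset.univ
        (fun ω : G ⧸ P => ∀ w ∈ W, w • ω = ω), ← hFix]
      have hfixpart : ∏ ω ∈ Fix, cosetCoc P f u ω = f u ^ Fix.card := by
        have h1 : ∀ ω ∈ Fix, cosetCoc P f u ω =
            (f (Quotient.out (u • ω)))⁻¹ * f u * f (Quotient.out ω) := by
          intro ω hω
          have hN1 := hσN ω hω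
          have hN2 := hσN (u • ω) (hFixinv u hu ω hω)
          show f ((Quotient.out (u • ω))⁻¹ * u * Quotient.out ω) = _
          rw [hfN _ (Subgroup.mul_mem _ (Subgroup.inv_mem _ hN2) (hPN hu)) _ hN1,
            hfN _ (Subgroup.inv_mem _ hN2) _ (hPN hu), hfinv _ hN2]
        rw [Finset.prod_congr rfl h1, Finset.prod_mul_distrib, Finset.prod_mul_distrib,
          Finset.prod_inv_distrib,
          prod_smul_eq_prod u Fix (hFixinv u hu) (fun ω : G ⧸ P => f (Quotient.out ω)),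
          Finset.prod_const, mul_comm, mul_inv_cancel_left]
      have hrest : ∏ ω ∈ Finset.univ.filter (fun ω : G ⧸ P => ¬ ∀ w ∈ W, w • ω = ω),
          cosetCoc P f u ω = 1 := by
        obtain ⟨U, hU⟩ : ∃ U : Subgroup G, U = W ⊔ Subgroup.zpowers u := ⟨_, rfl⟩
        have hWU : W ≤ U := by rw [hU]; exact le_sup_left
        have huU : u ∈ U := by
          rw [hU]
          exact (le_sup_right : Subgroup.zpowers u ≤ _) (Subgroup.mem_zpowers u)
        have hUP : U ≤ P := by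
          rw [hU]
          exact sup_le hWP ((Subgroup.zpowers_le).mpr hu)
        have hUN : U ≤ Subgroup.normalizer (W : Set G) := hUP.trans hPN
        have hgen : ∀ R : Subgroup U, W.subgroupOf U ≤ R → (⟨u, huU⟩ : U) ∈ R → R = ⊤ := by
          intro R hWR huR
          rw [eq_top_iff]
          intro q _
          have h1 : U ≤ R.map U.subtype := by
            refine hU.le.trans (sup_le ?_ ?_)
            · intro w hw
              exact ⟨⟨w, hWU hw⟩, hWR (Subgroup.mem_subgroupOf.mpr hw), rfl⟩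
            · rw [Subgroup.zpowers_le]
              exact ⟨⟨u, huU⟩, huR, rfl⟩
          obtain ⟨r, hr, hrq⟩ := h1 q.2
          have : r = q := Subtype.ext hrq
          rwa [this] at hr
        have key := coc_prod_eq_one_wc (hP.to_le hUP) (W.subgroupOf U) (⟨u, huU⟩ : U) hgen
          (fun (q : U) (ω : G ⧸ P) => cosetCoc P f (q : G) ω)
          (fun k k' ω => cosetCoc_mul P f hf k k' ω) (fun k ω => hfp _ (cosetCoc_mem P k ω))
          (fun R hRn hRidx ν hν hνp x hx z hz hzR =>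
            hstar_of_hG P W hG U hWU hUP hUN R hRn hRidx ν hν hνp x hx z hz hzR)
          (Finset.univ.filter (fun ω : G ⧸ P => ¬ ∀ w ∈ W, w • ω = ω)) ?_ ?_ ?_
        · exact key
        · intro q ω hω
          rw [Finset.mem_filter] at hω ⊢
          refine ⟨Finset.mem_univ _, fun hfix => hω.2 ?_⟩
          have h1 : (q : G) • ω ∈ Fix := (hmemFix _).mpr hfix
          have h2 := hFixinv (q : G)⁻¹ (P.inv_mem (hUP q.2)) _ h1
          rw [inv_smul_smul] at h2
          exact (hmemFix _).mp h2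
        · intro ω hω
          rw [Finset.mem_filter] at hω
          have := hω.2
          push Not at this
          obtain ⟨w, hw, hne⟩ := this
          exact ⟨⟨w, hWU hw⟩, hne⟩
        · intro ω _ n hpn hfix
          have hfix' : u ^ n • ω = ω := hfix
          show cosetCoc P f (u ^ n) ω = 1
          unfold cosetCoc
          rw [hfix']
          have hv : (Quotient.out ω)⁻¹ * u ^ n * Quotient.out ω ∈ P := by
            have := cosetCoc_mem P (u ^ n) ω
            rwa [hfix'] at this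
          have hvk : ((Quotient.out ω)⁻¹ * u ^ n * Quotient.out ω) ^ p ^ k = 1 := by
            obtain ⟨m, rfl⟩ := hpn
            rw [conj_inv_pow, ← pow_mul, mul_right_comm, ← pow_succ', pow_mul, hupk, one_pow,
              mul_one, inv_mul_cancel]
          have h1 := ih _ hv hvk
          have h2 : cosetTransfer P f hf ((Quotient.out ω)⁻¹ * u ^ n * Quotient.out ω) = 1 := by
            obtain ⟨m, rfl⟩ := hpn
            rw [map_mul, map_mul, map_inv, map_pow, pow_mul, hτp, one_pow, mul_one,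
              inv_mul_cancel]
          rw [h2] at h1
          exact eq_one_of_pow_eq_one_of_not_dvd hp hep _ (hfp _ hv) h1.symm
      rw [hfixpart, hrest, mul_one]
  intro u hu
  obtain ⟨k, hk⟩ := (IsPGroup.iff_orderOf.mp hP) ⟨u, hu⟩
  apply main k u hu
  have h3 : (⟨u, hu⟩ : ↥P) ^ p ^ k = 1 := by rw [← hk]; exact pow_orderOf_eq_one _
  exact congrArg Subtype.val h3

/-- Step 6 for a weakly closed subgroup. -/
theorem exists_hom_extending_of_exp_p_wc (hP : IsPGroup p P) (hidx : ¬ p ∣ P.index)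
    (W : Subgroup G) (hWP : W ≤ P)
    (hwc : ∀ g : G, W.map (MulAut.conj g).toMonoidHom ≤ P →
      W.map (MulAut.conj g).toMonoidHom = W)
    (hG : ∀ x ∈ P, ∀ z ∈ W, ∀ W₀ : Subgroup ↥W, IsCoatom W₀ →
      (fun y : G => y⁻¹ * z⁻¹ * y * z)^[p - 1] x ∈ W₀.map W.subtype →
      (fun y : G => y⁻¹ * z⁻¹ * y * z)^[p - 1] x ∈
        ((frattini ↥W₀).map W₀.subtype).map W.subtype)
    (f : G → A)
    (hfN : ∀ a ∈ Subgroup.normalizer (W : Set G), ∀ b ∈ Subgroup.normalizer (W : Set G),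
      f (a * b) = f a * f b)
    (hfp : ∀ a ∈ P, f a ^ p = 1) : ∃ κ : G →* A, ∀ u ∈ P, κ u = f u := by
  have hp : p.Prime := Fact.out
  have hPN : P ≤ Subgroup.normalizer (W : Set G) := le_normalizer_of_wc P W hWP hwc
  have hf : ∀ a ∈ P, ∀ b ∈ P, f (a * b) = f a * f b :=
    fun a ha b hb => hfN a (hPN ha) b (hPN hb)
  obtain ⟨e, hep, he⟩ := transfer_eq_pow_of_wc P hP hidx W hWP hwc hG f hfN hf hfp
  have hcop : Nat.Coprime e p := ((Nat.Prime.coprime_iff_not_dvd hp).mpr hep).symm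
  obtain ⟨m, -, hm⟩ := Nat.exists_mul_mod_eq_one_of_coprime hcop hp.one_lt
  refine ⟨(cosetTransfer P f hf) ^ m, fun u hu => ?_⟩
  rw [MonoidHom.pow_apply, he u hu, ← pow_mul]
  exact pow_eq_self_of_mod_eq_one _ (hfp u hu) hm

/-- Step 7 for a weakly closed subgroup. -/
theorem exists_hom_extending_wc (hP : IsPGroup p P) (hidx : ¬ p ∣ P.index)
    (W : Subgroup G) (hWP : W ≤ P)
    (hwc : ∀ g : G, W.map (MulAut.conj g).toMonoidHom ≤ P →
      W.map (MulAut.conj g).toMonoidHom = W)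
    (hG : ∀ x ∈ P, ∀ z ∈ W, ∀ W₀ : Subgroup ↥W, IsCoatom W₀ →
      (fun y : G => y⁻¹ * z⁻¹ * y * z)^[p - 1] x ∈ W₀.map W.subtype →
      (fun y : G => y⁻¹ * z⁻¹ * y * z)^[p - 1] x ∈
        ((frattini ↥W₀).map W₀.subtype).map W.subtype) :
    ∀ (k : ℕ) (χ : G → A),
      (∀ a ∈ Subgroup.normalizer (W : Set G), ∀ b ∈ Subgroup.normalizer (W : Set G),
        χ (a * b) = χ a * χ b) →
      (∀ a ∈ P, χ a ^ p ^ k = 1) → ∃ κ : G →* A, ∀ u ∈ P, κ u = χ u := by
  classical
  have hp : p.Prime := Fact.out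
  have hPN : P ≤ Subgroup.normalizer (W : Set G) := le_normalizer_of_wc P W hWP hwc
  intro k
  induction k with
  | zero =>
    intro χ _ h1
    refine ⟨1, fun u hu => ?_⟩
    have := h1 u hu
    rw [pow_zero, pow_one] at this
    rw [MonoidHom.one_apply, this]
  | succ k ih =>
    intro χ hχN hexp
    have hχ : ∀ a ∈ P, ∀ b ∈ P, χ (a * b) = χ a * χ b :=
      fun a ha b hb => hχN a (hPN ha) b (hPN hb)
    obtain ⟨κ₁, hκ₁⟩ := ih (fun g => χ g ^ p)
      (fun a ha b hb => by rw [hχN a ha b hb, mul_pow])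
      (fun a ha => by rw [← pow_mul, ← pow_succ']; exact hexp a ha)
    have hκ₁' : ∀ u ∈ P, κ₁ u = χ u ^ p := hκ₁
    have hn : Fintype.card (G ⧸ P) = P.index := by
      rw [Subgroup.index, Nat.card_eq_fintype_card]
    have hτp : ∀ u ∈ P, cosetTransfer P χ hχ u ^ p = (χ u ^ p) ^ P.index := by
      intro u hu
      rw [cosetTransfer_apply, ← Finset.prod_pow]
      have h1 : ∀ ω : G ⧸ P, cosetCoc P χ u ω ^ p =
          (κ₁ (Quotient.out (u • ω)))⁻¹ * κ₁ u * κ₁ (Quotient.out ω) := by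
        intro ω
        show χ ((Quotient.out (u • ω))⁻¹ * u * Quotient.out ω) ^ p = _
        rw [← hκ₁' _ (cosetCoc_mem P u ω), map_mul, map_mul, map_inv]
      rw [Finset.prod_congr rfl (fun ω _ => h1 ω), Finset.prod_mul_distrib,
        Finset.prod_mul_distrib, Finset.prod_inv_distrib,
        prod_smul_eq_prod u (Finset.univ : Finset (G ⧸ P)) (fun ω _ => Finset.mem_univ _)
          (fun ω : G ⧸ P => κ₁ (Quotient.out ω)), Finset.prod_const, Finset.card_univ, hn,
        hκ₁' u hu, mul_comm, mul_inv_cancel_left]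
    have hδ : ∀ a ∈ Subgroup.normalizer (W : Set G), ∀ b ∈ Subgroup.normalizer (W : Set G),
        cosetTransfer P χ hχ (a * b) * (χ (a * b) ^ P.index)⁻¹ =
        cosetTransfer P χ hχ a * (χ a ^ P.index)⁻¹ *
          (cosetTransfer P χ hχ b * (χ b ^ P.index)⁻¹) := by
      intro a ha b hb
      rw [map_mul, hχN a ha b hb, mul_pow, mul_inv, mul_mul_mul_comm]
    have hδp : ∀ a ∈ P, (cosetTransfer P χ hχ a * (χ a ^ P.index)⁻¹) ^ p = 1 := by
      intro a ha
      rw [mul_pow, inv_pow, hτp a ha, ← pow_mul, ← pow_mul, mul_comm p, mul_inv_cancel]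
    obtain ⟨κ₃, hκ₃⟩ := exists_hom_extending_of_exp_p_wc P hP hidx W hWP hwc hG
      (fun g => cosetTransfer P χ hχ g * (χ g ^ P.index)⁻¹) hδ hδp
    have hκ₃' : ∀ u ∈ P, κ₃ u = cosetTransfer P χ hχ u * (χ u ^ P.index)⁻¹ := hκ₃
    have hcop : Nat.Coprime P.index (p ^ (k + 1)) :=
      Nat.Coprime.pow_right (k + 1) ((Nat.Prime.coprime_iff_not_dvd hp).mpr hidx).symm
    obtain ⟨m, -, hm⟩ := Nat.exists_mul_mod_eq_one_of_coprime hcop
      (Nat.one_lt_pow (by omega) hp.one_lt)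
    refine ⟨(cosetTransfer P χ hχ * κ₃⁻¹) ^ m, fun u hu => ?_⟩
    rw [MonoidHom.pow_apply, MonoidHom.mul_apply, MonoidHom.inv_apply, hκ₃' u hu, mul_inv,
      inv_inv, mul_inv_cancel_left, ← pow_mul]
    exact pow_eq_self_of_mod_eq_one _ (hexp u hu) hm

end WC

/-- **Yoshida's transfer theorem for weakly closed subgroups** (contrapositive form). -/
theorem wc_inf_commutator_le {G : Type*} [Group G] [Finite G] {p : ℕ} [Fact p.Prime]
    (S : Sylow p G) (W : Subgroup G) (hWS : W ≤ (S : Subgroup G))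
    (hwc : ∀ g : G, W.map (MulAut.conj g).toMonoidHom ≤ (S : Subgroup G) →
      W.map (MulAut.conj g).toMonoidHom = W)
    (hG : ∀ x ∈ (S : Subgroup G), ∀ z ∈ W, ∀ W₀ : Subgroup ↥W, IsCoatom W₀ →
      (fun y : G => y⁻¹ * z⁻¹ * y * z)^[p - 1] x ∈ W₀.map W.subtype →
      (fun y : G => y⁻¹ * z⁻¹ * y * z)^[p - 1] x ∈
        ((frattini ↥W₀).map W₀.subtype).map W.subtype) :
    (S : Subgroup G) ⊓ commutator G ≤
      ⁅Subgroup.normalizer (W : Set G), Subgroup.normalizer (W : Set G)⁆ := by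
  classical
  have hp : p.Prime := Fact.out
  have : Fintype (G ⧸ (S : Subgroup G)) := Fintype.ofFinite _
  obtain ⟨N, hNdef⟩ : ∃ N : Subgroup G, N = Subgroup.normalizer (W : Set G) := ⟨_, rfl⟩
  have hSN : (S : Subgroup G) ≤ N := by
    rw [hNdef]
    exact le_normalizer_of_wc _ W hWS hwc
  let χ : G → Abelianization ↥N := fun g => if h : g ∈ N then Abelianization.of ⟨g, h⟩ else 1
  have hχN : ∀ g (h : g ∈ N), χ g = Abelianization.of ⟨g, h⟩ := fun g h => dif_pos h
  have hχmul : ∀ a ∈ N, ∀ b ∈ N, χ (a * b) = χ a * χ b := by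
    intro a ha b hb
    rw [hχN a ha, hχN b hb, hχN _ (N.mul_mem ha hb), ← map_mul]
    rfl
  have hχ1 : χ 1 = 1 := by
    rw [hχN 1 N.one_mem]
    exact map_one _
  obtain ⟨k, hk⟩ := IsPGroup.iff_card.1 S.isPGroup'
  have hexp : ∀ a ∈ (S : Subgroup G), χ a ^ p ^ k = 1 := by
    intro a ha
    have hpow : ∀ n : ℕ, χ (a ^ n) = χ a ^ n := by
      intro n
      induction n with
      | zero => simp [hχ1]
      | succ n ih => rw [pow_succ, hχmul _ (N.pow_mem (hSN ha) n) _ (hSN ha), ih, pow_succ]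
    rw [← hpow, ← hk]
    have h3 : a ^ Nat.card ↥(S : Subgroup G) = 1 := by
      have h4 := pow_card_eq_one' (G := ↥(S : Subgroup G)) (x := ⟨a, ha⟩)
      exact congrArg Subtype.val h4
    rw [h3, hχ1]
  obtain ⟨κ, hκ⟩ := exists_hom_extending_wc (S : Subgroup G) S.isPGroup' S.not_dvd_index W hWS
    hwc hG k χ (by rw [← hNdef]; exact hχmul) hexp
  intro u hu
  obtain ⟨huS, huG⟩ := Subgroup.mem_inf.mp hu
  have h1 : κ u = 1 := MonoidHom.mem_ker.mp (Abelianization.commutator_subset_ker κ huG)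
  rw [hκ u huS, hχN u (hSN huS)] at h1
  have h2 : (⟨u, hSN huS⟩ : ↥N) ∈ commutator ↥N := by
    rw [← Abelianization.ker_of]
    exact h1
  rw [← hNdef, ← Subgroup.map_subtype_commutator]
  exact ⟨_, h2, rfl⟩

end Cfsg.Agent.H67
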